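import Mathlib
import Cfsg.Agent.H41.S6Kit2

/-!
Counting invariants of a subset of an elementary abelian group of order `128`.
-/

set_option autoImplicit false
set_option maxRecDepth 100000
set_option synthInstance.maxSize 4096

namespace Cfsg.Agent.H47.S6F

open Cfsg.Agent.H41.S6

/-- The sum of `f` over the numbers below `n`. -/
def sm (f : ℕ → ℕ) (n : ℕ) : ℕ := Nat.rec 0 (fun k s => s + f k) n

theorem sm_eq (f : ℕ → ℕ) (n : ℕ) : sm f n = ∑ c ∈ Finset.range n, f c := by
  induction n with
  | zero => rfl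
  | succ n ih => rw [Finset.sum_range_succ, ← ih]; rfl

/-- A linear permutation of the codes which preserves the set `m`. -/
structure Pi (π : ℕ → ℕ) (m : ℕ) : Prop where
  lt : ∀ c < 128, π c < 128
  inj : ∀ c < 128, ∀ d < 128, π c = π d → c = d
  xor : ∀ c < 128, ∀ d < 128, π (c ^^^ d) = π c ^^^ π d
  bit : ∀ c < 128, m.testBit (π c) = m.testBit c

theorem xl {c d : ℕ} (hc : c < 128) (hd : d < 128) : c ^^^ d < 128 :=
  Nat.xor_lt_two_pow (n := 7) hc hd

theorem Pi.sum {π : ℕ → ℕ} {m : ℕ} (h : Pi π m) {f g : ℕ → ℕ} (e : ∀ c < 128, f (π c) = g c) :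
    sm f 128 = sm g 128 := by
  rw [sm_eq, sm_eq]
  have h1 : Set.MapsTo π (Finset.range 128) (Finset.range 128) := fun c hc =>
    Finset.mem_coe.2 (Finset.mem_range.2 (h.lt c (Finset.mem_range.1 hc)))
  have h2 : Set.InjOn π (Finset.range 128) := fun c hc d hd =>
    h.inj c (Finset.mem_range.1 hc) d (Finset.mem_range.1 hd)
  exact (Finset.sum_nbij π h1 h2 (Finset.surjOn_of_injOn_of_card_le π h1 h2 le_rfl)
    fun c hc => (e c (Finset.mem_range.1 hc)).symm).symm

/-- The first invariant. -/
def i2 (m d : ℕ) : ℕ := sm (fun x => bif m.testBit x && m.testBit (x ^^^ d) then 1 else 0) 128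

/-- The second invariant. -/
def i3 (m d : ℕ) : ℕ := sm (fun x => bif m.testBit x then
  sm (fun y => bif m.testBit y && m.testBit (x ^^^ y ^^^ d) then 1 else 0) 128 else 0) 128

/-- The third invariant. -/
def i4 (m d : ℕ) : ℕ := sm (fun x => bif m.testBit x then
  sm (fun y => bif m.testBit y && m.testBit (x ^^^ y ^^^ d) then
    sm (fun z => bif m.testBit z && (m.testBit (z ^^^ d ^^^ x) && m.testBit (z ^^^ d ^^^ y))
      then 1 else 0) 128 else 0) 128 else 0) 128

theorem Pi.inv {π : ℕ → ℕ} {m : ℕ} (h : Pi π m) {d : ℕ} (hd : d < 128) :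
    i2 m (π d) = i2 m d ∧ i3 m (π d) = i3 m d ∧ i4 m (π d) = i4 m d := by
  have k2 : ∀ x < 128, ∀ y < 128, m.testBit (π x ^^^ π y) = m.testBit (x ^^^ y) := fun x hx y hy => by
    rw [← h.xor x hx y hy, h.bit _ (xl hx hy)]
  have k3 : ∀ x < 128, ∀ y < 128, ∀ z < 128, m.testBit (π x ^^^ π y ^^^ π z) =
      m.testBit (x ^^^ y ^^^ z) := fun x hx y hy z hz => by
    rw [← h.xor x hx y hy, k2 _ (xl hx hy) z hz]
  refine ⟨h.sum fun x hx => ?_, h.sum fun x hx => ?_, h.sum fun x hx => ?_⟩
  · rw [h.bit x hx, k2 x hx d hd]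
  · rw [h.bit x hx]
    congr 1
    exact h.sum fun y hy => by rw [h.bit y hy, k3 x hx y hy d hd]
  · rw [h.bit x hx]
    congr 1
    refine h.sum fun y hy => ?_
    rw [h.bit y hy, k3 x hx y hy d hd]
    congr 1
    exact h.sum fun z hz => by rw [h.bit z hz, k3 z hz d hd x hx, k3 z hz d hd y hy]

/-- The table of the classes. -/
def ty (c : ℕ) : ℕ :=
  (8691503555467106158654439724900792557799682278727198108449403416790854349072 >>> (4 * c)) % 16

theorem rep_ty : ∀ c < 64, rep c = ty c := by decide +kernel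

/-- The set of the conjugates. -/
def mk (b a c d e : Bool) : ℕ :=
  (1 + (bif b then 9223372311734781974 else 0) + (bif a then 72340172838076672 else 0) +
    (bif c then 7500785398576219752 else 0) + (bif d then 1650246190560473216 else 0)) * 2 ^ 64 +
    bif e then 1650246190560473216 else 0

theorem mk_bit : ∀ b a c d e : Bool, ∀ x < 64,
    ((mk b a c d e).testBit x = true ↔ ty x = 7 ∧ e = true) ∧
    ((mk b a c d e).testBit (64 + x) = true ↔ ty x = 0 ∨ (ty x = 1 ∧ b = true) ∨
      (ty x = 8 ∧ a = true) ∨ (ty x = 3 ∧ c = true) ∨ (ty x = 7 ∧ d = true)) := by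
  decide +kernel

theorem no_e : ∀ b a c d : Bool, i2 (mk b a c d true) 7 ≠ i2 (mk b a c d true) 64 := by
  decide +kernel

theorem cases3 : ∀ b a c d : Bool, (b = true → i3 (mk b a c d false) 65 = i3 (mk b a c d false) 64) →
    (a = true → i3 (mk b a c d false) 72 = i3 (mk b a c d false) 64) →
    (c = true → i3 (mk b a c d false) 67 = i3 (mk b a c d false) 64) →
    (d = true → i3 (mk b a c d false) 71 = i3 (mk b a c d false) 64) →
    (b, a, c, d) = (false, false, false, false) ∨ (b, a, c, d) = (true, false, false, false) ∨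
    (b, a, c, d) = (false, true, false, false) ∨ (b, a, c, d) = (true, true, true, false) ∨
    (b, a, c, d) = (false, true, false, true) ∨ (b, a, c, d) = (true, true, true, true) := by
  decide +kernel

theorem no_bac : i4 (mk true true true false false) 65 ≠ i4 (mk true true true false false) 64 := by
  decide +kernel

end Cfsg.Agent.H47.S6F
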