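import Mathlib
import Cfsg.Agent.H47.S6F1a
import Cfsg.Agent.H93.GT

/-!
Fusion of an involution with centralizer `2 × Sp₆(2)` in the elementary abelian group of order `128`.
-/

set_option autoImplicit false
set_option maxRecDepth 100000
set_option synthInstance.maxSize 4096
set_option linter.unusedSectionVars false

namespace Cfsg.Agent.H47.S6F

open Cfsg Subgroup
open Cfsg.Agent.H44 Cfsg.Agent.H55.Sp6 Cfsg.Agent.H2.L3E Cfsg.Agent.H41.S6

universe u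

variable {G : Type u} [Group G] [Finite G] {ι : Sp →* G} {t : G}

/-- The element with code `c`. -/
noncomputable def el (ι : Sp →* G) (t : G) (c : ℕ) : G :=
  if c < 64 then ι (ac c) else t * ι (ac (c - 64))

omit [Finite G] in
theorem el_lo {c : ℕ} (hc : c < 64) : el ι t c = ι (ac c) := if_pos hc

omit [Finite G] in
theorem el_hi (c : ℕ) : el ι t (64 + c) = t * ι (ac c) := by
  rw [el, if_neg (by omega), Nat.add_sub_cancel_left]

theorem split {c : ℕ} (hc : c < 128) : c < 64 ∨ ∃ d < 64, c = 64 + d :=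
  (lt_or_ge c 64).imp_right fun h => ⟨c - 64, by omega, by omega⟩

theorem xor_hi : ∀ c < 64, ∀ d < 64, c ^^^ (64 + d) = 64 + (c ^^^ d) ∧
    (64 + c) ^^^ d = 64 + (c ^^^ d) ∧ (64 + c) ^^^ (64 + d) = c ^^^ d := by decide +kernel

section
variable (h : Hy ι t)
include h

theorem el_mul {c d : ℕ} (hc : c < 128) (hd : d < 128) : el ι t c * el ι t d = el ι t (c ^^^ d) := by
  have hc' := split hc
  have hd' := split hd
  clear hc hd
  rcases hc' with hc | ⟨c, hc, rfl⟩ <;> rcases hd' with hd | ⟨d, hd, rfl⟩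
  · rw [el_lo hc, el_lo hd, el_lo (xor_lt hc hd), ← map_mul, ac_mul hc hd]
  · rw [(xor_hi c hc d hd).1, el_lo hc, el_hi, el_hi, ← mul_assoc, ← h.ct, mul_assoc, ← map_mul,
      ac_mul hc hd]
  · rw [(xor_hi c hc d hd).2.1, el_lo hd, el_hi, el_hi, mul_assoc, ← map_mul, ac_mul hc hd]
  · rw [(xor_hi c hc d hd).2.2, el_lo (xor_lt hc hd), el_hi, el_hi, mul_assoc, ← mul_assoc (ι _),
      ← h.ct, mul_assoc, h.ttx, ← map_mul, ac_mul hc hd]

theorem el_inj {c d : ℕ} (hc : c < 128) (hd : d < 128) (e : el ι t c = el ι t d) : c = d := by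
  have hc' := split hc
  have hd' := split hd
  clear hc hd
  rcases hc' with hc | ⟨c, hc, rfl⟩ <;> rcases hd' with hd | ⟨d, hd, rfl⟩
  · rw [el_lo hc, el_lo hd] at e
    exact ac_inj hc hd (h.inj e)
  · rw [el_lo hc, el_hi] at e
    exact absurd e (h.ne_t _ _)
  · rw [el_lo hd, el_hi] at e
    exact absurd e.symm (h.ne_t _ _)
  · rw [el_hi, el_hi] at e
    rw [ac_inj hc hd (h.inj (mul_left_cancel e))]

theorem mem_el {x : G} : x ∈ E3 ι t ↔ ∃ c < 128, x = el ι t c := by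
  rw [h.mem_E3]
  refine ⟨fun ⟨a, ha, e⟩ => ?_, fun ⟨c, hc, e⟩ => ?_⟩
  · obtain ⟨c, hc, rfl⟩ := A_par.1 ha
    exact e.elim (fun e => ⟨c, by omega, e.trans (el_lo hc).symm⟩)
      fun e => ⟨64 + c, by omega, e.trans (el_hi c).symm⟩
  · have hc' := split hc
    clear hc
    rcases hc' with hc | ⟨c, hc, rfl⟩
    exacts [⟨_, ac_mem hc, .inl (e.trans (el_lo hc))⟩, ⟨_, ac_mem hc, .inr (e.trans (el_hi c))⟩]

theorem lo_iff {c : ℕ} (hc : c < 64) : IsConj t (ι (ac c)) ↔ IsConj t (ι (ac (ty c))) := by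
  obtain ⟨p, -, e⟩ := orb hc
  have k : IsConj (ι (ac c)) (ι (ac (ty c))) := ι.map_isConj (isConj_iff.2 ⟨p, rep_ty c hc ▸ e⟩)
  exact ⟨fun a => a.trans k, fun a => a.trans k.symm⟩

theorem hi_iff {c : ℕ} (hc : c < 64) : IsConj t (t * ι (ac c)) ↔ IsConj t (t * ι (ac (ty c))) := by
  obtain ⟨p, -, e⟩ := orb hc
  have k : IsConj (t * ι (ac c)) (t * ι (ac (ty c))) :=
    isConj_iff.2 ⟨ι p, by rw [h.conj_tl, e, rep_ty c hc]⟩
  exact ⟨fun a => a.trans k, fun a => a.trans k.symm⟩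

theorem exists_mk (hb : NB ι t) : ∃ b a c d e : Bool, ∀ x < 128,
    IsConj t (el ι t x) ↔ (mk b a c d e).testBit x = true := by
  classical
  refine ⟨decide (IsConj t (t * ι (ac 1))), decide (IsConj t (t * ι (ac 8))),
    decide (IsConj t (t * ι (ac 3))), decide (IsConj t (t * ι (ac 7))),
    decide (IsConj t (ι (ac 7))), fun x hx => ?_⟩
  have h0 : ¬ IsConj t (ι (ac 0)) := by
    rw [ac_zero, map_one, isConj_one_left]
    exact h.t_ne_one
  have h1 : IsConj t (t * ι (ac 0)) := by rw [ac_zero, map_one, mul_one]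
  have hx' := split hx
  clear hx
  rcases hx' with hx | ⟨x, hx, rfl⟩
  · rw [(mk_bit _ _ _ _ _ x hx).1, el_lo hx, lo_iff h hx]
    have := rep_ty x hx ▸ rep_mem x hx
    simp only [List.mem_cons, List.not_mem_nil, or_false] at this
    rcases this with e | e | e | e | e <;> rw [e] <;> simp [h0, hb.1, hb.2.1, hb.2.2, -isConj_iff]
  · rw [(mk_bit _ _ _ _ _ x hx).2, el_hi, hi_iff h hx]
    have := rep_ty x hx ▸ rep_mem x hx
    simp only [List.mem_cons, List.not_mem_nil, or_false] at this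
    rcases this with e | e | e | e | e <;> rw [e] <;> simp [h1, -isConj_iff]

theorem inv_eq (ht : Tr ι t) {m : ℕ} (hm : ∀ x < 128, IsConj t (el ι t x) ↔ m.testBit x = true)
    {d : ℕ} (hd : d < 128) (hb : m.testBit d = true) :
    i2 m d = i2 m 64 ∧ i3 m d = i3 m 64 ∧ i4 m d = i4 m 64 := by
  obtain ⟨n, hn, e⟩ := ht _ ((mem_el h).2 ⟨d, hd, rfl⟩) ((hm d hd).2 hb)
  have k : ∀ c, c < 128 → ∃ c', c' < 128 ∧ n * el ι t c * n⁻¹ = el ι t c' := fun c hc =>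
    (mem_el h).1 (mem_NE.1 hn _ ((mem_el h).2 ⟨c, hc, rfl⟩))
  choose! π h1 h2 using k
  have h3 : π 64 = d := el_inj h (h1 _ (by omega)) hd (by
    rw [← h2 _ (by omega), ← e, el_hi 0, ac_zero, map_one, mul_one])
  refine h3 ▸ Pi.inv ⟨h1, fun c hc c' hc' e => el_inj h hc hc' ?_, fun c hc c' hc' => ?_,
    fun c hc => ?_⟩ (by omega)
  · exact (MulAut.conj n).injective ((h2 c hc).trans (e ▸ (h2 c' hc').symm))
  · refine el_inj h (h1 _ (xl hc hc')) (xl (h1 c hc) (h1 c' hc')) ?_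
    rw [← el_mul h (h1 c hc) (h1 c' hc'), ← h2 c hc, ← h2 c' hc', ← h2 _ (xl hc hc'),
      ← el_mul h hc hc', conj_mul]
  · rw [Bool.eq_iff_iff, ← hm _ (h1 c hc), ← hm c hc, ← h2 c hc]
    have k : IsConj (el ι t c) (n * el ι t c * n⁻¹) := isConj_iff.2 ⟨n, rfl⟩
    exact ⟨fun a => a.trans k.symm, fun a => a.trans k⟩

theorem nl_of (k : KB) (h0 : ∀ c < 64, ¬ IsConj t (ι (ac c))) : NL ι t := fun l e => by
  have h1 : l * l = 1 := by
    obtain ⟨x, hx⟩ := isConj_iff.1 e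
    exact h.inj (by rw [map_mul, ← hx, conj_mul, h.tt, map_one]; simp)
  obtain ⟨p, hp⟩ := k.cls l h1
  obtain ⟨c, hc, e1⟩ := A_par.1 hp
  exact h0 c hc (e.trans (ι.map_isConj (isConj_iff.2 ⟨p, e1⟩)))

theorem no_empty (k : KB) (hg : GenT ι t) (hn : NL ι t)
    (h0 : ∀ c < 64, IsConj t (t * ι (ac c)) → c = 0) : False := by
  refine hg ⊥ (by simp) (by simp) (fun x hx _ => ⟨1, by rw [map_one]; exact hx⟩) fun y hy e => ?_
  rw [bot_sup_eq, h.mem_sup] at hy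
  obtain ⟨l, -, rfl | rfl⟩ := hy
  · exact absurd e (hn l)
  have h1 : l * l = 1 := by
    obtain ⟨x, hx⟩ := isConj_iff.1 e
    have h2 : t * ι l * (t * ι l) = 1 := by rw [← hx, conj_mul, h.tt]; simp
    rw [mul_assoc, ← mul_assoc (ι l), ← h.ct, mul_assoc, h.ttx, ← map_mul] at h2
    exact h.inj (h2.trans (map_one ι).symm)
  obtain ⟨p, hp⟩ := k.cls l h1
  obtain ⟨c, hc, e1⟩ := A_par.1 hp
  obtain rfl := h0 c hc (e.trans (isConj_iff.2 ⟨ι p, by rw [h.conj_tl, e1]⟩))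
  rw [ac_zero, conj_eq_one_iff] at e1
  exact ⟨1, one_mem _, by simp [e1]⟩

theorem cen_pres {m : G} (hm : m ∈ NE ι t) (e : m * t * m⁻¹ = t) {a : Sp} (ha : a ∈ Lam) :
    ∃ a' ∈ Lam, m * (t * ι a) * m⁻¹ = t * ι a' := by
  obtain ⟨l, rfl | rfl⟩ := h.cen m (mul_inv_eq_iff_eq_mul.1 e)
  · exact ⟨_, P3_conj_Lam (h.NE_P3 hm) ha, h.conj_tl l a⟩
  · have h1 : t ∈ NE ι t := (mem_Nh.1 (h.E3_Nh (mem_sup_right (mem_zpowers t)))).1
    refine ⟨_, P3_conj_Lam (h.NE_P3 ((mul_mem_cancel_left h1).1 hm)) ha, ?_⟩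
    rw [mul_inv_rev, show t * ι l * (t * ι a) * ((ι l)⁻¹ * t⁻¹) =
      t * (ι l * (t * ι a) * (ι l)⁻¹) * t⁻¹ by group, h.conj_tl, h.ttx, h.tinv, h.ct]

theorem dblock : ∀ d < 64, ty d = 7 → ∃ l ∈ [[1, 16, 17], [2, 8, 10], [1, 32, 33], [2, 32, 34]],
    (l.all (· < 64) && (wd l 1 < 8 && (wd l 2 < 8 && wd l 4 < 8))) = true ∧ cjc (wd l) 8 = 8 ∧
      ty (8 ^^^ d ^^^ cjc (wd l) d) ∉ [0, 8, 7] := by
  clear h
  decide +kernel

theorem block0 (hn : NL ι t) (hx : ∀ c < 64, IsConj t (t * ι (ac c)) ↔ ty c ∈ [0, 8, 7])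
    {n : G} (hN : n ∈ NE ι t) (e : n * t * n⁻¹ = t * ι (ac 8)) {a : Sp} (ha : a ∈ Lam) :
    ∃ a' ∈ Lam, n * (t * ι a) * n⁻¹ = t * ι a' := by
  have kt : ∀ c < 64, c % 8 = 0 ↔ ty c = 0 ∨ ty c = 8 := by decide +kernel
  have k : ∀ b ∈ Lam, IsConj t (n * (t * ι b) * n⁻¹) := fun b hb => by
    obtain ⟨c, hc, rfl⟩ := A_par.1 (Lam_le_A hb)
    refine ((hx c hc).2 ?_).trans (isConj_iff.2 ⟨n, rfl⟩)
    rcases (kt c hc).1 ((ac_mem_Lam hc).1 hb) with e | e <;> simp [e]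
  obtain ⟨b, hb, e1 | e1⟩ := h.mem_E3.1 (mem_NE.1 hN _ (h.mem_E3.2 ⟨a, Lam_le_A ha, .inr rfl⟩))
  · exact absurd (e1 ▸ k a ha) (hn b)
  obtain ⟨d, hd, rfl⟩ := A_par.1 hb
  by_cases h7 : ty d = 7
  · obtain ⟨l, -, h1, h2, h3⟩ := dblock h d hd h7
    obtain ⟨h4, h5⟩ := conj_ac_wd h1 hd
    have h6 := (conj_ac_wd h1 (c := 8) (by omega)).2
    rw [h2] at h6
    obtain ⟨a', ha', e2⟩ := cen_pres h (m := n⁻¹ * ι (ev g l) * n)
      (mul_mem (mul_mem (inv_mem hN) (h.P3_NE (ev_mem_P3 h1))) hN) (by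
        rw [show n⁻¹ * ι (ev g l) * n * t * (n⁻¹ * ι (ev g l) * n)⁻¹ =
          n⁻¹ * (ι (ev g l) * (n * t * n⁻¹) * (ι (ev g l))⁻¹) * n by group, e, h.conj_tl, h6, ← e]
        group) ha
    have e3 : n * (t * ι a') * n⁻¹ = t * ι (ac (cjc (wd l) d)) := by
      rw [← e2, ← h5, ← h.conj_tl, ← e1]
      group
    refine absurd ((hx _ (xor_lt (xor_lt (by omega) hd) h4)).1 ?_) h3
    have e4 := k _ (mul_mem ha ha')
    rw [show t * ι (a * a') = t * (t * ι a) * (t * ι a') by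
      rw [h.ttx, ← mul_assoc, ← h.ct, map_mul, mul_assoc], ← conj_mul, ← conj_mul, e, e1, e3,
      ← el_hi, ← el_hi, ← el_hi, el_mul h (by omega) (by omega), (xor_hi 8 (by omega) d hd).2.2,
      el_mul h (by have := xor_lt (a := 8) (by omega) hd; omega) (by omega),
      (xor_hi _ (xor_lt (by omega) hd) _ h4).1, el_hi] at e4
    exact e4
  · refine ⟨_, (ac_mem_Lam hd).2 ((kt d hd).2 ?_), e1⟩
    simpa [h7] using (hx d hd).1 (e1 ▸ k a ha)

theorem block (hn : NL ι t) (hx : ∀ c < 64, IsConj t (t * ι (ac c)) ↔ ty c ∈ [0, 8, 7])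
    {n : G} (hN : n ∈ NE ι t) {b : Sp} (hb : b ∈ Lam) (e : n * t * n⁻¹ = t * ι b) {a : Sp}
    (ha : a ∈ Lam) : ∃ a' ∈ Lam, n * (t * ι a) * n⁻¹ = t * ι a' := by
  obtain ⟨c, hc, rfl⟩ := A_par.1 (Lam_le_A hb)
  by_cases h0 : c = 0
  · exact cen_pres h hN (by rw [e, h0, ac_zero, map_one, mul_one]) ha
  obtain ⟨p, hp, e1⟩ := orb hc
  rw [rep, if_neg h0, if_pos ((ac_mem_Lam hc).1 hb)] at e1
  obtain ⟨a', ha', e2⟩ := block0 h hn hx (mul_mem (h.P3_NE hp) hN) (by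
    rw [← e1, ← h.conj_tl, ← e]; group) ha
  refine ⟨_, P3_conj_Lam (inv_mem hp) ha', ?_⟩
  rw [← h.conj_tl, ← e2, map_inv]
  group

theorem no_ad (ht : Tr ι t) (hn : NL ι t)
    (hx : ∀ c < 64, IsConj t (t * ι (ac c)) ↔ ty c ∈ [0, 8, 7]) : False := by
  let M : Submonoid G :=
    { carrier := {n | n ∈ NE ι t ∧ ∃ a ∈ Lam, n * t * n⁻¹ = t * ι a}
      one_mem' := ⟨one_mem _, 1, one_mem _, by simp⟩
      mul_mem' := by
        rintro n m ⟨h1, a, ha, e⟩ ⟨h2, b, hb, e'⟩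
        obtain ⟨c, hc, e1⟩ := block h hn hx h1 ha e hb
        exact ⟨mul_mem h1 h2, c, hc, by rw [← e1, ← e']; group⟩ }
  let H : Subgroup G :=
    { M with
      inv_mem' := fun {n} hn => by
        obtain ⟨k, hk⟩ := mem_powers_iff_mem_zpowers.2 (inv_mem (mem_zpowers n))
        exact hk ▸ pow_mem (show n ∈ M from hn) k }
  have h1 := H93.GT.ncard_cls H t
  have h2 := H93.GT.ncard_cls (NE ι t) t
  have h3 : H ⊓ centralizer {t} = NE ι t ⊓ centralizer {t} := le_antisymm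
    (fun _ k => ⟨k.1.1, k.2⟩) fun n k => ⟨⟨k.1, 1, one_mem _, by
      rw [mem_centralizer_singleton_iff.1 k.2]; simp⟩, k.2⟩
  have k : ∀ (S : Set G) (p : ℕ → Prop) [DecidablePred p],
      (∀ y, y ∈ S ↔ ∃ c < 64, p c ∧ y = t * ι (ac c)) →
      S.ncard = ((Finset.range 64).filter p).card := fun S p _ hS => by
    rw [← Set.ncard_coe_finset, ← Set.InjOn.ncard_image (f := fun c => t * ι (ac c))
      fun c hc d hd e => ac_inj (by simpa using (Finset.mem_filter.1 hc).1)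
        (by simpa using (Finset.mem_filter.1 hd).1) (h.inj (mul_left_cancel e))]
    congr 1
    ext y
    simp only [hS, Set.mem_image, Finset.coe_filter, Finset.mem_range, Set.mem_ofPred_eq, and_assoc,
      eq_comm]
  have kt : ∀ c < 64, c % 8 = 0 → ty c ∈ [0, 8, 7] := by decide +kernel
  rw [k _ (fun c => c % 8 = 0) fun y => ⟨?_, ?_⟩, h3] at h1
  rw [k _ (fun c => ty c ∈ [0, 8, 7]) fun y => ⟨?_, ?_⟩] at h2
  · have h4 : Nat.card H ∣ Nat.card (NE ι t) := card_dvd_of_le fun _ k => k.1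
    rw [← h1, ← h2] at h4
    exact absurd (Nat.dvd_of_mul_dvd_mul_right Nat.card_pos h4) (by decide +kernel)
  · rintro ⟨n, hN, rfl⟩
    obtain ⟨a, ha, e | e⟩ := h.mem_E3.1 (mem_NE.1 hN t (mem_sup_right (mem_zpowers t)))
    · exact absurd (isConj_iff.2 ⟨n, e⟩) (hn a)
    · obtain ⟨c, hc, rfl⟩ := A_par.1 ha
      exact ⟨c, hc, (hx c hc).1 (isConj_iff.2 ⟨n, e⟩), e⟩
  · rintro ⟨c, hc, h4, rfl⟩
    obtain ⟨n, hN, e⟩ := ht _ (h.mem_E3.2 ⟨_, ac_mem hc, .inr rfl⟩) ((hx c hc).2 h4)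
    exact ⟨n, hN, e.symm⟩
  · rintro ⟨n, ⟨-, a, ha, e⟩, rfl⟩
    obtain ⟨c, hc, rfl⟩ := A_par.1 (Lam_le_A ha)
    exact ⟨c, hc, (ac_mem_Lam hc).1 ha, e⟩
  · rintro ⟨c, hc, h4, rfl⟩
    obtain ⟨n, hN, e⟩ := ht _ (h.mem_E3.2 ⟨_, ac_mem hc, .inr rfl⟩) ((hx c hc).2 (kt c hc h4))
    exact ⟨n, ⟨hN, _, (ac_mem_Lam hc).2 h4, e⟩, e.symm⟩

end

theorem f1 : F1Stmt.{u} := by
  intro k G _ _ ι t h ht hb hg
  obtain ⟨b, a, c, d, e, hm⟩ := exists_mk h hb
  obtain rfl : e = false := by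
    by_contra he
    obtain rfl : e = true := by simpa using he
    exact no_e b a c d (inv_eq h ht hm (d := 7) (by omega)
      ((mk_bit b a c d true 7 (by omega)).1.2 ⟨by decide +kernel, rfl⟩)).1
  have hn : NL ι t := nl_of h k.b fun x hx e => by
    simpa using (mk_bit b a c d false x hx).1.1 ((hm x (by omega)).1 (by rwa [el_lo hx]))
  have hx : ∀ x < 64, IsConj t (t * ι (ac x)) ↔ ty x = 0 ∨ (ty x = 1 ∧ b = true) ∨
      (ty x = 8 ∧ a = true) ∨ (ty x = 3 ∧ c = true) ∨ (ty x = 7 ∧ d = true) := fun x hx => by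
    rw [← el_hi, hm _ (by omega), (mk_bit b a c d false x hx).2]
  have hi : ∀ x < 64, IsConj t (t * ι (ac x)) → i3 (mk b a c d false) (64 + x) =
      i3 (mk b a c d false) 64 ∧ i4 (mk b a c d false) (64 + x) = i4 (mk b a c d false) 64 :=
    fun x hx e => (inv_eq h ht hm (by omega) ((hm _ (by omega)).1 (by rwa [el_hi]))).2
  have t1 : ty 1 = 1 := by decide +kernel
  have t8 : ty 8 = 8 := by decide +kernel
  have t3 : ty 3 = 3 := by decide +kernel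
  have t7 : ty 7 = 7 := by decide +kernel
  refine ⟨hn, ?_⟩
  rcases cases3 b a c d (fun e => (hi 1 (by omega) ((hx 1 (by omega)).2 (by simp [t1, e]))).1)
    (fun e => (hi 8 (by omega) ((hx 8 (by omega)).2 (by simp [t8, e]))).1)
    (fun e => (hi 3 (by omega) ((hx 3 (by omega)).2 (by simp [t3, e]))).1)
    (fun e => (hi 7 (by omega) ((hx 7 (by omega)).2 (by simp [t7, e]))).1) with
    e | e | e | e | e | e <;> simp only [Prod.mk.injEq] at e <;> obtain ⟨rfl, rfl, rfl, rfl⟩ := e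
  · exact (no_empty h k.b hg hn fun x h1 h2 =>
      (by decide +kernel : ∀ x < 64, ty x = 0 → x = 0) x h1 (by simpa using (hx x h1).1 h2)).elim
  · refine .inl fun y hy => ?_
    obtain ⟨x, h1, rfl⟩ := A_par.1 hy
    have kb : ∀ x < 64, ty x = 0 ∨ ty x = 1 ↔ ∃ u < 8, x = bc u := by decide +kernel
    rw [hx x h1]
    simp only [Bool.false_eq_true, and_false, or_false, and_true]
    rw [kb x h1]
    exact exists_congr fun u => and_congr_right fun hu => by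
      rw [g_bc hu]; exact ⟨fun e => e ▸ rfl, ac_inj h1 (bc_lt u hu)⟩
  · refine .inr (.inl fun y hy => ?_)
    obtain ⟨x, h1, rfl⟩ := A_par.1 hy
    rw [hx x h1, ac_mem_Lam h1]
    simp only [Bool.false_eq_true, and_false, or_false, false_or, and_true]
    exact (by decide +kernel : ∀ x < 64, ty x = 0 ∨ ty x = 8 ↔ x % 8 = 0) x h1
  · exact absurd (hi 1 (by omega) ((hx 1 (by omega)).2 (by simp [t1]))).2 no_bac
  · exact (no_ad h ht hn fun x h1 => by simpa using hx x h1).elim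
  · refine .inr (.inr fun y hy => ?_)
    obtain ⟨x, h1, rfl⟩ := A_par.1 hy
    rw [hx x h1]
    simpa [← rep_ty x h1] using rep_mem x h1

end Cfsg.Agent.H47.S6F
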