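import Mathlib
import Cfsg.Agent.H79.QuadClass

/-! Hurwitz' theorem over a finite field: a non-degenerate quadratic form of dimension at least five
that permits composition is the hyperbolic form of dimension eight. -/

set_option autoImplicit false

namespace Cfsg.Agent.H47

open Module QuadraticMap

universe v

/-- the dimension of a module for `k` pairs of creation and annihilation operators -/
theorem two_pow_dvd_finrank {F : Type*} [Field F] (k : ℕ) :
    ∀ {M : Type v} [AddCommGroup M] [Module F M] [FiniteDimensional F M]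
      (e f : Fin k → M →ₗ[F] M), (∀ i x, e i (e i x) = 0) →
      (∀ i x, e i (f i x) + f i (e i x) = x) →
      (∀ i j, i ≠ j → ∀ x, e i (e j x) + e j (e i x) = 0) →
      (∀ i j, i ≠ j → ∀ x, e i (f j x) + f j (e i x) = 0) → 2 ^ k ∣ finrank F M := by
  induction k with
  | zero => intros; simp
  | succ k ih =>
    intro M _ _ _ e f h1 h2 h3 h4
    have hk : LinearMap.range (e 0) = LinearMap.ker (e 0) := by
      apply le_antisymm
      · rintro _ ⟨x, rfl⟩; exact h1 0 x
      · intro x hx
        refine ⟨f 0 x, ?_⟩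
        have := h2 0 x
        rwa [LinearMap.mem_ker.1 hx, map_zero, add_zero] at this
    have hd := LinearMap.finrank_range_add_finrank_ker (e 0)
    rw [hk] at hd
    have me : ∀ i : Fin k, ∀ x ∈ LinearMap.ker (e 0), e i.succ x ∈ LinearMap.ker (e 0) := fun i x hx => by
      have := h3 0 i.succ (Fin.succ_ne_zero i).symm x
      rwa [LinearMap.mem_ker.1 hx, map_zero, add_zero] at this
    have mf : ∀ i : Fin k, ∀ x ∈ LinearMap.ker (e 0), f i.succ x ∈ LinearMap.ker (e 0) := fun i x hx => by
      have := h4 0 i.succ (Fin.succ_ne_zero i).symm x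
      rwa [LinearMap.mem_ker.1 hx, map_zero, add_zero] at this
    have := ih (fun i => (e i.succ).restrict (me i)) (fun i => (f i.succ).restrict (mf i))
      (fun i x => Subtype.ext (h1 _ _)) (fun i x => Subtype.ext (h2 _ _))
      (fun i j h x => Subtype.ext (h3 _ _ (fun c => h (Fin.succ_injective _ c)) _))
      (fun i j h x => Subtype.ext (h4 _ _ (fun c => h (Fin.succ_injective _ c)) _))
    rw [← hd, ← two_mul, pow_succ']
    exact Nat.mul_dvd_mul_left 2 this

variable {F V : Type*} [Field F] [AddCommGroup V] [Module F V]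

section comp

variable {Q : QuadraticForm F V} {T : V →ₗ[F] V →ₗ[F] V}

theorem comp_polar_right (h : ∀ u v, Q (T u v) = Q u * Q v) (u v w : V) :
    polar Q (T u v) (T u w) = Q u * polar Q v w := by
  simp only [polar, ← map_add, h]; ring

theorem comp_polar_left (h : ∀ u v, Q (T u v) = Q u * Q v) (u u' v : V) :
    polar Q (T u v) (T u' v) = polar Q u u' * Q v := by
  simp only [polar, ← LinearMap.add_apply, ← map_add, h]; ring

theorem comp_polar (h : ∀ u v, Q (T u v) = Q u * Q v) (u u' v w : V) :
    polar Q (T u v) (T u' w) + polar Q (T u w) (T u' v) = polar Q u u' * polar Q v w := by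
  have h1 := comp_polar_left h u u' (v + w)
  rw [map_add, map_add, polar_add_left, polar_add_right, polar_add_right, comp_polar_left h,
    comp_polar_left h, H79.map_add'] at h1
  linear_combination h1

theorem comp_isPlus [FiniteDimensional F V] (hQ : H79.ND Q) (h : ∀ u v, Q (T u v) = Q u * Q v)
    {s t : V} (hs : Q s = 0) (ht : Q t = 0) (hst : polar Q s t = 1) : H79.IsPlus (F := F) Q := by
  have h1 : ∀ u, Q u = 0 → ∀ w ∈ LinearMap.range (T u), Q w = 0 := by
    rintro u hu _ ⟨x, rfl⟩; rw [h, hu, zero_mul]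
  have h2 := H79.two_mul_finrank_le_of_ts hQ (h1 s hs)
  have h3 := H79.two_mul_finrank_le_of_ts hQ (h1 t ht)
  have h4 := LinearMap.finrank_range_add_finrank_ker (T s)
  have h5 := LinearMap.finrank_range_add_finrank_ker (T t)
  have h6 : LinearMap.ker (T s) ⊓ LinearMap.ker (T t) = ⊥ := by
    rw [eq_bot_iff]
    intro v hv
    refine hQ v fun w => ?_
    have := comp_polar h s t v w
    rw [LinearMap.mem_ker.1 hv.1, LinearMap.mem_ker.1 hv.2, hst] at this
    simpa using this.symm
  have h7 := Submodule.finrank_sup_add_finrank_inf_eq (LinearMap.ker (T s)) (LinearMap.ker (T t))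
  rw [h6, finrank_bot] at h7
  have h8 := Submodule.finrank_le (LinearMap.ker (T s) ⊔ LinearMap.ker (T t))
  exact ⟨_, by omega, h1 s hs⟩

theorem comp_anti (hQ : H79.ND Q) (h : ∀ u v, Q (T u v) = Q u * Q v) {c : V} (hc : ∀ v, T c v = v)
    {u u' : V} (hu : polar Q u c = 0) (hu' : polar Q u' c = 0) (v : V) :
    T u (T u' v) + T u' (T u v) = -polar Q u u' • v := by
  have sk : ∀ u, polar Q u c = 0 → ∀ v w, polar Q (T u v) w = -polar Q v (T u w) := fun u hu v w => by
    have := comp_polar h u c v w
    rw [hc, hc, hu, zero_mul, polar_comm Q (T u w)] at this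
    linear_combination this
  rw [← sub_eq_zero]
  refine hQ _ fun w => ?_
  have := comp_polar h u u' v w
  rw [polar_sub_left, polar_add_left, polar_smul_left, sk u hu (T u' v), sk u' hu' (T u v),
    polar_comm Q (T u' v), smul_eq_mul]
  linear_combination -this

theorem comp_sq (hQ : H79.ND Q) (h : ∀ u v, Q (T u v) = Q u * Q v) {c : V} (hc : ∀ v, T c v = v)
    {u : V} (hu : polar Q u c = 0) (hu0 : Q u = 0) (v : V) : T u (T u v) = 0 := by
  refine hQ _ fun w => ?_
  have h1 := comp_polar h u c (T u v) w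
  rw [hc, hc, hu, zero_mul, comp_polar_right h, hu0, zero_mul, add_zero] at h1
  exact h1

end comp

theorem eq_four_of_dvd {m : ℕ} (h3 : 3 ≤ m) (h : 2 ^ (m - 1) ∣ 2 * m) : m = 4 := by
  by_contra hne
  rcases Nat.lt_or_ge m 5 with h5 | h5
  · obtain rfl : m = 3 := by omega
    norm_num at h
  · have h1 : ∀ k, 2 * (k + 5) < 2 ^ (k + 4) := fun k => by
      induction k with
      | zero => norm_num
      | succ k ih => rw [show k + 1 + 4 = k + 4 + 1 by ring, pow_succ]; omega
    obtain ⟨k, rfl⟩ : ∃ k, m = k + 5 := ⟨m - 5, by omega⟩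
    have := Nat.le_of_dvd (by omega) h
    exact absurd (h1 k) (by simpa using this)

/-- Hurwitz' theorem -/
theorem hurwitz [Finite F] [FiniteDimensional F V] {Q : QuadraticForm F V} (hQ : H79.ND Q)
    (hn : 5 ≤ finrank F V) {T : V →ₗ[F] V →ₗ[F] V} (h : ∀ u v, Q (T u v) = Q u * Q v) :
    H79.Iso (F := F) Q (quadFormPlus 4 F) := by
  obtain ⟨s, hs0, hs⟩ := H79.exists_singular_of_three_le Q (by omega)
  obtain ⟨t, ht, hst⟩ := hQ.exists_hyperbolic_partner hs0 hs
  have hP := comp_isPlus hQ h hs ht hst
  obtain ⟨m, hm⟩ : ∃ m, finrank F V = 2 * (m + 1) := let ⟨W, hW, _⟩ := hP; ⟨finrank F W - 1, by omega⟩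
  have hI := H79.iso_plus_of_isPlus hm Q hQ hP
  suffices h4 : m + 1 = 4 by rwa [h4] at hI
  obtain ⟨g, hg⟩ := hI.symm
  have hp : ∀ x y, polar Q (g x) (g y) = polar (quadFormPlus (m + 1) F) x y :=
    H79.polar_of_isometry g.toLinearMap hg
  let c : V := g (Pi.single (.inl 0) 1 + Pi.single (.inr 0) 1)
  have hc : Q c = 1 := by
    rw [hg]; simp [quadFormPlus, Pi.single_apply]
  have inj : Function.Injective (T c) := (injective_iff_map_eq_zero _).2 fun x hx => hQ x fun y => by
    have := comp_polar_right h c x y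
    rwa [hx, hc, one_mul, polar_zero_left, eq_comm] at this
  let A : V ≃ₗ[F] V := LinearEquiv.ofInjectiveEndo (T c) inj
  let T' : V →ₗ[F] V →ₗ[F] V := T.compr₂ A.symm.toLinearMap
  have hT' : ∀ u v, Q (T' u v) = Q u * Q v := fun u v => by
    have := h c (A.symm (T u v))
    rw [hc, one_mul] at this
    rw [← h u v]
    refine this.symm.trans (congrArg Q ?_)
    exact A.apply_symm_apply _
  have hc' : ∀ v, T' c v = v := fun v => A.symm_apply_apply v
  let e : Fin m → V := fun i => g (Pi.single (.inl i.succ) 1)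
  let f : Fin m → V := fun i => g (-Pi.single (.inr i.succ) 1)
  have ec : ∀ i, polar Q (e i) c = 0 := fun i => by
    rw [hp, H79.polar_plus]; simp [Pi.single_apply, (Fin.succ_ne_zero i).symm]
  have fc : ∀ i, polar Q (f i) c = 0 := fun i => by
    rw [hp, H79.polar_plus]; simp [Pi.single_apply, (Fin.succ_ne_zero i).symm]
  have ee : ∀ i j, polar Q (e i) (e j) = 0 := fun i j => by
    rw [hp, H79.polar_plus]; simp
  have ef : ∀ i j, polar Q (e i) (f j) = if i = j then -1 else 0 := fun i j => by
    rw [hp, H79.polar_plus]; by_cases e : i = j <;> simp [Pi.single_apply, e, Ne.symm]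
  have qe : ∀ i, Q (e i) = 0 := fun i => by rw [hg]; simp [quadFormPlus]
  have := two_pow_dvd_finrank m (fun i => T' (e i)) (fun i => T' (f i))
    (fun i => comp_sq hQ hT' hc' (ec i) (qe i))
    (fun i x => by rw [comp_anti hQ hT' hc' (ec i) (fc i), ef]; simp)
    (fun i j _ x => by rw [comp_anti hQ hT' hc' (ec i) (ec j), ee]; simp)
    (fun i j hij x => by rw [comp_anti hQ hT' hc' (ec i) (fc j), ef]; simp [hij])
  exact eq_four_of_dvd (by omega) (by rwa [hm] at this)

end Cfsg.Agent.H47
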