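import Mathlib
import Cfsg.Agent.H97.JmDefs

/-!
# A normal complement to a subgroup of prime order (Burnside transfer)
-/

set_option autoImplicit false

namespace Cfsg.Agent.H97.JM

open Subgroup

universe u

namespace NC

theorem core (K : Type u) [Group K] [Finite K] (r : ℕ) (x : K) (hr : r.Prime)
    (hx : orderOf x = r)
    (hN : normalizer ((zpowers x : Subgroup K) : Set K) ≤ centralizer ({x} : Set K))
    (hC : ¬ r ^ 2 ∣ Nat.card (centralizer ({x} : Set K))) :
    ∃ R : Subgroup K, R.Normal ∧ Nat.card K = r * Nat.card R ∧ ¬ r ∣ Nat.card R := by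
  have : Fact r.Prime := ⟨hr⟩
  have hP : Nat.card (zpowers x) = r ^ 1 := by rw [Nat.card_zpowers, hx, pow_one]
  have h2 : ¬ r ^ (1 + 1) ∣ Nat.card K := by
    intro h
    obtain ⟨Q, hQ, hPQ⟩ := Sylow.exists_subgroup_card_pow_succ h hP
    have hcomm : IsMulCommutative Q := IsPGroup.isMulCommutative_of_card_eq_prime_sq (p := r) hQ
    apply hC
    have hle : Q ≤ centralizer ({x} : Set K) := by
      intro q hq
      rw [mem_centralizer_singleton_iff]
      have := hcomm.is_comm.comm ⟨q, hq⟩ ⟨x, hPQ (mem_zpowers x)⟩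
      exact congrArg Subtype.val this
    have := card_dvd_of_le hle
    rwa [hQ] at this
  have hidx : ¬ r ∣ (zpowers x).index := by
    intro h
    apply h2
    rw [← (zpowers x).card_mul_index, hP, pow_succ]
    exact Nat.mul_dvd_mul_left _ h
  let P : Sylow r K := (IsPGroup.of_card hP).toSylow hidx
  have hPN : normalizer ((P : Subgroup K) : Set K) ≤ centralizer ((P : Subgroup K) : Set K) := by
    intro g hg
    have hg' : g ∈ centralizer ({x} : Set K) := hN hg
    rw [mem_centralizer_singleton_iff] at hg'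
    intro y hy
    have hy' : y ∈ zpowers x := hy
    obtain ⟨k, rfl⟩ := mem_zpowers_iff.1 hy'
    exact ((show Commute g x from hg').zpow_right k).eq.symm
  refine ⟨(MonoidHom.transferSylow P hPN).ker, inferInstance, ?_,
    MonoidHom.not_dvd_card_ker_transferSylow P hPN⟩
  have hc := (MonoidHom.ker_transferSylow_isComplement' P hPN).card_mul_card
  have hP' : Nat.card (P : Subgroup K) = r := by
    have : Nat.card (P : Subgroup K) = r ^ 1 := hP
    rw [this, pow_one]
  rw [hP'] at hc
  rw [← hc, mul_comm]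

end NC

theorem pNC : NC.{u} := by
  intro G _ _ H r x hr hxH hx hN hC
  have hinj : Function.Injective H.subtype := H.subtype_injective
  obtain ⟨R, hRn, hcard, hndvd⟩ := NC.core H r ⟨x, hxH⟩ hr
    (by rw [← hx]; exact (orderOf_injective H.subtype hinj ⟨x, hxH⟩).symm)
    (by
      intro g hg
      have h1 : (g : G) ∈ normalizer ((zpowers x : Subgroup G) : Set G) := by
        rw [mem_normalizer_iff] at hg ⊢
        intro y
        constructor
        · intro hy
          obtain ⟨k, rfl⟩ := mem_zpowers_iff.1 hy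
          obtain ⟨m, hm⟩ := mem_zpowers_iff.1 ((hg (⟨x, hxH⟩ ^ k)).1 (zpow_mem (mem_zpowers _) k))
          refine mem_zpowers_iff.2 ⟨m, ?_⟩
          simpa using congrArg Subtype.val hm
        · intro hy
          obtain ⟨k, hk⟩ := mem_zpowers_iff.1 hy
          have hyH : y ∈ H := by
            have : y = (g : G)⁻¹ * x ^ k * g := by rw [hk]; group
            rw [this]
            exact H.mul_mem (H.mul_mem (H.inv_mem g.2) (H.zpow_mem hxH k)) g.2
          have h3 : g * ⟨y, hyH⟩ * g⁻¹ ∈ zpowers (⟨x, hxH⟩ : H) :=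
            mem_zpowers_iff.2 ⟨k, Subtype.ext (by simpa using hk)⟩
          obtain ⟨m, hm⟩ := mem_zpowers_iff.1 ((hg ⟨y, hyH⟩).2 h3)
          refine mem_zpowers_iff.2 ⟨m, ?_⟩
          simpa using congrArg Subtype.val hm
      have h2 := hN ⟨g.2, h1⟩
      rw [mem_centralizer_singleton_iff] at h2 ⊢
      exact Subtype.ext h2)
    (by
      intro h
      apply hC
      have e : (centralizer ({⟨x, hxH⟩} : Set H)).map H.subtype =
          H ⊓ centralizer ({x} : Set G) := by
        ext y
        constructor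
        · rintro ⟨y, hy, rfl⟩
          have hy' : y ∈ centralizer ({⟨x, hxH⟩} : Set H) := hy
          rw [mem_centralizer_singleton_iff] at hy'
          exact ⟨y.2, mem_centralizer_singleton_iff.2 (congrArg Subtype.val hy')⟩
        · rintro ⟨hy, hy'⟩
          have hy'' : y ∈ centralizer ({x} : Set G) := hy'
          rw [mem_centralizer_singleton_iff] at hy''
          exact ⟨⟨y, hy⟩, mem_centralizer_singleton_iff.2 (Subtype.ext hy''), rfl⟩
      rw [← e, card_map_of_injective hinj]
      exact h)
  refine ⟨R.map H.subtype, map_subtype_le R, ?_, ?_, ?_⟩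
  · intro g hg
    rw [mem_normalizer_iff]
    intro y
    constructor
    · rintro ⟨y, hy, rfl⟩
      exact ⟨⟨g, hg⟩ * y * ⟨g, hg⟩⁻¹, hRn.conj_mem y hy _, rfl⟩
    · rintro ⟨w, hw, hwy⟩
      refine ⟨⟨g, hg⟩⁻¹ * w * ⟨g, hg⟩⁻¹⁻¹, hRn.conj_mem w hw _, ?_⟩
      have hwy' : (w : G) = g * y * g⁻¹ := hwy
      simp [hwy', mul_assoc]
  · rw [card_map_of_injective hinj]; exact hcard
  · rw [card_map_of_injective hinj]; exact hndvd

end Cfsg.Agent.H97.JM
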