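/-
Even positive definite integral lattices without roots: short vectors modulo twice the lattice.
-/
import Mathlib

set_option autoImplicit false

namespace Cfsg.Agent.H47

open Matrix

section General

variable {n : ℕ} (B : Matrix (Fin n) (Fin n) ℤ)

/-- The bilinear form of a Gram matrix. -/
def gf (x y : Fin n → ℤ) : ℤ := x ⬝ᵥ (B *ᵥ y)

theorem gf_add_left (x y z : Fin n → ℤ) : gf B (x + y) z = gf B x z + gf B y z := by
  simp [gf]

theorem gf_add_right (x y z : Fin n → ℤ) : gf B x (y + z) = gf B x y + gf B x z := by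
  simp [gf, mulVec_add]

theorem gf_smul_left (c : ℤ) (x y : Fin n → ℤ) : gf B (c • x) y = c * gf B x y := by
  simp only [gf, smul_dotProduct, smul_eq_mul]

theorem gf_smul_right (c : ℤ) (x y : Fin n → ℤ) : gf B x (c • y) = c * gf B x y := by
  simp only [gf, mulVec_smul, dotProduct_smul, smul_eq_mul]

theorem gf_neg_left (x y : Fin n → ℤ) : gf B (-x) y = - gf B x y := by simp [gf]

theorem gf_neg_right (x y : Fin n → ℤ) : gf B x (-y) = - gf B x y := by simp [gf, mulVec_neg]

theorem gf_sub_left (x y z : Fin n → ℤ) : gf B (x - y) z = gf B x z - gf B y z := by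
  simp [gf]

theorem gf_sub_right (x y z : Fin n → ℤ) : gf B x (y - z) = gf B x y - gf B x z := by
  simp [gf, mulVec_sub]

theorem gf_zero_left (x : Fin n → ℤ) : gf B 0 x = 0 := by simp [gf]

theorem gf_zero_right (x : Fin n → ℤ) : gf B x 0 = 0 := by simp [gf]

theorem gf_comm (hsymm : B.IsSymm) (x y : Fin n → ℤ) : gf B x y = gf B y x := by
  unfold gf
  rw [dotProduct_mulVec, ← mulVec_transpose, hsymm.eq, dotProduct_comm]

/-- The hypotheses: symmetric, positive definite, even, no vectors of norm two. -/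
structure Rootless : Prop where
  symm : B.IsSymm
  pos : ∀ x, x ≠ 0 → 0 < gf B x x
  even : ∀ x, (2 : ℤ) ∣ gf B x x
  noroot : ∀ x, gf B x x ≠ 2

variable {B}

theorem Rootless.four_le (h : Rootless B) {x : Fin n → ℤ} (hx : x ≠ 0) : 4 ≤ gf B x x := by
  have h1 := h.pos x hx
  have h2 := h.even x
  have h3 := h.noroot x
  omega

theorem Rootless.nonneg (h : Rootless B) (x : Fin n → ℤ) : 0 ≤ gf B x x := by
  by_cases hx : x = 0
  · rw [hx, gf_zero_left]
  · exact (h.pos x hx).le

/-- Two short vectors congruent modulo two are equal, opposite, or orthogonal of norm eight. -/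
theorem Rootless.short_congr (h : Rootless B) {x y : Fin n → ℤ} (hx : gf B x x ≤ 8)
    (hy : gf B y y ≤ 8) (hc : ∀ i, (2 : ℤ) ∣ (x - y) i) :
    y = x ∨ y = -x ∨ (gf B x x = 8 ∧ gf B y y = 8 ∧ gf B x y = 0) := by
  choose z hz using hc
  have hxz : x = y + (2 : ℤ) • z := by
    ext i
    have := hz i
    simp only [Pi.sub_apply, Pi.add_apply, Pi.smul_apply, smul_eq_mul] at this ⊢
    omega
  by_cases h1 : z = 0
  · left; rw [hxz, h1]; simp
  by_cases h2 : z + y = 0
  · right; left
    rw [hxz, eq_neg_of_add_eq_zero_left h2]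
    ext i; simp; ring
  right; right
  have h3 := h.four_le h1
  have h4 := h.four_le h2
  have h5 := gf_comm B h.symm y z
  rw [hxz] at hx ⊢
  simp only [gf_add_left, gf_add_right, gf_smul_left, gf_smul_right] at hx h4 ⊢
  omega

theorem Rootless.linearIndependent (h : Rootless B) {ι : Type*} (v : ι → Fin n → ℤ)
    (h0 : ∀ i, v i ≠ 0) (horth : ∀ i j, i ≠ j → gf B (v i) (v j) = 0) : LinearIndependent ℤ v := by
  classical
  rw [linearIndependent_iff']
  intro s g hg i hi
  have h1 : gf B (v i) (∑ j ∈ s, g j • v j) = 0 := by rw [hg, gf_zero_right]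
  have h2 : gf B (v i) (∑ j ∈ s, g j • v j) = ∑ j ∈ s, g j * gf B (v i) (v j) := by
    simp only [gf, mulVec_sum, dotProduct_sum, mulVec_smul, dotProduct_smul, smul_eq_mul]
  rw [h2, Finset.sum_eq_single i] at h1
  · exact (mul_eq_zero.mp h1).resolve_right (h.pos _ (h0 i)).ne'
  · intro j _ hj
    rw [horth i j hj.symm, mul_zero]
  · intro h; exact absurd hi h

/-- A finite set of non-zero vectors closed under negation splits into two halves. -/
theorem exists_half (F : Finset (Fin n → ℤ)) (h0 : ∀ y ∈ F, y ≠ 0) (hneg : ∀ y ∈ F, -y ∈ F) :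
    ∃ T : Finset (Fin n → ℤ), T ⊆ F ∧ (∀ y ∈ T, -y ∉ T) ∧ (∀ y ∈ F, y ∈ T ∨ -y ∈ T) ∧
      F.card = 2 * T.card := by
  classical
  let T := F.filter fun y => toLex (-y) < toLex y
  have hneq : ∀ y ∈ F, toLex (-y) ≠ toLex y := by
    intro y hy h
    apply h0 y hy
    have : -y = y := toLex.injective h
    ext i
    have := congrFun this i
    simp only [Pi.neg_apply, Pi.zero_apply] at this ⊢
    omega
  have h2 : ∀ y ∈ T, -y ∉ T := by
    intro y hy hy'
    simp only [T, Finset.mem_filter, neg_neg] at hy hy'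
    exact lt_asymm hy.2 hy'.2
  have h3 : ∀ y ∈ F, y ∈ T ∨ -y ∈ T := by
    intro y hy
    simp only [T, Finset.mem_filter, neg_neg]
    rcases lt_or_gt_of_ne (hneq y hy) with h | h
    · exact Or.inl ⟨hy, h⟩
    · exact Or.inr ⟨hneg y hy, h⟩
  refine ⟨T, Finset.filter_subset _ _, h2, h3, ?_⟩
  have hF : F = T ∪ T.image (fun y => -y) := by
    ext y
    simp only [Finset.mem_union, Finset.mem_image]
    constructor
    · intro hy
      rcases h3 y hy with h | h
      · exact Or.inl h
      · exact Or.inr ⟨-y, h, neg_neg y⟩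
    · rintro (h | ⟨z, hz, rfl⟩)
      · exact Finset.filter_subset _ _ h
      · exact hneg z (Finset.filter_subset _ _ hz)
  have hd : Disjoint T (T.image (fun y => -y)) := by
    rw [Finset.disjoint_left]
    intro y hy hy'
    obtain ⟨z, hz, rfl⟩ := Finset.mem_image.mp hy'
    exact h2 z hz hy
  conv_lhs => rw [hF]
  rw [Finset.card_union_of_disjoint hd, Finset.card_image_of_injective _ neg_injective]
  omega

/-- A finite set of norm-eight vectors in one class modulo two, closed under negation, is a union of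
at most `n` pairs of mutually orthogonal vectors. -/
theorem Rootless.exists_frame (h : Rootless B) (F : Finset (Fin n → ℤ)) (h8 : ∀ y ∈ F, gf B y y = 8)
    (hneg : ∀ y ∈ F, -y ∈ F) (hc : ∀ y ∈ F, ∀ z ∈ F, ∀ i, (2 : ℤ) ∣ (y - z) i) :
    ∃ T : Finset (Fin n → ℤ), T ⊆ F ∧ (∀ y ∈ T, ∀ z ∈ T, y ≠ z → gf B y z = 0) ∧
      F.card = 2 * T.card ∧ T.card ≤ n := by
  have h0 : ∀ y ∈ F, y ≠ 0 := by
    intro y hy h0
    have := h8 y hy
    rw [h0, gf_zero_left] at this
    omega
  obtain ⟨T, hT, h2, -, h4⟩ := exists_half F h0 hneg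
  have horth : ∀ y ∈ T, ∀ z ∈ T, y ≠ z → gf B y z = 0 := by
    intro y hy z hz hyz
    rcases h.short_congr (h8 y (hT hy)).le (h8 z (hT hz)).le (hc y (hT hy) z (hT hz)) with h | h | h
    · exact absurd h.symm hyz
    · exact absurd (h ▸ hz) (h2 y hy)
    · exact h.2.2
  refine ⟨T, hT, horth, h4, ?_⟩
  have hli := h.linearIndependent (fun y : T => (y : Fin n → ℤ)) (fun y => h0 y (hT y.2))
    (fun y z hyz => horth y y.2 z z.2 fun h => hyz (Subtype.ext h))
  simpa using hli.fintype_card_le_finrank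

/-- Reduction modulo two. -/
def mod2 (x : Fin n → ℤ) : Fin n → ZMod 2 := fun i => (x i : ZMod 2)

theorem mod2_eq_iff (x y : Fin n → ℤ) : mod2 x = mod2 y ↔ ∀ i, (2 : ℤ) ∣ (x - y) i := by
  rw [funext_iff]
  refine forall_congr' fun i => ?_
  rw [mod2, mod2, ZMod.intCast_eq_intCast_iff_dvd_sub, Pi.sub_apply, dvd_sub_comm]
  rfl

theorem mod2_neg (x : Fin n → ℤ) : mod2 (-x) = mod2 x := by
  rw [mod2_eq_iff]
  intro i
  simp only [Pi.sub_apply, Pi.neg_apply]
  omega

end General

/-- Counting short vectors modulo two in rank 24. -/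
theorem Rootless.count {B : Matrix (Fin 24) (Fin 24) ℤ} (h : Rootless B)
    (h4 : {x : Fin 24 → ℤ | gf B x x = 4}.ncard = 196560)
    (h6 : {x : Fin 24 → ℤ | gf B x x = 6}.ncard = 16773120)
    (h8 : {x : Fin 24 → ℤ | gf B x x = 8}.ncard = 398034000) (x : Fin 24 → ℤ) (hx : gf B x x = 8) :
    {y : Fin 24 → ℤ | gf B y y = 8 ∧ ∀ i, (2 : ℤ) ∣ (x - y) i}.ncard = 48 := by
  classical
  have f4 : {x : Fin 24 → ℤ | gf B x x = 4}.Finite := Set.finite_of_ncard_ne_zero (by omega)
  have f6 : {x : Fin 24 → ℤ | gf B x x = 6}.Finite := Set.finite_of_ncard_ne_zero (by omega)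
  have f8 : {x : Fin 24 → ℤ | gf B x x = 8}.Finite := Set.finite_of_ncard_ne_zero (by omega)
  rw [Set.ncard_eq_toFinset_card _ f4] at h4
  rw [Set.ncard_eq_toFinset_card _ f6] at h6
  rw [Set.ncard_eq_toFinset_card _ f8] at h8
  set S4 := f4.toFinset
  set S6 := f6.toFinset
  set S8 := f8.toFinset
  have m4 : ∀ y, y ∈ S4 ↔ gf B y y = 4 := fun y => by simp [S4]
  have m6 : ∀ y, y ∈ S6 ↔ gf B y y = 6 := fun y => by simp [S6]
  have m8 : ∀ y, y ∈ S8 ↔ gf B y y = 8 := fun y => by simp [S8]
  have small : ∀ (S : Finset (Fin 24 → ℤ)), (∀ y ∈ S, gf B y y < 8) →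
      S.card ≤ 2 * (S.image mod2).card := by
    intro S hS
    apply Finset.card_le_mul_card_image
    intro c hc
    obtain ⟨y, hy, rfl⟩ := Finset.mem_image.mp hc
    refine le_trans (Finset.card_le_card (t := {y, -y}) ?_) Finset.card_le_two
    intro z hz
    rw [Finset.mem_filter] at hz
    rcases h.short_congr (hS y hy).le (hS z hz.1).le ((mod2_eq_iff _ _).1 hz.2.symm) with h | h | h
    · simp [h]
    · simp [h]
    · have := hS y hy; omega
  have c4 := small S4 fun y hy => by rw [(m4 y).1 hy]; norm_num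
  have c6 := small S6 fun y hy => by rw [(m6 y).1 hy]; norm_num
  have fib : ∀ c, (S8.filter fun y => mod2 y = c).card ≤ 48 := by
    intro c
    obtain ⟨T, -, -, h1, h2⟩ := h.exists_frame (S8.filter fun y => mod2 y = c)
      (fun y hy => (m8 y).1 (Finset.mem_filter.mp hy).1)
      (fun y hy => by
        rw [Finset.mem_filter] at hy ⊢
        exact ⟨(m8 _).2 (by rw [gf_neg_left, gf_neg_right, neg_neg]; exact (m8 y).1 hy.1),
          by rw [mod2_neg, hy.2]⟩)
      (fun y hy z hz => (mod2_eq_iff _ _).1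
        ((Finset.mem_filter.mp hy).2.trans (Finset.mem_filter.mp hz).2.symm))
    omega
  have disj : ∀ y z : Fin 24 → ℤ, gf B y y ≤ 8 → gf B z z ≤ 8 → mod2 y = mod2 z →
      gf B y y = gf B z z := by
    intro y z hy hz hyz
    rcases h.short_congr hy hz ((mod2_eq_iff _ _).1 hyz) with h | h | h
    · rw [h]
    · rw [h, gf_neg_left, gf_neg_right, neg_neg]
    · rw [h.1, h.2.1]
  have tot : 1 + (S4.image mod2).card + (S6.image mod2).card + (S8.image mod2).card ≤ 2 ^ 24 := by
    have d1 : Disjoint ({mod2 0} : Finset (Fin 24 → ZMod 2)) (S4.image mod2) := by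
      rw [Finset.disjoint_left]
      intro c hc hc'
      obtain ⟨y, hy, rfl⟩ := Finset.mem_image.mp hc'
      have h1 := (m4 y).1 hy
      have := disj y 0 (by omega) (by rw [gf_zero_left]; omega) (Finset.mem_singleton.mp hc)
      rw [gf_zero_left] at this; omega
    have d2 : Disjoint ({mod2 0} ∪ S4.image mod2 : Finset (Fin 24 → ZMod 2)) (S6.image mod2) := by
      rw [Finset.disjoint_left]
      intro c hc hc'
      obtain ⟨y, hy, rfl⟩ := Finset.mem_image.mp hc'
      have h1 := (m6 y).1 hy
      rcases Finset.mem_union.mp hc with hc | hc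
      · have := disj y 0 (by omega) (by rw [gf_zero_left]; omega) (Finset.mem_singleton.mp hc)
        rw [gf_zero_left] at this; omega
      · obtain ⟨z, hz, hzy⟩ := Finset.mem_image.mp hc
        have h2 := (m4 z).1 hz
        have := disj z y (by omega) (by omega) hzy
        omega
    have d3 : Disjoint ({mod2 0} ∪ S4.image mod2 ∪ S6.image mod2 : Finset (Fin 24 → ZMod 2))
        (S8.image mod2) := by
      rw [Finset.disjoint_left]
      intro c hc hc'
      obtain ⟨y, hy, rfl⟩ := Finset.mem_image.mp hc'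
      have h1 := (m8 y).1 hy
      rcases Finset.mem_union.mp hc with hc | hc
      rcases Finset.mem_union.mp hc with hc | hc
      · have := disj y 0 (by omega) (by rw [gf_zero_left]; omega) (Finset.mem_singleton.mp hc)
        rw [gf_zero_left] at this; omega
      · obtain ⟨z, hz, hzy⟩ := Finset.mem_image.mp hc
        have h2 := (m4 z).1 hz
        have := disj z y (by omega) (by omega) hzy
        omega
      · obtain ⟨z, hz, hzy⟩ := Finset.mem_image.mp hc
        have h2 := (m6 z).1 hz
        have := disj z y (by omega) (by omega) hzy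
        omega
    have := Finset.card_le_univ ({mod2 0} ∪ S4.image mod2 ∪ S6.image mod2 ∪ S8.image mod2 :
      Finset (Fin 24 → ZMod 2))
    rw [Finset.card_union_of_disjoint d3, Finset.card_union_of_disjoint d2,
      Finset.card_union_of_disjoint d1, Finset.card_singleton] at this
    simpa using this
  have hxm : mod2 x ∈ S8.image mod2 := Finset.mem_image_of_mem _ ((m8 x).2 hx)
  have hsum := Finset.card_eq_sum_card_image mod2 S8
  rw [← Finset.add_sum_erase _ _ hxm] at hsum
  have hrest := Finset.sum_le_card_nsmul ((S8.image mod2).erase (mod2 x))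
    (fun c => (S8.filter fun y => mod2 y = c).card) 48 (fun c _ => fib c)
  rw [Finset.card_erase_of_mem hxm, smul_eq_mul] at hrest
  have hpos : 0 < (S8.image mod2).card := Finset.card_pos.mpr ⟨_, hxm⟩
  have hfx := fib (mod2 x)
  have hfin : (S8.filter fun y => mod2 y = mod2 x).card = 48 := by omega
  rw [← hfin, ← Set.ncard_coe_finset]
  congr 1
  ext y
  simp only [Set.mem_ofPred_eq, Finset.coe_filter, m8]
  rw [eq_comm (a := mod2 y), mod2_eq_iff]

end Cfsg.Agent.H47
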