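import Mathlib
import Cfsg.Agent.H47.Lattice24
import Cfsg.Agent.H48.Lattice
import Cfsg.Agent.S0375

/-! Conway's characterisation of the Leech lattice. -/

set_option autoImplicit false

open Finset Matrix

namespace Cfsg.Agent.H47

/-- a lattice in frame coordinates -/
structure LM (M : AddSubgroup (Fin 24 → ℤ)) : Prop where
  dvd : ∀ x ∈ M, 16 ∣ ∑ i, x i ^ 2
  min : ∀ x ∈ M, x ≠ 0 → 32 ≤ ∑ i, x i ^ 2
  dp : ∀ i, Pi.single i 8 ∈ M
  dm : ∀ i j, Pi.single i 4 - Pi.single j 4 ∈ M
  cnt : {x | x ∈ M ∧ ∑ i, x i ^ 2 = 32}.ncard = 196560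

namespace LM

variable {M : AddSubgroup (Fin 24 → ℤ)}

theorem dot (h : LM M) {x y : Fin 24 → ℤ} (hx : x ∈ M) (hy : y ∈ M) : 8 ∣ ∑ i, x i * y i := by
  have h1 := h.dvd _ (M.add_mem hx hy)
  have h2 := h.dvd _ hx
  have h3 := h.dvd _ hy
  have : ∑ i, (x + y) i ^ 2 = ∑ i, x i ^ 2 + ∑ i, y i ^ 2 + 2 * ∑ i, x i * y i := by
    rw [mul_sum, ← sum_add_distrib, ← sum_add_distrib]
    exact sum_congr rfl fun i _ => by simp only [Pi.add_apply]; ring
  omega

theorem par (h : LM M) {x : Fin 24 → ℤ} (hx : x ∈ M) (i j : Fin 24) : x i % 2 = x j % 2 := by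
  have := h.dot hx (h.dm i j)
  simp only [Pi.sub_apply, mul_sub, sum_sub_distrib, Pi.single_apply, mul_ite, mul_zero,
    sum_ite_eq', mem_univ, if_true] at this
  omega

theorem four (h : LM M) {x : Fin 24 → ℤ} (h4 : ∀ i, 4 ∣ x i) (h8 : 8 ∣ ∑ i, x i) : x ∈ M := by
  choose y hy using h4
  obtain ⟨k, hk⟩ := h8
  have hs : ∑ i, y i = 2 * k := by
    simp only [hy, ← mul_sum] at hk
    omega
  have : x = ∑ i, y i • (Pi.single i 4 - Pi.single 0 4 : Fin 24 → ℤ) + k • Pi.single 0 8 := by
    funext j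
    simp only [Pi.add_apply, Finset.sum_apply, Pi.smul_apply, Pi.sub_apply, smul_eq_mul, mul_sub,
      sum_sub_distrib, Pi.single_apply, mul_ite, mul_zero, sum_ite_eq, mem_univ, if_true, hy j]
    split_ifs with h0
    · rw [← sum_mul, hs]; ring
    · simp [mul_comm]
  rw [this]
  exact M.add_mem (M.sum_mem fun i _ => M.zsmul_mem (h.dm i 0) _) (M.zsmul_mem (h.dp 0) _)

theorem single_eq (h : LM M) {i : Fin 24} {a : ℤ} (ha : Pi.single i a ∈ M) (h4 : a ^ 2 < 32) :
    a = 0 := by
  by_contra h0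
  have := h.min _ ha (fun e => h0 (by simpa using congrFun e i))
  simp only [Pi.single_apply, ite_pow, ne_eq, OfNat.ofNat_ne_zero, not_false_eq_true, zero_pow,
    sum_ite_eq', mem_univ, if_true] at this
  omega

/-- the code of the lattice -/
def code (M : AddSubgroup (Fin 24 → ℤ)) : Submodule (ZMod 2) (Fin 24 → ZMod 2) where
  carrier := {w | ∃ y : Fin 24 → ℤ, (2 : ℤ) • y ∈ M ∧ w = fun i => (y i : ZMod 2)}
  zero_mem' := ⟨0, by simp, by funext i; simp⟩
  add_mem' := by
    rintro _ _ ⟨y, hy, rfl⟩ ⟨z, hz, rfl⟩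
    exact ⟨y + z, by rw [smul_add]; exact M.add_mem hy hz, by funext i; simp⟩
  smul_mem' := by
    rintro c _ ⟨y, hy, rfl⟩
    rcases H48.zmod2_cases c with rfl | rfl
    · exact ⟨0, by simp, by funext i; simp⟩
    · exact ⟨y, hy, by simp⟩

theorem cast_ne_zero_iff (a : ℤ) : (a : ZMod 2) ≠ 0 ↔ a % 2 = 1 := by
  rw [Ne, ZMod.intCast_zmod_eq_zero_iff_dvd]; omega

theorem norm_eq (y : Fin 24 → ℤ) : hammingNorm (fun i => (y i : ZMod 2)) =
    (univ.filter fun i => y i % 2 = 1).card := by
  unfold hammingNorm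
  congr 1
  exact filter_congr fun i _ => cast_ne_zero_iff _

theorem weight (h : LM M) {w : Fin 24 → ZMod 2} (hw : w ∈ code M) :
    4 ∣ hammingNorm w ∧ (hammingNorm w = 0 ∨ 8 ≤ hammingNorm w) := by
  obtain ⟨y, hy, rfl⟩ := hw
  rw [norm_eq]
  set S := univ.filter fun i => y i % 2 = 1 with hS
  rcases S.eq_empty_or_nonempty with h0 | ⟨i0, hi0⟩
  · simp [h0]
  have hi0' : y i0 % 2 = 1 := (mem_filter.1 hi0).2
  obtain ⟨x, hx, hx2⟩ : ∃ x ∈ M, ∀ i, x i ^ 2 = if y i % 2 = 1 then 4 else 0 := by
    by_cases hp : 2 ∣ ∑ i, y i / 2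
    · refine ⟨(2 : ℤ) • y - fun i => 4 * (y i / 2), M.sub_mem hy (h.four (fun i => Dvd.intro _ rfl)
        (by rw [← mul_sum]; omega)), fun i => ?_⟩
      have : ((2 : ℤ) • y - fun i => 4 * (y i / 2) : Fin 24 → ℤ) i = 2 * (y i % 2) := by
        simp only [Pi.sub_apply, Pi.smul_apply, smul_eq_mul]; omega
      rw [this]
      split_ifs with h1
      · rw [h1]; norm_num
      · rw [show y i % 2 = 0 by omega]; norm_num
    · refine ⟨(2 : ℤ) • y - ((fun i => 4 * (y i / 2)) + Pi.single i0 4), M.sub_mem hy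
        (h.four (fun i => ?_) ?_), fun i => ?_⟩
      · simp only [Pi.add_apply, Pi.single_apply]; split_ifs <;> omega
      · simp only [Pi.add_apply, sum_add_distrib, ← mul_sum, Finset.sum_pi_single', mem_univ,
          if_true]
        omega
      · have : ((2 : ℤ) • y - ((fun i => 4 * (y i / 2)) + Pi.single i0 4) : Fin 24 → ℤ) i =
            2 * (y i % 2) - if i = i0 then 4 else 0 := by
          simp only [Pi.sub_apply, Pi.add_apply, Pi.smul_apply, smul_eq_mul, Pi.single_apply]
          split_ifs <;> omega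
        rw [this]
        by_cases hi : i = i0
        · subst hi; rw [hi0']; norm_num
        · rw [if_neg hi]
          split_ifs with h1
          · rw [h1]; norm_num
          · rw [show y i % 2 = 0 by omega]; norm_num
  have hn : ∑ i, x i ^ 2 = 4 * (S.card : ℤ) := by
    simp only [hx2, ← sum_filter, sum_const, hS, nsmul_eq_mul, mul_comm]
  have h1 := h.dvd x hx
  have h2 := h.min x hx (by
    rintro rfl
    have := hx2 i0
    rw [if_pos hi0'] at this
    simp at this)
  omega

theorem orth (h : LM M) {v w : Fin 24 → ZMod 2} (hv : v ∈ code M) (hw : w ∈ code M) :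
    ∑ i, v i * w i = 0 := by
  obtain ⟨y, hy, rfl⟩ := hv
  obtain ⟨z, hz, rfl⟩ := hw
  have := h.dot hy hz
  have e : ∑ i, ((2 : ℤ) • y) i * ((2 : ℤ) • z) i = 4 * ∑ i, y i * z i := by
    rw [mul_sum]; exact sum_congr rfl fun i _ => by simp only [Pi.smul_apply, smul_eq_mul]; ring
  have h2 : ((∑ i, y i * z i : ℤ) : ZMod 2) = 0 :=
    (ZMod.intCast_zmod_eq_zero_iff_dvd _ 2).2 (by omega)
  simpa using h2

theorem finrank_le (h : LM M) : Module.finrank (ZMod 2) (code M) ≤ 12 := by
  let Bf : LinearMap.BilinForm (ZMod 2) (Fin 24 → ZMod 2) := Matrix.toBilin' 1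
  have hB : ∀ v w, Bf v w = ∑ i, v i * w i := fun v w => by
    simp [Bf, Matrix.toBilin'_apply', dotProduct]
  have hnd : Bf.Nondegenerate := Matrix.Nondegenerate.toBilin' (Matrix.nondegenerate_of_det_ne_zero
    (by simp))
  have h1 := LinearMap.BilinForm.finrank_orthogonal hnd (code M)
  have h2 : code M ≤ Bf.orthogonal (code M) := fun w hw v hv => by
    rw [hB]; exact h.orth hv hw
  have h3 := Submodule.finrank_mono h2
  have h4 := Submodule.finrank_le (code M)
  simp only [Module.finrank_fintype_fun_eq_card, Fintype.card_fin] at h1 h4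
  omega

open Classical in
/-- octads of the code -/
noncomputable def octs (M : AddSubgroup (Fin 24 → ℤ)) : Finset (Finset (Fin 24)) :=
  univ.filter fun S => S.card = 8 ∧ (fun i => if i ∈ S then (1 : ZMod 2) else 0) ∈ code M

theorem card_octs (h : LM M) : (octs M).card ≤ 759 := by
  classical
  have key : ∀ S ∈ octs M, ∀ T ∈ octs M, 5 ≤ (S ∩ T).card → S = T := by
    intro S hS T hT h5
    simp only [octs, mem_filter, mem_univ, true_and] at hS hT
    have h1 := (h.weight ((code M).add_mem hS.2 hT.2)).2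
    have h2 : hammingNorm ((fun i => if i ∈ S then (1 : ZMod 2) else 0) +
        fun i => if i ∈ T then (1 : ZMod 2) else 0) = ((S ∪ T) \ (S ∩ T)).card := by
      unfold hammingNorm
      congr 1
      ext i
      by_cases a : i ∈ S <;> by_cases b : i ∈ T <;> simp [a, b]
      exact (by decide : (1 : ZMod 2) + 1 = 0)
    have h3 := card_union_add_card_inter S T
    rw [h2, card_sdiff_of_subset (inter_subset_union)] at h1
    have h4 : (S ∩ T).card = 8 := by
      have := card_le_card (inter_subset_left (s₁ := S) (s₂ := T))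
      omega
    have e1 := eq_of_subset_of_card_le (inter_subset_left (s₁ := S) (s₂ := T)) (by omega)
    have e2 := eq_of_subset_of_card_le (inter_subset_right (s₁ := S) (s₂ := T)) (by omega)
    rw [← e1, e2]
  have h1 : ((octs M).sigma fun S => powersetCard 5 S).card ≤
      (powersetCard 5 (univ : Finset (Fin 24))).card := by
    refine card_le_card_of_injOn (fun p => p.2) ?_ ?_
    · intro p hp
      simp only [coe_sigma, Set.mem_sigma_iff, mem_coe, mem_powersetCard] at hp
      simp only [mem_coe, mem_powersetCard]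
      exact ⟨subset_univ _, hp.2.2⟩
    · rintro ⟨S, F⟩ hp ⟨T, F'⟩ hq (e : F = F')
      subst e
      simp only [coe_sigma, Set.mem_sigma_iff, mem_coe, mem_powersetCard] at hp hq
      have := key S hp.1 T hq.1 (hp.2.2 ▸ card_le_card (subset_inter hp.2.1 hq.2.1))
      subst this; rfl
  rw [card_sigma, card_powersetCard, card_univ, Fintype.card_fin,
    sum_congr rfl (g := fun _ => 56) (fun S hS => by
      rw [card_powersetCard, (mem_filter.1 hS).2.1]; rfl), sum_const, smul_eq_mul] at h1
  have : Nat.choose 24 5 = 42504 := by decide +kernel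
  omega

theorem sq_le_sum (x : Fin 24 → ℤ) (i : Fin 24) : x i ^ 2 ≤ ∑ j, x j ^ 2 :=
  single_le_sum (f := fun j => x j ^ 2) (fun _ _ => sq_nonneg _) (mem_univ i)

theorem card_T1 (T : Finset (Fin 24 → ℤ)) (hT : ∀ x ∈ T, ∑ i, x i ^ 2 = 32 ∧ ∀ i, 4 ∣ x i) :
    T.card ≤ 1104 := by
  classical
  have val : ∀ x ∈ T, ∀ i, x i = 0 ∨ x i = 4 ∨ x i = -4 := by
    intro x hx i
    have h1 := sq_le_sum x i
    rw [(hT x hx).1] at h1
    have h2 := (hT x hx).2 i
    have : -6 < x i ∧ x i < 6 := by constructor <;> nlinarith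
    omega
  have h1 : T.card ≤ ((powersetCard 2 (univ : Finset (Fin 24))).sigma fun S => powerset S).card := by
    refine card_le_card_of_injOn
      (fun x => ⟨univ.filter fun i => x i ≠ 0, univ.filter fun i => x i < 0⟩) ?_ ?_
    · intro x hx
      simp only [coe_sigma, Set.mem_sigma_iff, mem_coe, mem_powersetCard, mem_powerset]
      refine ⟨⟨subset_univ _, ?_⟩, fun i hi => ?_⟩
      · have h2 := (hT x hx).1
        have : ∀ i, x i ^ 2 = if x i ≠ 0 then 16 else 0 := fun i => by
          rcases val x hx i with h | h | h <;> rw [h] <;> norm_num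
        simp only [this, ← sum_filter, sum_const, nsmul_eq_mul] at h2
        omega
      · simp only [mem_filter, mem_univ, true_and] at hi ⊢
        omega
    · intro x hx y hy e
      simp only [Sigma.mk.injEq, heq_eq_eq] at e
      funext i
      have e1 := Finset.ext_iff.1 e.1 i
      have e2 := Finset.ext_iff.1 e.2 i
      simp only [mem_filter, mem_univ, true_and] at e1 e2
      have := val x hx i
      have := val y hy i
      omega
  rw [card_sigma, sum_congr rfl (g := fun _ => 4) (fun S hS => by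
      rw [card_powerset, (mem_powersetCard.1 hS).2]; rfl), sum_const, smul_eq_mul,
      card_powersetCard, card_univ, Fintype.card_fin] at h1
  have : Nat.choose 24 2 = 276 := by decide +kernel
  omega

theorem card_T2 (h : LM M) (T : Finset (Fin 24 → ℤ))
    (hT : ∀ x ∈ T, x ∈ M ∧ ∑ i, x i ^ 2 = 32 ∧ (∀ i, x i % 2 = 0) ∧ ¬ ∀ i, 4 ∣ x i) :
    T.card ≤ 759 * 128 := by
  classical
  have val : ∀ x ∈ T, (univ.filter fun i => x i ≠ 0) ∈ octs M ∧
      ∀ i, x i = 0 ∨ x i = 2 ∨ x i = -2 := by
    intro x hx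
    obtain ⟨h1, h2, h3, h4⟩ := hT x hx
    have hx2 : (2 : ℤ) • (fun i => x i / 2) = x := by
      funext i; have := h3 i; simp only [Pi.smul_apply, smul_eq_mul]; omega
    have hc : (fun i => ((x i / 2 : ℤ) : ZMod 2)) ∈ code M := ⟨_, hx2.symm ▸ h1, rfl⟩
    have h5 := (h.weight hc).2
    rw [norm_eq] at h5
    set S := univ.filter fun i => x i / 2 % 2 = 1 with hS
    have hS0 : S.card ≠ 0 := by
      rw [card_ne_zero]
      push Not at h4
      obtain ⟨i, hi⟩ := h4
      exact ⟨i, mem_filter.2 ⟨mem_univ _, by have := h3 i; omega⟩⟩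
    have h6 : ∀ i, (if i ∈ S then 4 else 0) ≤ x i ^ 2 := fun i => by
      split_ifs with hi
      · have := (mem_filter.1 hi).2
        have := h3 i
        have : x i ≤ -2 ∨ 2 ≤ x i := by omega
        rcases this with h | h <;> nlinarith
      · exact sq_nonneg _
    have h7 : ∑ i, (if i ∈ S then (4 : ℤ) else 0) = 4 * S.card := by
      rw [← sum_filter, sum_const, filter_mem_eq_inter, univ_inter, nsmul_eq_mul, mul_comm]
    have h8 := sum_le_sum (fun i (_ : i ∈ univ) => h6 i)
    have h9 : S.card = 8 := by omega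
    have h10 := (sum_eq_sum_iff_of_le (fun i (_ : i ∈ univ) => h6 i)).1 (by omega)
    have h11 : ∀ i, (i ∈ S ∧ (x i = 2 ∨ x i = -2)) ∨ (i ∉ S ∧ x i = 0) := fun i => by
      have := h10 i (mem_univ i)
      split_ifs at this with hi
      · exact Or.inl ⟨hi, sq_eq_sq_iff_eq_or_eq_neg.1 (by rw [← this]; norm_num)⟩
      · exact Or.inr ⟨hi, pow_eq_zero_iff two_ne_zero |>.1 this.symm⟩
    have h12 : (univ.filter fun i => x i ≠ 0) = S := by
      ext i
      rw [mem_filter]
      rcases h11 i with ⟨a, b⟩ | ⟨a, b⟩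
      · simp only [mem_univ, true_and, a, iff_true]; omega
      · simp [a, b]
    refine ⟨?_, fun i => by rcases h11 i with ⟨_, b⟩ | ⟨_, b⟩ <;> omega⟩
    rw [h12]
    simp only [octs, mem_filter, mem_univ, true_and]
    refine ⟨h9, ?_⟩
    convert hc using 2 with i
    rcases h11 i with ⟨a, b | b⟩ | ⟨a, b⟩ <;> simp [a, b]
  let p : Finset (Fin 24) → Fin 24 := fun S => if hS : S.Nonempty then S.min' hS else 0
  have hp : ∀ S ∈ octs M, p S ∈ S := by
    intro S hS
    have : S.Nonempty := by rw [← card_pos, (mem_filter.1 hS).2.1]; norm_num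
    simp only [p, dif_pos this]
    exact min'_mem _ _
  have h1 : T.card ≤ ((octs M).sigma fun S => powerset (S.erase (p S))).card := by
    refine card_le_card_of_injOn
      (fun x => ⟨univ.filter fun i => x i ≠ 0,
        (univ.filter fun i => x i < 0).erase (p (univ.filter fun i => x i ≠ 0))⟩) ?_ ?_
    · intro x hx
      simp only [coe_sigma, Set.mem_sigma_iff, mem_coe, mem_powerset]
      refine ⟨(val x hx).1, erase_subset_erase _ fun i hi => ?_⟩
      simp only [mem_filter, mem_univ, true_and] at hi ⊢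
      omega
    · intro x hx y hy e
      simp only [Sigma.mk.injEq, heq_eq_eq] at e
      obtain ⟨e1, e2⟩ := e
      rw [e1] at e2
      set i0 := p (univ.filter fun i => y i ≠ 0)
      have k : ∀ i, (x i = 0 ↔ y i = 0) ∧ (i ≠ i0 → x i = y i) := by
        intro i
        have a1 := Finset.ext_iff.1 e1 i
        have a2 := Finset.ext_iff.1 e2 i
        simp only [mem_filter, mem_univ, true_and, mem_erase] at a1 a2
        have := (val x hx).2 i
        have := (val y hy).2 i
        refine ⟨by omega, fun hi => ?_⟩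
        simp only [hi, ne_eq, not_false_eq_true, true_and] at a2
        omega
      have k2 : x - y = Pi.single i0 (x i0 - y i0) := by
        funext i
        by_cases hi : i = i0
        · subst hi; simp
        · simp [hi, (k i).2 hi]
      have k3 := h.single_eq (k2 ▸ M.sub_mem (hT x hx).1 (hT y hy).1) (by
        rcases (val x hx).2 i0 with a | a | a <;> rcases (val y hy).2 i0 with b | b | b <;>
          rw [a, b] <;> norm_num)
      rw [k3] at k2
      simpa [sub_eq_zero] using k2
  rw [card_sigma, sum_congr rfl (g := fun _ => 128) (fun S hS => by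
      rw [card_powerset, card_erase_of_mem (hp S hS), (mem_filter.1 hS).2.1]; rfl), sum_const,
      smul_eq_mul] at h1
  have := h.card_octs
  omega

theorem card_T3 (T : Finset (Fin 24 → ℤ))
    (hT : ∀ x ∈ T, x ∈ M ∧ ∑ i, x i ^ 2 = 32 ∧ ∀ i, x i % 2 = 1) :
    T.card ≤ 24 * Nat.card (code M) := by
  classical
  rcases T.eq_empty_or_nonempty with rfl | ⟨x0, hx0⟩
  · simp
  have val : ∀ x ∈ T, ∃ i0, (x i0 = 3 ∨ x i0 = -3) ∧ ∀ i, i ≠ i0 → (x i = 1 ∨ x i = -1) := by
    intro x hx
    obtain ⟨-, h2, h3⟩ := hT x hx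
    have h4 : ∀ i, 0 ≤ x i ^ 2 - 1 := fun i => by
      have := h3 i
      have : x i ≤ -1 ∨ 1 ≤ x i := by omega
      rcases this with h | h <;> nlinarith
    have h5 : ∑ i, (x i ^ 2 - 1) = 8 := by simp [sum_sub_distrib, h2]
    obtain ⟨i0, -, hi0⟩ : ∃ i ∈ univ, x i ^ 2 - 1 ≠ 0 :=
      exists_ne_zero_of_sum_ne_zero (by rw [h5]; norm_num)
    have h6 := single_le_sum (f := fun j => x j ^ 2 - 1) (fun j _ => h4 j) (mem_univ i0)
    have h7 : x i0 = 3 ∨ x i0 = -3 := by
      have := h3 i0
      have a : -4 < x i0 ∧ x i0 < 4 := by constructor <;> nlinarith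
      have b : x i0 ≠ 1 := fun e => hi0 (by rw [e]; norm_num)
      have c : x i0 ≠ -1 := fun e => hi0 (by rw [e]; norm_num)
      omega
    refine ⟨i0, h7, fun i hi => ?_⟩
    rw [← add_sum_erase _ _ (mem_univ i0)] at h5
    have h8 : ∑ j ∈ univ.erase i0, (x j ^ 2 - 1) = 0 := by
      rcases h7 with e | e <;> rw [e] at h5 <;> linarith
    have h9 := (sum_eq_zero_iff_of_nonneg (fun j _ => h4 j)).1 h8 i (by simp [hi])
    exact sq_eq_sq_iff_eq_or_eq_neg.1 (by linarith)
  choose! f hf using val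
  have hm : ∀ x ∈ T, (fun i => (((x i - x0 i) / 2 : ℤ) : ZMod 2)) ∈ code M := by
    intro x hx
    refine ⟨_, ?_, rfl⟩
    have : (2 : ℤ) • (fun i => (x i - x0 i) / 2) = x - x0 := by
      funext i
      have := (hT x hx).2.2 i
      have := (hT x0 hx0).2.2 i
      simp only [Pi.smul_apply, smul_eq_mul, Pi.sub_apply]; omega
    rw [this]
    exact M.sub_mem (hT x hx).1 (hT x0 hx0).1
  have h1 : T.card ≤ ((univ : Finset (Fin 24)) ×ˢ (univ.filter fun w => w ∈ code M)).card := by
    refine card_le_card_of_injOn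
      (fun x => (f x, fun i => (((x i - x0 i) / 2 : ℤ) : ZMod 2))) ?_ ?_
    · intro x hx
      simp only [coe_product, Set.mem_prod, mem_coe, mem_univ, mem_filter, true_and]
      exact hm x hx
    · intro x hx y hy e
      simp only [Prod.mk.injEq] at e
      funext i
      have a := (ZMod.intCast_eq_intCast_iff_dvd_sub _ _ 2).1 (congrFun e.2 i)
      have b := (hT x0 hx0).2.2 i
      by_cases hi : i = f x
      · have c := (hf x hx).1
        have d := (hf y hy).1
        rw [← e.1] at d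
        rw [← hi] at c d
        omega
      · have c := (hf x hx).2 i hi
        have d := (hf y hy).2 i (e.1 ▸ hi)
        omega
  rw [card_product, card_univ, Fintype.card_fin] at h1
  rwa [Nat.card_eq_fintype_card, Fintype.card_subtype]

theorem big (h : LM M) : (∃ x ∈ M, ∀ i, x i % 2 = 1) ∧ Module.finrank (ZMod 2) (code M) = 12 := by
  classical
  have hc := h.cnt
  have hf : {x | x ∈ M ∧ ∑ i, x i ^ 2 = 32}.Finite := Set.finite_of_ncard_ne_zero (by omega)
  rw [Set.ncard_eq_toFinset_card _ hf] at hc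
  set T := hf.toFinset
  have hT : ∀ x, x ∈ T ↔ x ∈ M ∧ ∑ i, x i ^ 2 = 32 := fun x => by simp [T]
  have a1 := card_filter_add_card_filter_not (s := T) (fun x => ∀ i, x i % 2 = 1)
  have a2 := card_filter_add_card_filter_not (s := T.filter fun x => ¬ ∀ i, x i % 2 = 1)
    (fun x => ∀ i, 4 ∣ x i)
  have b1 := card_T1 ((T.filter fun x => ¬ ∀ i, x i % 2 = 1).filter fun x => ∀ i, 4 ∣ x i)
    (fun x hx => by
      simp only [mem_filter, hT] at hx
      exact ⟨hx.1.1.2, hx.2⟩)
  have b2 := h.card_T2 ((T.filter fun x => ¬ ∀ i, x i % 2 = 1).filter fun x => ¬ ∀ i, 4 ∣ x i)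
    (fun x hx => by
      simp only [mem_filter, hT] at hx
      refine ⟨hx.1.1.1, hx.1.1.2, fun i => ?_, hx.2⟩
      have h1 := hx.1.2
      push Not at h1
      obtain ⟨j, hj⟩ := h1
      have := h.par hx.1.1.1 i j
      omega)
  have b3 := card_T3 (M := M) (T.filter fun x => ∀ i, x i % 2 = 1) (fun x hx => by
      simp only [mem_filter, hT] at hx
      exact ⟨hx.1.1, hx.1.2, hx.2⟩)
  constructor
  · obtain ⟨x, hx⟩ : (T.filter fun x => ∀ i, x i % 2 = 1).Nonempty := by
      rw [← card_pos]; omega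
    simp only [mem_filter, hT] at hx
    exact ⟨x, hx.1.1, hx.2⟩
  · have c1 := h.finrank_le
    have c2 : Nat.card (code M) = 2 ^ Module.finrank (ZMod 2) (code M) := by
      rw [Module.natCard_eq_pow_finrank (K := ZMod 2)]; simp
    by_contra hne
    have : 2 ^ Module.finrank (ZMod 2) (code M) ≤ 2 ^ 11 :=
      Nat.pow_le_pow_right (by norm_num) (by omega)
    omega

theorem neg_coord (h : LM M) (ε : Fin 24 → ℤ) (hε : ∀ i, ε i = 1 ∨ ε i = -1) :
    LM (M.comap (AddMonoidHom.mulLeft ε)) := by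
  have e2 : ∀ (x : Fin 24 → ℤ) i, (ε * x) i ^ 2 = x i ^ 2 := fun x i => by
    rcases hε i with a | a <;> simp [a]
  have e3 : ∀ x : Fin 24 → ℤ, ε * (ε * x) = x := fun x => by
    funext i; rcases hε i with a | a <;> simp [a]
  have hm : ∀ x, x ∈ M.comap (AddMonoidHom.mulLeft ε) ↔ ε * x ∈ M := fun x => Iff.rfl
  refine ⟨fun x hx => ?_, fun x hx h0 => ?_, fun i => ?_, fun i j => ?_, ?_⟩
  · simpa only [e2] using h.dvd _ ((hm x).1 hx)
  · simpa only [e2] using h.min _ ((hm x).1 hx) (fun e => h0 (by rw [← e3 x, e, mul_zero]))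
  · rw [hm]
    refine h.four (fun j => ?_) ?_
    · simp only [Pi.mul_apply, Pi.single_apply]; split_ifs <;> omega
    · simp [Pi.single_apply]
  · rw [hm]
    refine h.four (fun k => ?_) ?_
    · simp only [Pi.mul_apply, Pi.sub_apply, Pi.single_apply]; split_ifs <;> omega
    · simp only [Pi.mul_apply, Pi.sub_apply, Pi.single_apply, mul_sub, sum_sub_distrib, mul_ite,
        mul_zero, sum_ite_eq', mem_univ, if_true]
      have := hε i
      have := hε j
      omega
  · rw [← h.cnt]
    refine Set.ncard_congr (fun x _ => ε * x) ?_ ?_ ?_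
    · intro x hx
      exact ⟨(hm x).1 hx.1, by simpa only [e2] using hx.2⟩
    · intro x y _ _ e
      rw [← e3 x, e, e3]
    · intro x hx
      exact ⟨ε * x, ⟨(hm _).2 (by rw [e3]; exact hx.1), by simpa only [e2] using hx.2⟩, e3 x⟩

/-- identification with the Leech lattice when there is a vector `≡ (1, …, 1) mod 4` -/
theorem eq_leech (h : LM M) {x0 : Fin 24 → ℤ} (hx0 : x0 ∈ M) (h1 : ∀ i, x0 i % 4 = 1) :
    ∃ e : Fin 24 ≃ GolayPt, ∀ x : GolayPt → ℤ, x ∈ leechLattice ↔ (fun i => x (e i)) ∈ M := by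
  classical
  obtain ⟨e, he⟩ := S0375.result (code M) h.big.2 (fun v hv w hw => h.orth hv hw)
    (fun w hw => (h.weight hw).1) (fun w hw => by have := (h.weight hw).2; omega)
  refine ⟨e, ?_⟩
  have hy : ∀ i, ∃ y, x0 i = 1 + 4 * y := fun i => ⟨x0 i / 4, by have := h1 i; omega⟩
  choose y hy using hy
  have s0 : (∑ i, x0 i) % 8 = 4 := by
    have a := h.dvd x0 hx0
    have b : ∑ i, x0 i ^ 2 = 24 + 8 * ∑ i, y i + 16 * ∑ i, y i ^ 2 := by
      rw [mul_sum, mul_sum, show (24 : ℤ) = ∑ _i : Fin 24, (1 : ℤ) by simp, ← sum_add_distrib,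
        ← sum_add_distrib]
      exact sum_congr rfl fun i _ => by rw [hy]; ring
    have c : ∑ i, x0 i = 24 + 4 * ∑ i, y i := by
      rw [mul_sum, show (24 : ℤ) = ∑ _i : Fin 24, (1 : ℤ) by simp, ← sum_add_distrib]
      exact sum_congr rfl fun i _ => hy i
    omega
  have s1 : ∀ x ∈ M, (∀ i, x i % 2 = 0) → 8 ∣ ∑ i, x i := by
    intro x hx h2
    have a := h.dot hx hx0
    have b : ∑ i, x i * x0 i = ∑ i, x i + 8 * ∑ i, x i / 2 * y i := by
      rw [mul_sum, ← sum_add_distrib]
      refine sum_congr rfl fun i _ => ?_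
      have : x i = 2 * (x i / 2) := by have := h2 i; omega
      rw [hy]; linear_combination (4 * y i) * this
    omega
  have wd : ∀ x : GolayPt → ℤ, (∀ p, x p % 2 = 0) →
      (H48.IsWord (H48.cls x 2) ↔ (fun i => ((x (e i) / 2 : ℤ) : ZMod 2)) ∈ code M) := by
    intro x hx
    rw [H48.isWord_iff, he]
    have : (fun i => H48.ind (H48.cls x 2) (e i)) = fun i => ((x (e i) / 2 : ℤ) : ZMod 2) := by
      funext i
      have := hx (e i)
      simp only [H48.ind, H48.mem_cls]
      split_ifs with a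
      · exact ((H48.zmod2_cases _).resolve_left ((cast_ne_zero_iff _).2 (by omega))).symm
      · exact ((ZMod.intCast_zmod_eq_zero_iff_dvd _ 2).2 (by omega)).symm
    rw [this]
  have ev : ∀ x : GolayPt → ℤ, (∀ p, x p % 2 = 0) →
      (x ∈ leechLattice ↔ (fun i => x (e i)) ∈ M) := by
    intro x hx
    have hs : ∑ i, x (e i) = ∑ p, x p := Equiv.sum_comp e x
    rw [H48.mem_leech_iff]
    constructor
    · rintro (⟨-, a, b⟩ | ⟨a, -⟩)
      · obtain ⟨z, hz, hz'⟩ := (wd x hx).1 b
        have c := s1 _ hz (fun i => by simp)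
        have : (fun i => x (e i)) = (2 : ℤ) • z + ((fun i => x (e i)) - (2 : ℤ) • z) := by abel
        rw [this]
        refine M.add_mem hz (h.four (fun i => ?_) ?_)
        · have d := (ZMod.intCast_eq_intCast_iff_dvd_sub _ _ 2).1 (congrFun hz' i)
          have := hx (e i)
          simp only [Pi.sub_apply, Pi.smul_apply, smul_eq_mul]
          omega
        · simp only [Pi.sub_apply, sum_sub_distrib, hs]
          omega
      · have := a none
        have := hx none
        omega
    · intro a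
      left
      refine ⟨hx, ?_, (wd x hx).2 ⟨_, ?_, rfl⟩⟩
      · have := s1 _ a (fun i => hx _)
        omega
      · convert a using 1
        funext i
        have := hx (e i)
        simp only [Pi.smul_apply, smul_eq_mul]
        omega
  have l0 : (fun p => x0 (e.symm p)) ∈ leechLattice := by
    rw [H48.mem_leech_iff]
    right
    refine ⟨fun p => by have := h1 (e.symm p); dsimp only; omega, by rwa [Equiv.sum_comp e.symm x0], ?_⟩
    convert H48.isWord_empty
    ext p
    have := h1 (e.symm p)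
    simp only [H48.mem_cls, Finset.notMem_empty, iff_false]
    omega
  have od : ∀ x : GolayPt → ℤ, (∀ p, x p % 2 = 1) →
      (x ∈ leechLattice ↔ (fun i => x (e i)) ∈ M) := by
    intro x hx
    have a := ev (x - fun p => x0 (e.symm p)) (fun p => by
      have := hx p
      have := h1 (e.symm p)
      simp only [Pi.sub_apply]; omega)
    have b : (fun i => (x - fun p => x0 (e.symm p) : GolayPt → ℤ) (e i)) =
        (fun i => x (e i)) - x0 := by
      funext i; simp
    rw [b] at a
    exact ⟨fun c => by simpa using M.add_mem (a.1 (sub_mem c l0)) hx0,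
      fun c => by simpa using leechLattice.add_mem (a.2 (sub_mem c hx0)) l0⟩
  intro x
  constructor
  · intro hx
    rcases (H48.mem_leech_iff x).1 hx with a | a
    · exact (ev x a.1).1 hx
    · exact (od x a.1).1 hx
  · intro hx
    have a : ∀ p, x p % 2 = x (e 0) % 2 := fun p => by simpa using h.par hx (e.symm p) 0
    rcases Int.emod_two_eq_zero_or_one (x (e 0)) with b | b
    · exact (ev x fun p => (a p).trans b).2 hx
    · exact (od x fun p => (a p).trans b).2 hx

theorem exists_iso (h : LM M) : ∃ (e : Fin 24 ≃ GolayPt) (ε : Fin 24 → ℤ),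
    (∀ i, ε i = 1 ∨ ε i = -1) ∧
      ∀ x : GolayPt → ℤ, x ∈ leechLattice ↔ (ε * fun i => x (e i)) ∈ M := by
  obtain ⟨x0, hx0, h1⟩ := h.big.1
  let ε : Fin 24 → ℤ := fun i => if x0 i % 4 = 1 then 1 else -1
  have hε : ∀ i, ε i = 1 ∨ ε i = -1 := fun i => by simp only [ε]; split_ifs <;> simp
  have e3 : ε * (ε * x0) = x0 := by
    funext i; rcases hε i with a | a <;> simp [a]
  obtain ⟨e, he⟩ := (h.neg_coord ε hε).eq_leech (x0 := ε * x0)
    (show ε * (ε * x0) ∈ M by rwa [e3]) (fun i => by
      have := h1 i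
      simp only [Pi.mul_apply, ε]
      split_ifs <;> omega)
  exact ⟨e, ε, hε, he⟩

end LM

/-- Conway's characterisation -/
theorem Rootless.iso_leech {B : Matrix (Fin 24) (Fin 24) ℤ} (h : Rootless B)
    (h4 : {x : Fin 24 → ℤ | gf B x x = 4}.ncard = 196560)
    (h6 : {x : Fin 24 → ℤ | gf B x x = 6}.ncard = 16773120)
    (h8 : {x : Fin 24 → ℤ | gf B x x = 8}.ncard = 398034000) :
    ∃ f : (Fin 24 → ℤ) ≃+ leechLattice, ∀ x : Fin 24 → ℤ,
      sqNorm ((f x : leechLattice) : GolayPt → ℤ) = 8 * gf B x x := by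
  classical
  obtain ⟨x, hx⟩ : {x : Fin 24 → ℤ | gf B x x = 8}.Nonempty :=
    Set.nonempty_of_ncard_ne_zero (by omega)
  have hc := h.count h4 h6 h8 x hx
  have hf : {y : Fin 24 → ℤ | gf B y y = 8 ∧ ∀ i, (2 : ℤ) ∣ (x - y) i}.Finite :=
    Set.finite_of_ncard_ne_zero (by omega)
  rw [Set.ncard_eq_toFinset_card _ hf] at hc
  have hm : ∀ y, y ∈ hf.toFinset ↔ gf B y y = 8 ∧ mod2 x = mod2 y := fun y => by
    simp [mod2_eq_iff]
  obtain ⟨T, hT, horth, hcard, -⟩ := h.exists_frame hf.toFinset (fun y hy => ((hm y).1 hy).1)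
    (fun y hy => (hm _).2 ⟨by rw [gf_neg_left, gf_neg_right, neg_neg]; exact ((hm y).1 hy).1,
      by rw [mod2_neg]; exact ((hm y).1 hy).2⟩)
    (fun y hy z hz => (mod2_eq_iff _ _).1 (((hm y).1 hy).2.symm.trans ((hm z).1 hz).2))
  have hT24 : T.card = 24 := by omega
  let t : Fin 24 ≃ T := (T.equivFinOfCardEq hT24).symm
  let v : Fin 24 → Fin 24 → ℤ := fun i => t i
  have hv : ∀ i j, gf B (v i) (v j) = if i = j then 8 else 0 := by
    intro i j
    split_ifs with e
    · subst e; exact ((hm _).1 (hT (t i).2)).1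
    · exact horth _ (t i).2 _ (t j).2 (fun a => e (t.injective (Subtype.ext a)))
  have hv2 : ∀ i j k, (2 : ℤ) ∣ (v i - v j) k := fun i j =>
    (mod2_eq_iff _ _).1 (((hm _).1 (hT (t i).2)).2.symm.trans ((hm _).1 (hT (t j).2)).2)
  let P : Matrix (Fin 24) (Fin 24) ℤ := Matrix.of v
  have hP : P * B * Pᵀ = (8 : ℤ) • (1 : Matrix (Fin 24) (Fin 24) ℤ) := by
    ext i j
    have := hv i j
    simp only [gf, dotProduct, mulVec] at this
    rw [Matrix.mul_assoc]
    simp only [mul_apply, P, of_apply, transpose_apply, this, Matrix.smul_apply,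
      Matrix.one_apply, smul_eq_mul, mul_ite, mul_one, mul_zero]
  have hdet : (P * B).det ≠ 0 := by
    intro e
    have := congrArg Matrix.det hP
    rw [det_mul, e, zero_mul, det_smul, det_one] at this
    simp at this
  have hP' : Pᵀ * (P * B) = (8 : ℤ) • (1 : Matrix (Fin 24) (Fin 24) ℤ) := by
    have a : (P * B) * (Pᵀ * (P * B) - (8 : ℤ) • (1 : Matrix (Fin 24) (Fin 24) ℤ)) = 0 := by
      rw [mul_sub, ← Matrix.mul_assoc, hP, Matrix.smul_mul, Matrix.mul_smul, Matrix.one_mul,
        Matrix.mul_one, sub_self]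
    have b := congrArg ((P * B).adjugate * ·) a
    simp only [Matrix.mul_zero] at b
    rw [← Matrix.mul_assoc, adjugate_mul, Matrix.smul_mul, Matrix.one_mul, smul_eq_zero] at b
    exact sub_eq_zero.1 (b.resolve_left hdet)
  let φ : (Fin 24 → ℤ) →+ (Fin 24 → ℤ) := (Matrix.mulVecLin (P * B)).toAddMonoidHom
  have hφ : ∀ y, φ y = (P * B) *ᵥ y := fun _ => rfl
  have hφi : ∀ y i, φ y i = gf B (v i) y := fun y i => by
    rw [hφ, ← mulVec_mulVec]; rfl
  have hn : ∀ y, ∑ i, φ y i ^ 2 = 8 * gf B y y := by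
    intro y
    have a : ∑ i, φ y i ^ 2 = φ y ⬝ᵥ φ y := by simp [dotProduct, sq]
    rw [a, hφ, ← mulVec_mulVec, dotProduct_comm, dotProduct_mulVec, ← mulVec_transpose,
      mulVec_mulVec, mulVec_mulVec, Matrix.mul_assoc, hP', smul_mulVec, one_mulVec,
      smul_dotProduct, smul_eq_mul]
    rfl
  have hinj : Function.Injective φ := by
    rw [injective_iff_map_eq_zero]
    intro y hy
    by_contra h0
    have a := hn y
    have b := h.pos y h0
    simp [hy] at a
    omega
  have hL : LM φ.range := by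
    refine ⟨?_, ?_, fun i => ⟨v i, ?_⟩, fun i j => ?_, ?_⟩
    · rintro _ ⟨y, rfl⟩
      have := h.even y
      rw [hn]; omega
    · rintro _ ⟨y, rfl⟩ h0
      have := h.four_le (x := y) (fun e => h0 (by rw [e, map_zero]))
      rw [hn]; omega
    · funext k
      rw [hφi, hv, Pi.single_apply]
    · choose z hz using hv2 i j
      refine ⟨z, ?_⟩
      funext k
      have a : v i - v j = (2 : ℤ) • z := by funext l; simpa using hz l
      have b := gf_sub_right B (v k) (v i) (v j)
      rw [a, gf_smul_right, hv, hv] at b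
      rw [hφi, Pi.sub_apply, Pi.single_apply, Pi.single_apply]
      split_ifs at b ⊢ <;> omega
    · rw [← h4, ← Set.ncard_image_of_injective {x | gf B x x = 4} hinj]
      refine congrArg Set.ncard (Set.ext fun w => ?_)
      constructor
      · rintro ⟨⟨y, rfl⟩, a⟩
        exact ⟨y, by rw [hn] at a; simp only [Set.mem_ofPred_eq]; omega, rfl⟩
      · rintro ⟨y, a, rfl⟩
        exact ⟨⟨y, rfl⟩, by rw [hn, a]; norm_num⟩
  obtain ⟨e, ε, hε, he⟩ := hL.exists_iso
  have e3 : ∀ x : Fin 24 → ℤ, ε * (ε * x) = x := fun x => by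
    funext i; rcases hε i with a | a <;> simp [a]
  let ψ : (Fin 24 → ℤ) →+ leechLattice :=
    { toFun := fun y => ⟨fun p => (ε * φ y) (e.symm p), (he _).2 (by
        simp only [Equiv.symm_apply_apply]; rw [e3]; exact ⟨y, rfl⟩)⟩
      map_zero' := by ext p; simp
      map_add' := fun a b => by ext p; simp [mul_add] }
  have hψ : ∀ y p, (ψ y : GolayPt → ℤ) p = ε (e.symm p) * φ y (e.symm p) := fun _ _ => rfl
  have hb : Function.Bijective ψ := by
    constructor
    · intro a b hab
      apply hinj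
      funext i
      have := congrArg (fun w : leechLattice => (w : GolayPt → ℤ) (e i)) hab
      simp only [hψ, Equiv.symm_apply_apply] at this
      rcases hε i with c | c <;> rw [c] at this <;> omega
    · intro w
      obtain ⟨y, hy⟩ := (he w).1 w.2
      refine ⟨y, Subtype.ext (funext fun p => ?_)⟩
      rw [hψ, hy]
      rcases hε (e.symm p) with c | c <;> simp [c]
  refine ⟨AddEquiv.ofBijective ψ hb, fun y => ?_⟩
  rw [← hn, ← Equiv.sum_comp e.symm, sqNorm]
  refine sum_congr rfl fun p _ => ?_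
  rw [AddEquiv.ofBijective_apply, hψ]
  rcases hε (e.symm p) with c | c <;> simp [c]

end Cfsg.Agent.H47
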