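/-
Majorana axes: a usable form of the axioms.
-/
import Cfsg.Prelude.Def_AxialAlgebras

set_option autoImplicit false

namespace Cfsg.Agent.H47

open Cfsg.Axial

variable {V : Type*} [AddCommGroup V] [Module ℝ V]

theorem mem_eigen {mul : V →ₗ[ℝ] V →ₗ[ℝ] V} {a : V} {c : ℝ} {v : V} :
    v ∈ eigen mul a c ↔ mul a v = c • v := Module.End.mem_eigenspace_iff

theorem eigenSum_insert (mul : V →ₗ[ℝ] V →ₗ[ℝ] V) (a : V) (c : ℝ) (S : Set ℝ) :
    eigenSum mul a (insert c S) = eigen mul a c ⊔ eigenSum mul a S := by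
  unfold eigenSum; rw [iSup_insert]

theorem eigenSum_singleton (mul : V →ₗ[ℝ] V →ₗ[ℝ] V) (a : V) (c : ℝ) :
    eigenSum mul a {c} = eigen mul a c := by
  unfold eigenSum; simp

/-- The working form of the Majorana axioms for an axis `a` with involution `t`. -/
structure Ax (mul : V →ₗ[ℝ] V →ₗ[ℝ] V) (B : LinearMap.BilinForm ℝ V) (t : V ≃ₗ[ℝ] V) (a : V) :
    Prop where
  idem : mul a a = a
  norm : B a a = 1
  tmul : ∀ u v, t (mul u v) = mul (t u) (t v)
  tB : ∀ u v, B (t u) (t v) = B u v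
  decomp : ∀ v, ∃ (l : ℝ) (x y z : V), v = l • a + x + y + z ∧ mul a x = 0 ∧
    mul a y = (1 / 4 : ℝ) • y ∧ mul a z = (1 / 32 : ℝ) • z ∧ t x = x ∧ t y = y ∧ t z = -z
  ta : t a = a
  f00 : ∀ u v, mul a u = 0 → mul a v = 0 → mul a (mul u v) = 0
  f04 : ∀ u v, mul a u = 0 → mul a v = (1 / 4 : ℝ) • v →
    mul a (mul u v) = (1 / 4 : ℝ) • mul u v
  f44 : ∀ u v, mul a u = (1 / 4 : ℝ) • u → mul a v = (1 / 4 : ℝ) • v →
    ∃ c : ℝ, mul a (mul u v) = c • a

variable {mul : V →ₗ[ℝ] V →ₗ[ℝ] V} {B : LinearMap.BilinForm ℝ V}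

theorem majorana_decomp {μ : V ≃ₗ[ℝ] V} {a : V} (h : IsMajoranaPair mul B μ a) (v : V) :
    ∃ (l : ℝ) (x y z : V), v = l • a + x + y + z ∧ mul a x = 0 ∧
    mul a y = (1 / 4 : ℝ) • y ∧ mul a z = (1 / 32 : ℝ) • z ∧ μ x = x ∧ μ y = y ∧ μ z = -z := by
  obtain ⟨h1, h2, ⟨⟨h3, h4, h5, h6⟩, h7⟩, h8, h9⟩ := h
  have hv : v ∈ eigenSum mul a majoranaSpectrum := h5 ▸ Submodule.mem_top
  unfold majoranaSpectrum at hv
  rw [eigenSum_insert, eigenSum_insert, eigenSum_insert, eigenSum_singleton, h7] at hv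
  obtain ⟨w, hw, r, hr, rfl⟩ := Submodule.mem_sup.mp hv
  obtain ⟨x, hx, r', hr', rfl⟩ := Submodule.mem_sup.mp hr
  obtain ⟨y, hy, z, hz, rfl⟩ := Submodule.mem_sup.mp hr'
  obtain ⟨l, rfl⟩ := Submodule.mem_span_singleton.mp hw
  rw [eigenSum_insert, eigenSum_insert, eigenSum_singleton] at h8
  refine ⟨l, x, y, z, by abel, by simpa using mem_eigen.1 hx, mem_eigen.1 hy, mem_eigen.1 hz,
    h8 x (Submodule.mem_sup_right (Submodule.mem_sup_left hx)),
    h8 y (Submodule.mem_sup_right (Submodule.mem_sup_right hy)), h9 z hz⟩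

theorem majorana_fix {μ : V ≃ₗ[ℝ] V} {a : V} (h : IsMajoranaPair mul B μ a) : μ a = a := by
  obtain ⟨h1, h2, ⟨⟨h3, h4, h5, h6⟩, h7⟩, h8, h9⟩ := h
  rw [eigenSum_insert] at h8
  exact h8 a (Submodule.mem_sup_left (mem_eigen.2 (by rw [h4, one_smul])))

theorem ax_of_majorana {μ : V ≃ₗ[ℝ] V} {a : V} (h : IsMajoranaPair mul B μ a) (hn : B a a = 1) :
    Ax mul B μ a := by
  have hd := majorana_decomp h
  have hf := majorana_fix h
  obtain ⟨h1, h2, ⟨⟨h3, h4, h5, h6⟩, h7⟩, h8, h9⟩ := h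
  refine ⟨h4, hn, h1, h2, hd, hf, ?_, ?_, ?_⟩
  · intro u v hu hv
    have := h6 0 (by simp [majoranaSpectrum]) 0 (by simp [majoranaSpectrum]) u
      (mem_eigen.2 (by simpa using hu)) v (mem_eigen.2 (by simpa using hv))
    have e : monsterLaw (1 / 4 : ℝ) (1 / 32) 0 0 = {0} := by
      unfold monsterLaw; norm_num
    rw [e, eigenSum_singleton, mem_eigen] at this
    simpa using this
  · intro u v hu hv
    have := h6 0 (by simp [majoranaSpectrum]) (1 / 4) (by simp [majoranaSpectrum]) u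
      (mem_eigen.2 (by simpa using hu)) v (mem_eigen.2 hv)
    have e : monsterLaw (1 / 4 : ℝ) (1 / 32) 0 (1 / 4) = {1 / 4} := by
      unfold monsterLaw; norm_num
    rwa [e, eigenSum_singleton, mem_eigen] at this
  · intro u v hu hv
    have := h6 (1 / 4) (by simp [majoranaSpectrum]) (1 / 4) (by simp [majoranaSpectrum]) u
      (mem_eigen.2 hu) v (mem_eigen.2 hv)
    have e : monsterLaw (1 / 4 : ℝ) (1 / 32) (1 / 4) (1 / 4) = {1, 0} := by
      unfold monsterLaw; norm_num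
    rw [e, eigenSum_insert, eigenSum_singleton, h7] at this
    obtain ⟨w, hw, x, hx, hwx⟩ := Submodule.mem_sup.mp this
    obtain ⟨l, rfl⟩ := Submodule.mem_span_singleton.mp hw
    refine ⟨l, ?_⟩
    rw [← hwx, map_add, map_smul, h4, mem_eigen.1 hx, zero_smul, add_zero]

/-- The axis determines the involution. -/
theorem majorana_unique {μ ν : V ≃ₗ[ℝ] V} {a : V} (h : IsMajoranaPair mul B μ a)
    (h' : IsMajoranaPair mul B ν a) : μ = ν := by
  ext v
  obtain ⟨l, x, y, z, rfl, hx, hy, hz, tx, ty, tz⟩ := majorana_decomp h v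
  have e1 := majorana_fix h
  have e2 := majorana_fix h'
  obtain ⟨-, -, -, h8, h9⟩ := h'
  rw [eigenSum_insert, eigenSum_insert, eigenSum_singleton] at h8
  have x' : ν x = x := h8 x (Submodule.mem_sup_right (Submodule.mem_sup_left
    (mem_eigen.2 (by simpa using hx))))
  have y' : ν y = y := h8 y (Submodule.mem_sup_right (Submodule.mem_sup_right (mem_eigen.2 hy)))
  have z' : ν z = -z := h9 z (mem_eigen.2 hz)
  simp only [map_add, map_smul, e1, e2, tx, ty, tz, x', y', z']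

theorem eigen_map (g : V ≃ₗ[ℝ] V) (hg : ∀ u v, g (mul u v) = mul (g u) (g v)) (a : V) (c : ℝ) :
    eigen mul (g a) c = (eigen mul a c).map (g : V →ₗ[ℝ] V) := by
  ext v
  obtain ⟨v, rfl⟩ := g.surjective v
  rw [mem_eigen, ← hg, ← map_smul, g.injective.eq_iff, ← mem_eigen]
  exact (Submodule.mem_map_equiv _).trans (by simp) |>.symm

theorem eigenSum_map (g : V ≃ₗ[ℝ] V) (hg : ∀ u v, g (mul u v) = mul (g u) (g v)) (a : V)
    (S : Set ℝ) : eigenSum mul (g a) S = (eigenSum mul a S).map (g : V →ₗ[ℝ] V) := by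
  unfold eigenSum
  simp only [Submodule.map_iSup, eigen_map g hg]

/-- Transport of a Majorana pair along an automorphism. -/
theorem majorana_conj {μ : V ≃ₗ[ℝ] V} {a : V} (h : IsMajoranaPair mul B μ a) (g : V ≃ₗ[ℝ] V)
    (hg : ∀ u v, g (mul u v) = mul (g u) (g v)) (hB : ∀ u v, B (g u) (g v) = B u v) :
    IsMajoranaPair mul B (g * μ * g⁻¹) (g a) := by
  obtain ⟨h1, h2, ⟨⟨h3, h4, h5, h6⟩, h7⟩, h8, h9⟩ := h
  have happ : ∀ v, (g * μ * g⁻¹) (g v) = g (μ v) := fun v => by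
    simp [LinearEquiv.mul_apply]
  refine ⟨?_, ?_, ⟨⟨?_, ?_, ?_, ?_⟩, ?_⟩, ?_, ?_⟩
  · intro u v
    obtain ⟨u, rfl⟩ := g.surjective u
    obtain ⟨v, rfl⟩ := g.surjective v
    rw [← hg, happ, happ, happ, h1, hg]
  · intro u v
    obtain ⟨u, rfl⟩ := g.surjective u
    obtain ⟨v, rfl⟩ := g.surjective v
    rw [happ, happ, hB, hB, h2]
  · simpa using h3
  · rw [← hg, h4]
  · rw [eigenSum_map g hg, h5, Submodule.map_top, LinearEquiv.range]
  · intro c hc d hd u hu v hv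
    rw [eigen_map g hg] at hu hv
    obtain ⟨u, hu, rfl⟩ := hu
    obtain ⟨v, hv, rfl⟩ := hv
    rw [eigenSum_map g hg]
    exact ⟨mul u v, h6 c hc d hd u hu v hv, hg u v⟩
  · rw [eigen_map g hg, h7, Submodule.map_span, Set.image_singleton]; rfl
  · intro v hv
    rw [eigenSum_map g hg] at hv
    obtain ⟨v, hv, rfl⟩ := hv
    exact (happ v).trans (congrArg g (h8 v hv))
  · intro v hv
    rw [eigen_map g hg] at hv
    obtain ⟨v, hv, rfl⟩ := hv
    exact (happ v).trans ((congrArg g (h9 v hv)).trans (map_neg g v))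

namespace Ax

variable {t : V ≃ₗ[ℝ] V} {a : V}

theorem t_t (h : Ax mul B t a) (v : V) : t (t v) = v := by
  obtain ⟨l, x, y, z, rfl, hx, hy, hz, tx, ty, tz⟩ := h.decomp v
  simp only [map_add, map_smul, h.ta, tx, ty, tz, map_neg, neg_neg]

theorem odd (h : Ax mul B t a) (v : V) :
    mul a (t v) = mul a v + (1 / 32 : ℝ) • (t v - v) := by
  obtain ⟨l, x, y, z, rfl, hx, hy, hz, tx, ty, tz⟩ := h.decomp v
  simp only [map_add, map_smul, h.ta, tx, ty, tz, map_neg, hx, hy, hz]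
  module

theorem B_eigen (hV : IsMajoranaAmbient mul B) (h : Ax mul B t a) {c : ℝ} (hc : c ≠ 1) {x : V}
    (hx : mul a x = c • x) : B a x = 0 := by
  have h1 := hV.2.2.2.1 a a x
  rw [hx, h.idem, map_smul, smul_eq_mul] at h1
  have : (c - 1) * B a x = 0 := by linear_combination h1
  exact (mul_eq_zero.mp this).resolve_left (sub_ne_zero.mpr hc)

/-- The minimal polynomial relation on the even part. -/
theorem even (hV : IsMajoranaAmbient mul B) (h : Ax mul B t a) (v : V) (hv : t v = v) :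
    mul a (mul a v) = (1 / 4 : ℝ) • mul a v + (3 / 4 * B a v) • a := by
  obtain ⟨l, x, y, z, rfl, hx, hy, hz, tx, ty, tz⟩ := h.decomp v
  have hz0 : z = 0 := by
    simp only [map_add, map_smul, h.ta, tx, ty, tz] at hv
    have : (2 : ℝ) • z = 0 := by linear_combination (norm := module) -hv
    simpa using this
  subst hz0
  have b1 := h.B_eigen hV (c := 0) (by norm_num) (x := x) (by simpa using hx)
  have b2 := h.B_eigen hV (c := 1 / 4) (by norm_num) hy
  simp only [map_add, map_smul, hx, hy, h.idem, b1, b2, h.norm, map_zero, smul_eq_mul]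
  module

theorem f44' (hV : IsMajoranaAmbient mul B) (h : Ax mul B t a) (u v : V)
    (hu : mul a u = (1 / 4 : ℝ) • u) (hv : mul a v = (1 / 4 : ℝ) • v) :
    mul a (mul u v) = (1 / 4 * B u v) • a := by
  obtain ⟨c, hc⟩ := h.f44 u v hu hv
  have h1 : B a (mul a (mul u v)) = c := by rw [hc, map_smul, h.norm, smul_eq_mul, mul_one]
  rw [hV.2.2.2.1, h.idem, hV.2.2.2.1, hu, map_smul, LinearMap.smul_apply, smul_eq_mul] at h1
  rw [hc, h1]

end Ax

end Cfsg.Agent.H47
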