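import Mathlib

/-! Poisson summation for Gaussians attached to positive definite quadratic forms on `ℤ^n`. -/

set_option autoImplicit false

open Complex Matrix
open scoped Real

namespace Cfsg.Agent.H47

/-- integer vector seen as a real vector -/
def ivec {n : ℕ} (x : Fin n → ℤ) : Fin n → ℝ := fun i => (x i : ℝ)

theorem ivec_cons {n : ℕ} (m : ℤ) (x : Fin n → ℤ) :
    ivec (Fin.cons m x : Fin (n + 1) → ℤ) = (Fin.cons (m : ℝ) (ivec x) : Fin (n + 1) → ℝ) := by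
  funext i
  refine Fin.cases ?_ (fun j => ?_) i <;> simp [ivec]

/-- `q` is bounded below by a positive multiple of the standard form -/
def PosLow {n : ℕ} (q : (Fin n → ℝ) → ℝ) : Prop :=
  ∃ ε : ℝ, 0 < ε ∧ ∀ z, ε * ∑ i, z i ^ 2 ≤ q z

theorem summable_gauss_one {σ : ℝ} (hσ : 0 < σ) (r : ℝ) :
    Summable (fun m : ℤ => Real.exp (-σ * ((m : ℝ) + r) ^ 2)) := by
  have hT : 0 < σ / π := div_pos hσ Real.pi_pos
  have h := summable_pow_mul_jacobiTheta₂_term_bound (σ / π * |r|) hT 0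
  refine Summable.of_nonneg_of_le (fun m => (Real.exp_pos _).le) (fun m => ?_) h
  simp only [pow_zero, one_mul]
  apply Real.exp_le_exp.mpr
  have h1 : -π * (σ / π * (m : ℝ) ^ 2 - 2 * (σ / π * |r|) * ((|m| : ℤ) : ℝ)) =
      -σ * ((m : ℝ) ^ 2 - 2 * (|r| * |(m : ℝ)|)) := by
    have := Real.pi_pos.ne'
    push_cast
    field_simp
  rw [h1]
  have h2 : -(|r| * |(m : ℝ)|) ≤ r * m := by
    rw [← abs_mul]; exact neg_abs_le _
  nlinarith [sq_nonneg r, mul_nonneg hσ.le (sq_nonneg r)]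

theorem summable_gauss_pi {σ : ℝ} (hσ : 0 < σ) : ∀ {n : ℕ} (u : Fin n → ℝ),
    Summable (fun x : Fin n → ℤ => Real.exp (-σ * ∑ i, ((ivec x + u) i) ^ 2))
  | 0, u => Summable.of_finite
  | n + 1, u => by
    rw [← (Fin.consEquiv (fun _ : Fin (n + 1) => ℤ)).summable_iff]
    have h := (summable_gauss_one hσ (u 0)).mul_of_nonneg (summable_gauss_pi hσ (Fin.tail u))
      (fun _ => (Real.exp_pos _).le) (fun _ => (Real.exp_pos _).le)
    refine h.congr (fun p => ?_)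
    simp only [Function.comp, Fin.consEquiv, Equiv.coe_fn_mk, Fin.sum_univ_succ, ivec_cons,
      ← Real.exp_add, Pi.add_apply, Fin.cons_zero, Fin.cons_succ, Fin.tail]
    congr 1
    ring

theorem PosLow.summable {n : ℕ} {q : (Fin n → ℝ) → ℝ} (hq : PosLow q) {σ : ℝ} (hσ : 0 < σ)
    (u : Fin n → ℝ) : Summable (fun x : Fin n → ℤ => Real.exp (-σ * q (ivec x + u))) := by
  obtain ⟨ε, hε, h⟩ := hq
  refine Summable.of_nonneg_of_le (fun m => (Real.exp_pos _).le) (fun x => ?_)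
    (summable_gauss_pi (mul_pos hσ hε) u)
  apply Real.exp_le_exp.mpr
  have := h (ivec x + u)
  nlinarith

theorem poisson_one {α : ℂ} (hα : 0 < α.re) (s v : ℝ) :
    ∑' m : ℤ, cexp (-π * α * ((m : ℂ) + s) ^ 2 + 2 * π * I * (v * ((m : ℂ) + s))) =
      1 / α ^ (1 / 2 : ℂ) * ∑' k : ℤ, cexp (-π / α * ((k : ℂ) - v) ^ 2 + 2 * π * I * (k * s)) := by
  have hα0 : α ≠ 0 := by rintro rfl; simp at hα
  have h := Complex.tsum_exp_neg_quadratic hα (I * v - α * s)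
  have h1 : ∀ m : ℤ, cexp (-π * α * ((m : ℂ) + s) ^ 2 + 2 * π * I * (v * ((m : ℂ) + s))) =
      cexp (-π * α * s ^ 2 + 2 * π * I * v * s) *
        cexp (-π * α * m ^ 2 + 2 * π * (I * v - α * s) * m) := by
    intro m
    rw [← Complex.exp_add]; congr 1; ring
  have h2 : ∀ k : ℤ, cexp (-π / α * ((k : ℂ) - v) ^ 2 + 2 * π * I * (k * s)) =
      cexp (-π * α * s ^ 2 + 2 * π * I * v * s) *
        cexp (-π / α * (k + I * (I * v - α * s)) ^ 2) := by
    intro k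
    rw [← Complex.exp_add]; congr 1
    field_simp
    ring_nf
    simp only [I_sq, I_pow_three, I_pow_four]
    ring
  simp_rw [h1, h2, tsum_mul_left, h]
  ring


/-- the summand on the direct side -/
noncomputable def gT {n : ℕ} (q : (Fin n → ℝ) → ℝ) (t : ℂ) (u v : Fin n → ℝ) (x : Fin n → ℤ) : ℂ :=
  cexp (-π * t * (q (ivec x + u) : ℝ) + 2 * π * I * ((v ⬝ᵥ (ivec x + u) : ℝ) : ℂ))

/-- the summand on the dual side -/
noncomputable def gT' {n : ℕ} (q' : (Fin n → ℝ) → ℝ) (t : ℂ) (u v : Fin n → ℝ)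
    (y : Fin n → ℤ) : ℂ :=
  cexp (-π / t * (q' (ivec y - v) : ℝ) + 2 * π * I * ((ivec y ⬝ᵥ u : ℝ) : ℂ))

theorem norm_cexp_aux (t : ℂ) (a b : ℝ) :
    ‖cexp (-π * t * (a : ℂ) + 2 * π * I * (b : ℂ))‖ = Real.exp (-(π * t.re) * a) := by
  rw [Complex.norm_exp]
  congr 1
  simp

theorem norm_cexp_aux' (t : ℂ) (a b : ℝ) :
    ‖cexp (-π / t * (a : ℂ) + 2 * π * I * (b : ℂ))‖ = Real.exp (-(π * (t⁻¹).re) * a) := by
  rw [div_eq_mul_inv, norm_cexp_aux]

theorem inv_re_pos {t : ℂ} (ht : 0 < t.re) : 0 < (t⁻¹).re := by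
  rw [inv_re]
  refine div_pos ht (normSq_pos.mpr ?_)
  rintro rfl; simp at ht

theorem summable_norm_gT {n : ℕ} {q : (Fin n → ℝ) → ℝ} (hq : PosLow q) {t : ℂ} (ht : 0 < t.re)
    (u v : Fin n → ℝ) : Summable (fun x => ‖gT q t u v x‖) := by
  simp only [gT, norm_cexp_aux]
  exact hq.summable (mul_pos Real.pi_pos ht) u

theorem summable_norm_gT' {n : ℕ} {q : (Fin n → ℝ) → ℝ} (hq : PosLow q) {t : ℂ} (ht : 0 < t.re)
    (u v : Fin n → ℝ) : Summable (fun x => ‖gT' q t u v x‖) := by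
  simp only [gT', norm_cexp_aux', sub_eq_add_neg]
  exact hq.summable (mul_pos Real.pi_pos (inv_re_pos ht)) (-v)

/-- a dual pair of forms satisfying Poisson summation -/
structure Good {n : ℕ} (q q' : (Fin n → ℝ) → ℝ) (c : ℂ) : Prop where
  pos : PosLow q
  pos' : PosLow q'
  poisson : ∀ t : ℂ, 0 < t.re → ∀ u v : Fin n → ℝ,
    ∑' x, gT q t u v x = c * (1 / t ^ (1 / 2 : ℂ)) ^ n * ∑' y, gT' q' t u v y

theorem good_zero : Good (n := 0) (fun _ => 0) (fun _ => 0) 1 where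
  pos := ⟨1, one_pos, fun z => by simp⟩
  pos' := ⟨1, one_pos, fun z => by simp⟩
  poisson t _ u v := by simp [gT, gT']

theorem dot_sq_le {n : ℕ} (w z : Fin n → ℝ) :
    (w ⬝ᵥ z) ^ 2 ≤ (∑ i, w i ^ 2) * ∑ i, z i ^ 2 :=
  Finset.sum_mul_sq_le_sq_mul_sq _ _ _

theorem PosLow.succ {n : ℕ} {q : (Fin n → ℝ) → ℝ} (hq : PosLow q) {a : ℝ} (ha : 0 < a)
    (w : Fin n → ℝ) :
    PosLow (fun z : Fin (n + 1) → ℝ => a * (z 0 + w ⬝ᵥ Fin.tail z) ^ 2 + q (Fin.tail z)) := by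
  obtain ⟨ε, hε, h⟩ := hq
  set W := ∑ i, w i ^ 2 with hW
  have hW0 : 0 ≤ W := Finset.sum_nonneg (fun i _ => sq_nonneg _)
  refine ⟨min (a / 2) (ε / (2 * W + 1)), lt_min (by positivity) (by positivity), fun z => ?_⟩
  have h1 := h (Fin.tail z)
  have h2 := dot_sq_le w (Fin.tail z)
  rw [← hW] at h2
  rw [Fin.sum_univ_succ]
  change _ * (z 0 ^ 2 + ∑ i, Fin.tail z i ^ 2) ≤ _
  set N := ∑ i, Fin.tail z i ^ 2 with hN
  have hN0 : 0 ≤ N := Finset.sum_nonneg (fun i _ => sq_nonneg _)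
  set p := w ⬝ᵥ Fin.tail z
  set m := min (a / 2) (ε / (2 * W + 1))
  have hm1 : m ≤ a / 2 := min_le_left _ _
  have hm2 : m * (2 * W + 1) ≤ ε := by
    rw [← le_div_iff₀ (by positivity)]; exact min_le_right _ _
  have hm0 : 0 < m := lt_min (by positivity) (by positivity)
  have h3 : z 0 ^ 2 + N ≤ 2 * (z 0 + p) ^ 2 + (2 * W + 1) * N := by
    nlinarith [sq_nonneg (z 0 + 2 * p)]
  have h4 : m * (z 0 ^ 2 + N) ≤ m * (2 * (z 0 + p) ^ 2 + (2 * W + 1) * N) :=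
    mul_le_mul_of_nonneg_left h3 hm0.le
  have h5 : m * (2 * W + 1) * N ≤ ε * N := mul_le_mul_of_nonneg_right hm2 hN0
  have h6 : m * (z 0 + p) ^ 2 ≤ a / 2 * (z 0 + p) ^ 2 :=
    mul_le_mul_of_nonneg_right hm1 (sq_nonneg _)
  nlinarith

theorem PosLow.succ' {n : ℕ} {q : (Fin n → ℝ) → ℝ} (hq : PosLow q) {a : ℝ} (ha : 0 < a)
    (w : Fin n → ℝ) :
    PosLow (fun z : Fin (n + 1) → ℝ => z 0 ^ 2 / a + q (Fin.tail z - z 0 • w)) := by
  obtain ⟨ε, hε, h⟩ := hq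
  set W := ∑ i, w i ^ 2 with hW
  have hW0 : 0 ≤ W := Finset.sum_nonneg (fun i _ => sq_nonneg _)
  refine ⟨min (1 / (a * (1 + 2 * W))) (ε / 2), lt_min (by positivity) (by positivity),
    fun z => ?_⟩
  have h1 := h (Fin.tail z - z 0 • w)
  rw [Fin.sum_univ_succ]
  change _ * (z 0 ^ 2 + ∑ i, Fin.tail z i ^ 2) ≤ _
  set M := ∑ i, (Fin.tail z - z 0 • w) i ^ 2 with hM
  have hM0 : 0 ≤ M := Finset.sum_nonneg (fun i _ => sq_nonneg _)
  have h2 : ∑ i, Fin.tail z i ^ 2 ≤ 2 * M + 2 * z 0 ^ 2 * W := by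
    rw [hM, hW, Finset.mul_sum, Finset.mul_sum, ← Finset.sum_add_distrib]
    refine Finset.sum_le_sum (fun i _ => ?_)
    simp only [Pi.sub_apply, Pi.smul_apply, smul_eq_mul]
    nlinarith [sq_nonneg (Fin.tail z i - 2 * (z 0 * w i))]
  set m := min (1 / (a * (1 + 2 * W))) (ε / 2)
  have hm1 : m * (1 + 2 * W) ≤ 1 / a := by
    rw [← le_div_iff₀ (by positivity), div_div]; exact min_le_left _ _
  have hm2 : m ≤ ε / 2 := min_le_right _ _
  have hm0 : 0 < m := lt_min (by positivity) (by positivity)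
  have h4 : m * (z 0 ^ 2 + ∑ i, Fin.tail z i ^ 2) ≤ m * (z 0 ^ 2 + (2 * M + 2 * z 0 ^ 2 * W)) :=
    mul_le_mul_of_nonneg_left (by linarith) hm0.le
  have h5 : m * (1 + 2 * W) * z 0 ^ 2 ≤ 1 / a * z 0 ^ 2 :=
    mul_le_mul_of_nonneg_right hm1 (sq_nonneg _)
  have h6 : m * M ≤ ε / 2 * M := mul_le_mul_of_nonneg_right hm2 hM0
  have h7 : z 0 ^ 2 / a = 1 / a * z 0 ^ 2 := by ring
  change _ ≤ z 0 ^ 2 / a + q (Fin.tail z - z 0 • w)
  nlinarith

theorem mul_cpow_half {t : ℂ} (ht : 0 < t.re) {a : ℝ} (ha : 0 < a) :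
    (t * a) ^ (1 / 2 : ℂ) = t ^ (1 / 2 : ℂ) * (a : ℂ) ^ (1 / 2 : ℂ) := by
  have ht0 : t ≠ 0 := by rintro rfl; simp at ht
  have ha0 : (a : ℂ) ≠ 0 := ofReal_ne_zero.mpr ha.ne'
  rw [mul_comm t, cpow_def_of_ne_zero (mul_ne_zero ha0 ht0), log_ofReal_mul ha ht0,
    ofReal_log ha.le, add_mul, Complex.exp_add, ← cpow_def_of_ne_zero ha0,
    ← cpow_def_of_ne_zero ht0, mul_comm]

theorem Good.succ {n : ℕ} {q q' : (Fin n → ℝ) → ℝ} {c : ℂ} (h : Good q q' c) {a : ℝ} (ha : 0 < a)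
    (w : Fin n → ℝ) :
    Good (fun z : Fin (n + 1) → ℝ => a * (z 0 + w ⬝ᵥ Fin.tail z) ^ 2 + q (Fin.tail z))
      (fun z : Fin (n + 1) → ℝ => z 0 ^ 2 / a + q' (Fin.tail z - z 0 • w))
      (c / (a : ℂ) ^ (1 / 2 : ℂ)) where
  pos := h.pos.succ ha w
  pos' := h.pos'.succ' ha w
  poisson t ht u v := by
    have ht0 : t ≠ 0 := by rintro rfl; simp at ht
    have ha0 : (a : ℂ) ≠ 0 := ofReal_ne_zero.mpr ha.ne'
    have hta : 0 < (t * a).re := by simp; positivity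
    have hs1 := (summable_norm_gT (h.pos.succ ha w) ht u v).of_norm
    have hs2 := (summable_norm_gT' (h.pos'.succ' ha w) ht u v).of_norm
    set e := Fin.consEquiv (fun _ : Fin (n + 1) => ℤ) with he
    rw [← e.summable_iff] at hs1 hs2
    rw [← e.tsum_eq, ← e.tsum_eq]
    set u' := Fin.tail u with hu'
    set v' := Fin.tail v with hv'
    -- the one-dimensional factor
    set F : ℤ → ℂ := fun k => cexp (-π / t * ((((k : ℝ) - v 0) ^ 2 / a : ℝ) : ℂ) +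
      2 * π * I * ((k * u 0 : ℝ) : ℂ)) with hF
    have hFs : Summable (fun k => ‖F k‖) := by
      simp only [hF, norm_cexp_aux']
      have := summable_gauss_one (σ := π * (t⁻¹).re / a)
        (div_pos (mul_pos Real.pi_pos (inv_re_pos ht)) ha) (-v 0)
      refine this.congr (fun k => ?_)
      congr 1; ring
    have e1 : ∀ (m : ℤ) (x : Fin n → ℤ),
        gT (fun z : Fin (n + 1) → ℝ => a * (z 0 + w ⬝ᵥ Fin.tail z) ^ 2 + q (Fin.tail z)) t u v
          (e (m, x)) =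
        cexp (-π * (t * a) * ((m : ℂ) + (u 0 + w ⬝ᵥ (ivec x + u') : ℝ)) ^ 2 +
          2 * π * I * (v 0 * ((m : ℂ) + (u 0 + w ⬝ᵥ (ivec x + u') : ℝ)))) *
        gT q t u' (v' - v 0 • w) x := by
      intro m x
      have ht1 : Fin.tail (ivec (e (m, x)) + u) = ivec x + u' := by
        funext i; simp [he, ivec, Fin.tail, hu', Fin.consEquiv]
      have ht2 : (ivec (e (m, x)) + u) 0 = m + u 0 := by simp [he, ivec, Fin.consEquiv]
      have ht3 : v ⬝ᵥ (ivec (e (m, x)) + u) = v 0 * (m + u 0) + v' ⬝ᵥ (ivec x + u') := by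
        rw [← ht1, ← ht2]; simp [dotProduct, Fin.sum_univ_succ, hv', Fin.tail]
      simp only [gT, ht1, ht2, ht3, ← Complex.exp_add, sub_dotProduct, smul_dotProduct,
        smul_eq_mul]
      congr 1
      push_cast
      ring
    have e2 : ∀ (k : ℤ) (x : Fin n → ℤ),
        cexp (-π / (t * a) * ((k : ℂ) - v 0) ^ 2 +
          2 * π * I * (k * (u 0 + w ⬝ᵥ (ivec x + u') : ℝ))) * gT q t u' (v' - v 0 • w) x =
        F k * gT q t u' (v' + ((k : ℝ) - v 0) • w) x := by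
      intro k x
      simp only [gT, hF, ← Complex.exp_add, sub_dotProduct, add_dotProduct, smul_dotProduct,
        smul_eq_mul]
      congr 1
      push_cast
      field_simp
      ring
    have e3 : ∀ (k : ℤ) (y : Fin n → ℤ),
        gT' (fun z : Fin (n + 1) → ℝ => z 0 ^ 2 / a + q' (Fin.tail z - z 0 • w)) t u v
          (e (k, y)) = F k * gT' q' t u' (v' + ((k : ℝ) - v 0) • w) y := by
      intro k y
      have ht1 : Fin.tail (ivec (e (k, y)) - v) = ivec y - v' := by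
        funext i; simp [he, ivec, Fin.tail, hv', Fin.consEquiv]
      have ht2 : (ivec (e (k, y)) - v) 0 = k - v 0 := by simp [he, ivec, Fin.consEquiv]
      have ht3 : ivec (e (k, y)) ⬝ᵥ u = k * u 0 + ivec y ⬝ᵥ u' := by
        simp [dotProduct, Fin.sum_univ_succ, hu', Fin.tail, he, ivec, Fin.consEquiv]
      simp only [gT', hF, ht1, ht2, ht3, ← Complex.exp_add, sub_add_eq_sub_sub]
      congr 1
      push_cast
      ring
    have hs3 : Summable (fun p : ℤ × (Fin n → ℤ) =>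
        F p.1 * gT q t u' (v' + ((p.1 : ℝ) - v 0) • w) p.2) := by
      refine Summable.of_norm ?_
      have := hFs.mul_of_nonneg (summable_norm_gT h.pos ht u' 0) (fun _ => norm_nonneg _)
        (fun _ => norm_nonneg _)
      refine this.congr (fun p => ?_)
      simp only [norm_mul, gT, norm_cexp_aux]
    have e4 : ∀ x : Fin n → ℤ, ∑' m : ℤ,
        gT (fun z : Fin (n + 1) → ℝ => a * (z 0 + w ⬝ᵥ Fin.tail z) ^ 2 + q (Fin.tail z)) t u v
          (e (m, x)) = 1 / (t * a) ^ (1 / 2 : ℂ) *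
          ∑' k : ℤ, F k * gT q t u' (v' + ((k : ℝ) - v 0) • w) x := by
      intro x
      simp only [e1, ← e2]
      rw [tsum_mul_right, tsum_mul_right, poisson_one hta, mul_assoc]
    generalize gT (fun z : Fin (n + 1) → ℝ => a * (z 0 + w ⬝ᵥ Fin.tail z) ^ 2 + q (Fin.tail z))
      t u v = G1 at hs1 e4 ⊢
    generalize gT' (fun z : Fin (n + 1) → ℝ => z 0 ^ 2 / a + q' (Fin.tail z - z 0 • w)) t u v = G2
      at hs2 e3 ⊢
    clear e1 e2
    have b1 : ∑' p, G1 (e p) = ∑' x, ∑' m, G1 (e (m, x)) :=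
      hs1.tsum_prod.trans (Summable.tsum_comm (f := fun m x => G1 (e (m, x))) hs1).symm
    have b2 : ∑' p, G2 (e p) = ∑' k, ∑' y, G2 (e (k, y)) := hs2.tsum_prod
    have b3 : ∑' x, ∑' k : ℤ, F k * gT q t u' (v' + ((k : ℝ) - v 0) • w) x =
        ∑' k : ℤ, ∑' x, F k * gT q t u' (v' + ((k : ℝ) - v 0) • w) x :=
      Summable.tsum_comm
        (f := fun (k : ℤ) x => F k * gT q t u' (v' + ((k : ℝ) - v 0) • w) x) hs3
    rw [b1, b2]
    simp only [e4, e3]
    rw [tsum_mul_left, b3]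
    simp only [tsum_mul_left, h.poisson t ht, mul_cpow_half ht ha]
    rw [← tsum_mul_left, ← tsum_mul_left]
    congr 1
    funext k
    ring

theorem exists_good : ∀ {n : ℕ} (A : Matrix (Fin n) (Fin n) ℝ), A.IsSymm →
    (∀ z : Fin n → ℝ, z ≠ 0 → 0 < z ⬝ᵥ (A *ᵥ z)) →
    ∃ q' c, Good (fun z => z ⬝ᵥ (A *ᵥ z)) q' c ∧ ∀ s, q' (A *ᵥ s) = s ⬝ᵥ (A *ᵥ s)
  | 0, A, _, _ => ⟨fun _ => 0, 1, by simpa using good_zero, fun s => by simp⟩
  | n + 1, A, hs, hp => by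
    set a := A 0 0 with ha
    have ha0 : 0 < a := by
      have := hp (Pi.single 0 1) (by simp)
      simpa using this
    set b : Fin n → ℝ := fun i => A 0 i.succ with hb
    have hb' : ∀ i : Fin n, A i.succ 0 = b i := fun i => by
      simp only [hb]; exact hs.apply _ _
    set w : Fin n → ℝ := a⁻¹ • b with hw
    set A' : Matrix (Fin n) (Fin n) ℝ := Matrix.of fun i j => A i.succ j.succ - b i * b j / a
      with hA'
    have hs' : A'.IsSymm := by
      ext i j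
      simp only [hA', transpose_apply, of_apply]
      rw [hs.apply i.succ j.succ]; ring
    have k0 : ∀ s : Fin (n + 1) → ℝ, (A *ᵥ s) 0 = a * (s 0 + w ⬝ᵥ Fin.tail s) := by
      intro s
      simp only [hw, smul_dotProduct, smul_eq_mul, mul_add, ← mul_assoc,
        mul_inv_cancel₀ ha0.ne', one_mul]
      simp [mulVec, dotProduct, Fin.sum_univ_succ, ha, hb, Fin.tail]
    have k1 : ∀ s : Fin (n + 1) → ℝ,
        Fin.tail (A *ᵥ s) = (A *ᵥ s) 0 • w + A' *ᵥ Fin.tail s := by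
      intro s
      funext i
      rw [k0]
      simp only [hw, smul_dotProduct, smul_eq_mul, Pi.add_apply, Pi.smul_apply]
      simp only [mulVec, dotProduct, Fin.sum_univ_succ, Fin.tail, hA', of_apply, hb', sub_mul,
        Finset.sum_sub_distrib]
      have : ∑ x, b i * b x / a * s x.succ = b i / a * ∑ x, b x * s x.succ := by
        rw [Finset.mul_sum]; exact Finset.sum_congr rfl (fun x _ => by ring)
      rw [this]
      field_simp
      ring
    have k2 : ∀ s : Fin (n + 1) → ℝ, s ⬝ᵥ (A *ᵥ s) =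
        a * (s 0 + w ⬝ᵥ Fin.tail s) ^ 2 + Fin.tail s ⬝ᵥ (A' *ᵥ Fin.tail s) := by
      intro s
      have : s ⬝ᵥ (A *ᵥ s) = s 0 * (A *ᵥ s) 0 + Fin.tail s ⬝ᵥ Fin.tail (A *ᵥ s) := by
        simp [dotProduct, Fin.sum_univ_succ, Fin.tail]
      rw [this, k1, dotProduct_add, dotProduct_smul, k0, smul_eq_mul, dotProduct_comm _ w]
      ring
    have hp' : ∀ z : Fin n → ℝ, z ≠ 0 → 0 < z ⬝ᵥ (A' *ᵥ z) := by
      intro z hz
      have h1 := hp (Fin.cons (-(w ⬝ᵥ z)) z) (by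
        intro h0; apply hz; funext i; simpa using congrFun h0 i.succ)
      rw [k2] at h1
      simpa using h1
    obtain ⟨q', c, hg, hq'⟩ := exists_good A' hs' hp'
    refine ⟨_, _, by simpa only [k2] using hg.succ ha0 w, fun s => ?_⟩
    rw [k1, add_sub_cancel_left, hq', k2, k0]
    field_simp

theorem real_pos_of_int {n : ℕ} (B : Matrix (Fin n) (Fin n) ℤ) (hsymm : B.IsSymm)
    (hpos : ∀ x : Fin n → ℤ, x ≠ 0 → 0 < x ⬝ᵥ (B *ᵥ x)) (hdet : B.det ≠ 0)
    (z : Fin n → ℝ) (hz : z ≠ 0) : 0 < z ⬝ᵥ (B.map (Int.cast : ℤ → ℝ) *ᵥ z) := by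
  set A := B.map (Int.cast : ℤ → ℝ) with hA
  have hint : ∀ x : Fin n → ℤ, ivec x ⬝ᵥ (A *ᵥ ivec x) = ((x ⬝ᵥ (B *ᵥ x) : ℤ) : ℝ) := by
    intro x
    simp [hA, ivec, dotProduct, mulVec]
  have hnn : ∀ z : Fin n → ℝ, 0 ≤ z ⬝ᵥ (A *ᵥ z) := by
    intro z
    have hd : DenseRange (Pi.map (fun (_ : Fin n) => (Rat.cast : ℚ → ℝ))) :=
      DenseRange.piMap (fun _ => Rat.denseRange_cast)
    refine hd.induction_on (p := fun z => 0 ≤ z ⬝ᵥ (A *ᵥ z)) z ?_ (fun r => ?_)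
    · exact isClosed_le continuous_const (by fun_prop)
    · obtain ⟨d, hd⟩ := IsLocalization.exist_integer_multiples_of_finite (nonZeroDivisors ℤ) r
      choose x hx using hd
      have hd0 : ((d : ℤ) : ℝ) ≠ 0 := by exact_mod_cast nonZeroDivisors.coe_ne_zero d
      have hxr : ivec x = ((d : ℤ) : ℝ) • Pi.map (fun (_ : Fin n) => (Rat.cast : ℚ → ℝ)) r := by
        funext i
        have := congrArg (Rat.cast : ℚ → ℝ) (hx i)
        simpa [ivec] using this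
      have h1 : 0 ≤ ivec x ⬝ᵥ (A *ᵥ ivec x) := by
        rw [hint]
        by_cases h0 : x = 0
        · simp [h0]
        · exact_mod_cast (hpos x h0).le
      rw [hxr, mulVec_smul, smul_dotProduct, dotProduct_smul, smul_eq_mul, smul_eq_mul,
        ← mul_assoc] at h1
      exact nonneg_of_mul_nonneg_right (by simpa [mul_comm] using h1) (mul_self_pos.mpr hd0)
  have hH : A.IsHermitian := by
    rw [Matrix.IsHermitian, conjTranspose_eq_transpose_of_trivial, hA]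
    exact hsymm.map _
  have hpsd : A.PosSemidef := PosSemidef.of_dotProduct_mulVec_nonneg hH (by simpa using hnn)
  have hdA : A.det ≠ 0 := by
    have : A.det = (B.det : ℝ) := by
      rw [hA]; exact (RingHom.map_det (Int.castRingHom ℝ) B).symm
    rw [this]; exact_mod_cast hdet
  simpa using (hpsd.posDef_iff_det_ne_zero.mpr hdA).dotProduct_mulVec_pos hz

/-- theta series of an integral matrix, as a function of `t = -iτ` -/
noncomputable def thetaT {n : ℕ} (B : Matrix (Fin n) (Fin n) ℤ) (t : ℂ) : ℂ :=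
  ∑' x : Fin n → ℤ, cexp (-π * t * ((x ⬝ᵥ (B *ᵥ x) : ℤ) : ℂ))

theorem posLow_of_int {n : ℕ} (B : Matrix (Fin n) (Fin n) ℤ) (hsymm : B.IsSymm)
    (hpos : ∀ x : Fin n → ℤ, x ≠ 0 → 0 < x ⬝ᵥ (B *ᵥ x)) (hdet : B.det ≠ 0) :
    PosLow (fun z : Fin n → ℝ => z ⬝ᵥ (B.map (Int.cast : ℤ → ℝ) *ᵥ z)) := by
  obtain ⟨q', c, hg, -⟩ := exists_good (B.map (Int.cast : ℤ → ℝ)) (hsymm.map _)
    (real_pos_of_int B hsymm hpos hdet)
  exact hg.pos

theorem summable_theta_real {n : ℕ} (B : Matrix (Fin n) (Fin n) ℤ) (hsymm : B.IsSymm)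
    (hpos : ∀ x : Fin n → ℤ, x ≠ 0 → 0 < x ⬝ᵥ (B *ᵥ x)) (hdet : B.det ≠ 0) {σ : ℝ} (hσ : 0 < σ) :
    Summable (fun x : Fin n → ℤ => Real.exp (-σ * ((x ⬝ᵥ (B *ᵥ x) : ℤ) : ℝ))) := by
  refine ((posLow_of_int B hsymm hpos hdet).summable hσ 0).congr (fun x => ?_)
  simp [ivec, dotProduct, mulVec]

/-- the inversion formula for the theta series of a unimodular positive definite lattice -/
theorem thetaT_inv {n : ℕ} (B : Matrix (Fin n) (Fin n) ℤ) (hsymm : B.IsSymm)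
    (hpos : ∀ x : Fin n → ℤ, x ≠ 0 → 0 < x ⬝ᵥ (B *ᵥ x)) (hdet : B.det = 1) {t : ℂ}
    (ht : 0 < t.re) : thetaT B t = (1 / t ^ (1 / 2 : ℂ)) ^ n * thetaT B t⁻¹ := by
  have hdet0 : B.det ≠ 0 := by rw [hdet]; exact one_ne_zero
  set A := B.map (Int.cast : ℤ → ℝ) with hA
  have hint : ∀ x : Fin n → ℤ, ivec x ⬝ᵥ (A *ᵥ ivec x) = ((x ⬝ᵥ (B *ᵥ x) : ℤ) : ℝ) := by
    intro x
    simp [hA, ivec, dotProduct, mulVec]
  have hmul : ∀ x : Fin n → ℤ, ivec (B *ᵥ x) = A *ᵥ ivec x := by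
    intro x; funext i
    simp [hA, ivec, dotProduct, mulVec]
  obtain ⟨q', c, hg, hq'⟩ := exists_good A (hsymm.map _) (real_pos_of_int B hsymm hpos hdet0)
  have hbij : Function.Bijective (fun x : Fin n → ℤ => B *ᵥ x) := by
    have hu : IsUnit B := (isUnit_iff_isUnit_det B).mpr (by rw [hdet]; exact isUnit_one)
    obtain ⟨U, rfl⟩ := hu
    refine Function.bijective_iff_has_inverse.mpr ⟨fun x => (↑U⁻¹ : Matrix _ _ ℤ) *ᵥ x, ?_, ?_⟩
    · intro x; simp [mulVec_mulVec]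
    · intro x; simp [mulVec_mulVec]
  have key : ∀ t : ℂ, 0 < t.re → thetaT B t = c * (1 / t ^ (1 / 2 : ℂ)) ^ n * thetaT B t⁻¹ := by
    intro t ht
    have h := hg.poisson t ht 0 0
    rw [← (Equiv.ofBijective _ hbij).tsum_eq (gT' q' t 0 0)] at h
    simp only [gT, gT', add_zero, sub_zero, zero_dotProduct, dotProduct_zero, ofReal_zero,
      mul_zero, Equiv.ofBijective_apply, hmul, hq', hint, div_eq_mul_inv (-(π : ℂ)),
      ofReal_intCast] at h
    exact h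
  have h1 := key 1 (by simp)
  have hne : thetaT B 1 ≠ 0 := by
    have hs := summable_theta_real B hsymm hpos hdet0 Real.pi_pos
    have : thetaT B 1 = ((∑' x : Fin n → ℤ, Real.exp (-π * ((x ⬝ᵥ (B *ᵥ x) : ℤ) : ℝ)) : ℝ) : ℂ) := by
      simp [thetaT, ofReal_tsum]
    rw [this]
    exact ofReal_ne_zero.mpr (hs.tsum_pos (fun _ => (Real.exp_pos _).le) 0 (Real.exp_pos _)).ne'
  have hc : c = 1 := by
    simp only [one_cpow, div_one, one_pow, mul_one, inv_one] at h1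
    exact (mul_eq_right₀ hne).mp h1.symm
  rw [key t ht, hc, one_mul]

end Cfsg.Agent.H47
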