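import Cfsg.Agent.H35.RfQ
import Cfsg.Agent.H42.Cls
import Cfsg.Agent.H42.Sextet

/-! Project RF, piece GB: two transitivity statements for the octad group. -/

set_option autoImplicit false

namespace Cfsg.Agent.H47.RfGb

open Cfsg Subgroup Cfsg.Agent.H42 Cfsg.Agent.H18.Rf Cfsg.Agent.H35.RF
open Cfsg.Agent.H48 (IsWord)
open scoped Pointwise symmDiff

universe u

theorem card_o0 : o0.card = 8 := ((mem_octads_iff _).1 oct0_mem).2

theorem word_o0 : IsWord o0 := ((mem_octads_iff _).1 oct0_mem).1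

theorem octad_of {c : Finset GolayPt} (hc : IsWord c) (hd : Disjoint c o0) (h0 : c ≠ ∅)
    (h1 : c ≠ o0ᶜ) : c ∈ octads := by
  have hs : c ⊆ o0ᶜ := Finset.subset_compl_iff_disjoint_right.2 hd
  have h16 : o0ᶜ.card = 16 := by
    rw [Finset.card_compl, card_o0]
    rfl
  have hle := Finset.card_le_card hs
  refine (mem_octads_iff _).2 ⟨hc, ?_⟩
  rcases hc.card_cases with h | h | h | h | h
  · exact absurd (Finset.card_eq_zero.1 h) h0
  · exact h
  · have e : c ∆ o0ᶜ = o0ᶜ \ c := symmDiff_of_le hs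
    have hw := hc.symmDiff word_o0.compl
    rw [e] at hw
    have := hw.card_cases
    rw [Finset.card_sdiff_of_subset hs] at this
    omega
  · exact absurd (Finset.eq_of_subset_of_card_le hs (by omega)) h1
  · omega

theorem conj_E {x : M24} (hx : x ∈ fixS oct0) (h1 : x ≠ 1) :
    ∃ k ∈ GO, k * toM z24 * k⁻¹ = x := by
  have : Fact (Nat.Prime 2) := ⟨Nat.prime_two⟩
  have h2 : orderOf x = 2 :=
    orderOf_eq_prime (by rw [pow_two]; exact mul_self_of_mem_fixing_octad oct0_mem hx) h1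
  have hs : toSet oct0 ⊆ fixSet x := fun p hp => mem_fixSet.2 (mem_fixS.1 hx p hp)
  have h8 : (toSet oct0).card = 8 := card_o0
  obtain ⟨k, rfl⟩ := conj_z24 h2 (by have := Finset.card_le_card hs; omega)
  refine ⟨k, ?_, rfl⟩
  rw [fixSet_conj, fixSet_z24] at hs
  exact (Finset.eq_of_subset_of_card_le hs (by rw [Finset.card_smul_finset])).symm

theorem gb (kit : KitGStmt.{u}) : GbStmt.{u} := by
  intro G _ _ V ρ ψ st gol
  obtain ⟨hM, hW, hZ, -⟩ := kit G V ρ ψ st gol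
  have hWV : WG ψ ≤ V := (closure_le _).2 (by
    rintro _ ⟨c, hc, -, rfl⟩
    exact gol.mem c hc)
  have hcompl : ∀ c, IsWord c → ψ cᶜ = ψ c := fun c hc => by
    have e : cᶜ = c ∆ Finset.univ := by
      ext i
      simp [Finset.mem_symmDiff]
    rw [e, gol.add c _ hc H48.isWord_univ, (gol.ker _ H48.isWord_univ).2 (Or.inr rfl), mul_one]
  have oc : ∀ w ∈ WG ψ, w ∉ zpowers (ψ o0) → ∃ c ∈ octads, Disjoint c o0 ∧ ψ c = w := by
    intro w hw hz
    obtain ⟨c, hc, rfl⟩ := gol.sur w (hWV hw)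
    rw [hZ c hc] at hz
    rcases (hW c hc).1 hw with h | h
    · exact ⟨c, octad_of hc h (fun e => hz (Or.inl e)) fun e => hz (Or.inr (Or.inr (Or.inr e))),
        h, rfl⟩
    · have hd : Disjoint cᶜ o0 := disjoint_compl_left_iff.2 h
      refine ⟨cᶜ, octad_of hc.compl hd (fun e => hz (Or.inr (Or.inl ?_)))
        fun e => hz (Or.inr (Or.inr (Or.inl (compl_injective e)))), hd, hcompl c hc⟩
      rw [← compl_compl c, e, Finset.compl_empty]
  constructor
  · intro w hw hz w' hw' hz'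
    obtain ⟨c, hc, hd, rfl⟩ := oc w hw hz
    obtain ⟨c', hc', hd', rfl⟩ := oc w' hw' hz'
    obtain ⟨g, hg, e⟩ := exists_smul_octad_pair (o := o0) oct0_mem hc hc' (by
      rw [Finset.disjoint_iff_inter_eq_empty.1 hd.symm, Finset.disjoint_iff_inter_eq_empty.1 hd'.symm])
    obtain ⟨n, rfl⟩ := st.sur g
    refine ⟨n, ?_, ?_⟩
    · rw [hM]
      exact coe_mem_pre.2 hg
    · rw [gol.act n c ((mem_octads_iff _).1 hc).1, e]
  · intro r hr hrV r' hr' hrV'
    obtain ⟨h, hx⟩ := mem_pre.1 hr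
    obtain ⟨h', hx'⟩ := mem_pre.1 hr'
    obtain ⟨k, hk, e⟩ := conj_E hx fun e => hrV ((st.ker _).1 e)
    obtain ⟨k', hk', e'⟩ := conj_E hx' fun e => hrV' ((st.ker _).1 e)
    obtain ⟨n, hn⟩ := st.sur (k' * k⁻¹)
    refine ⟨n, ?_, (st.ker (n * ⟨r, h⟩ * n⁻¹ * (⟨r', h'⟩ : NN V)⁻¹)).1 ?_⟩
    · rw [hM]
      exact coe_mem_pre.2 (hn ▸ GO.mul_mem hk' (GO.inv_mem hk))
    · rw [map_mul, map_mul, map_mul, map_inv, map_inv, hn, ← e, ← e']
      group

end Cfsg.Agent.H47.RfGb
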