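import Cfsg.Agent.H18.RfSc
import Cfsg.Agent.H55.Basic

/-! Project RF, piece K2D. -/

set_option autoImplicit false

namespace Cfsg.Agent.H47.RfK2d

open Cfsg Subgroup Cfsg.Agent.H18.MaxOff Cfsg.Agent.H18.Rf

universe u

variable {G : Type u} [Group G]

/-- generation by the centralizers of hyperplanes, modulo a normal subgroup -/
theorem gen_mod [Finite G] {C F V M : Subgroup G} (hV : ∀ v ∈ V, v * v = 1) (hVF : V ≤ NN F)
    (hVC : V ≤ NN C) (hFC : F ≤ NN C) (hodd : Odd (C.relIndex F)) (hne : ¬ V ≤ C) (hCM : C ≤ M)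
    (h : ∀ V₀ : Subgroup G, V ⊓ C ≤ V₀ → V₀ ≤ V → V₀.relIndex V = 2 → F ⊓ CM V₀ C ≤ M) :
    F ≤ M := by
  have : Fact (Nat.Prime 2) := ⟨Nat.prime_two⟩
  let N := NN C
  let π := QuotientGroup.mk' (C.subgroupOf N)
  have hπ : ∀ x : N, π x = 1 ↔ (x : G) ∈ C := fun x => QuotientGroup.eq_one_iff x
  have hA : IsElementaryAbelian 2 ((V.subgroupOf N).map π) := by
    refine ⟨⟨⟨?_⟩⟩, ?_⟩
    · rintro ⟨_, a, ha, rfl⟩ ⟨_, b, hb, rfl⟩
      refine Subtype.ext ?_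
      change π a * π b = π b * π a
      rw [← map_mul, ← map_mul]
      exact congrArg π (Subtype.ext (comm_of_sq hV ha hb))
    · rintro _ ⟨a, ha, rfl⟩
      rw [← map_pow, show a ^ 2 = 1 from Subtype.ext (by simpa [pow_two] using hV a ha), map_one]
  have hne' : (V.subgroupOf N).map π ≠ ⊥ := fun e => hne fun v hv => by
    have : π ⟨v, hVC hv⟩ ∈ (V.subgroupOf N).map π := ⟨_, hv, rfl⟩
    rw [e, mem_bot] at this
    exact (hπ _).1 this
  have hK : ¬ 2 ∣ Nat.card ((F.subgroupOf N).map π) := by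
    rw [← relIndex_ker, QuotientGroup.ker_mk', relIndex_subgroupOf hFC]
    exact hodd.not_two_dvd_nat
  have hAK : (V.subgroupOf N).map π ≤
      normalizer (((F.subgroupOf N).map π : Subgroup _) : Set (N ⧸ C.subgroupOf N)) := by
    rintro _ ⟨v, hv, rfl⟩
    refine mem_norm_of_le ?_
    rintro _ ⟨f, hf, rfl⟩
    exact ⟨v * f * v⁻¹, (mem_normalizer_iff.1 (hVF hv) (f : G)).1 hf, by simp⟩
  have key := H55.gen_hyp (H := (M.subgroupOf N).map π) hA hne' hK hAK (by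
    rintro B hB _ ⟨⟨f, hf, rfl⟩, hc⟩
    refine ⟨f, h (V ⊓ (B.comap π).map N.subtype) ?_ inf_le_left ?_ ⟨hf, f.2, ?_⟩, rfl⟩
    · rintro x ⟨hx, hxC⟩
      refine ⟨hx, ⟨x, hVC hx⟩, ?_, rfl⟩
      change π _ ∈ B
      rw [(hπ ⟨x, hVC hx⟩).2 hxC]
      exact B.one_mem
    · have e : (V ⊓ (B.comap π).map N.subtype).subgroupOf N = V.subgroupOf N ⊓ B.comap π := by
        ext x
        constructor
        · rintro ⟨hx, y, hy, e⟩
          exact ⟨hx, (Subtype.ext e : y = x) ▸ hy⟩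
        · rintro ⟨hx, hy⟩
          exact ⟨hx, x, hy, rfl⟩
      rw [← relIndex_subgroupOf hVC, e, inf_relIndex_left, relIndex_comap]
      exact hB.2
    · rintro _ ⟨-, y, hy, rfl⟩
      refine (hπ (f * y * f⁻¹ * y⁻¹)).1 ?_
      have := mem_centralizer_iff.1 hc (π y) hy
      rw [map_mul, map_mul, map_mul, ← this, map_inv, map_inv]
      group)
  intro f hf
  obtain ⟨m, hm, e⟩ := key (show π ⟨f, hFC hf⟩ ∈ _ from ⟨_, hf, rfl⟩)
  have h1 : ((m⁻¹ * ⟨f, hFC hf⟩ : N) : G) ∈ C := (hπ _).1 (by rw [map_mul, map_inv, e, inv_mul_cancel])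
  have h2 := M.mul_mem hm (hCM h1)
  simpa using h2

theorem conj_CM {W U : Subgroup G} {g x : G} (hW : g ∈ NN W) (hU : g ∈ NN U)
    (hx : x ∈ CM (W : Set G) U) : g * x * g⁻¹ ∈ CM (W : Set G) U := by
  refine ⟨mul_mem (mul_mem hU hx.1) (inv_mem hU), fun y hy => ?_⟩
  have := (mem_normalizer_iff.1 hU _).1 (hx.2 _ ((mem_normalizer_iff''.1 hW y).1 hy))
  simpa [mul_assoc] using this

theorem k2d (hb : K2bStmt.{u}) (hc : K2cStmt.{u}) : K2dStmt.{u} := by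
  intro G _ _ V ρ ψ O Q W gs w hw hwz ek t ht htw F hCF hFH hHF hodd f hf
  have hzU : ψ O ∈ UU (ψ O) w := (ek.um _).2 (Or.inr (Or.inl rfl))
  have hHU : H2 V (ψ O) Q w ≤ NN (UU (ψ O) w) := fun x hx => hx.1.2
  have hWQ : W ≤ Q := gs.lc.qv ▸ inf_le_left
  have hWV : W ≤ V := gs.lc.qv ▸ inf_le_right
  have htW : t ∈ NN W := mem_norm_of_le fun a ha => by
    rw [← gs.lc.qv] at ha ⊢
    exact ⟨Q.mul_mem (Q.mul_mem ht ha.1) (Q.inv_mem ht), (mem_normalizer_iff.1 (gs.lc.qm ht).1 a).1 ha.2⟩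
  have hVW : V ≤ NN W := fun v hv => mem_norm_of_le fun a ha => by
    rw [comm_of_sq gs.st.el hv (hWV ha), mul_inv_cancel_right]
    exact ha
  have hnorm : ∀ g ∈ H2 V (ψ O) Q w, g ∈ NN W →
      g ∈ NN (F ⊓ CM (W : Set G) (UU (ψ O) w) : Subgroup G) := fun g hg hgW =>
    mem_norm_of_le fun a ha =>
      ⟨(mem_normalizer_iff.1 (hHF hg) a).1 ha.1, conj_CM hgW (hHU hg) ha.2⟩
  have hC1 : Cc V (ψ O) Q w ≤ F ⊓ CM (W : Set G) (UU (ψ O) w) := fun x hx =>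
    ⟨hCF hx, hx.2.1, fun y hy => hx.2.2 y (ek.we hy).2⟩
  have h1 : F ⊓ CM (W : Set G) (UU (ψ O) w) ≤ Cc V (ψ O) Q w :=
    hc G V ρ ψ O Q W gs w hw hwz ek t ht htw _ hC1 (inf_le_left.trans hFH)
      (hnorm t (ek.qh ht) htW) (fun v hv => hnorm v (ek.vh hv) (hVW hv))
      (Odd.of_dvd_nat hodd ⟨_, (relIndex_mul_relIndex _ _ _ hC1 inf_le_left).symm⟩) inf_le_right
  have htM : t ∈ CM (W : Set G) (UU (ψ O) w) := ⟨hHU (ek.qh ht), fun y hy => by
    rcases gs.lc.xs.conj ht (hWQ hy) with e | e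
    · rw [e, mul_inv_cancel]
      exact one_mem _
    · rw [e, gs.lc.xs.cen y (hWQ hy), mul_inv_cancel_right]
      exact hzU⟩
  have hne : ¬ V ≤ Cc V (ψ O) Q w := fun h => by
    have e : V ⊓ Ew V (ψ O) Q w = V :=
      inf_eq_left.2 fun v hv => ek.cm ⟨⟨le_normalizer hv, (ek.vh hv).1.1⟩, h hv⟩
    have := gs.lg.e5 w hw hwz
    rw [e, gs.st.card] at this
    norm_num at this
  have key : F ≤ CM {t} (Cc V (ψ O) Q w) := by
    refine gen_mod gs.st.el (ek.vh.trans hHF) (ek.vh.trans ek.cn) (hFH.trans ek.cn) hodd hne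
      (fun c hc' => ⟨le_normalizer hc', ?_⟩) fun V₀ h0 h0V hi g hg => ⟨hg.2.1, ?_⟩
    · rintro _ rfl
      have := mul_mem hc' ((mem_normalizer_iff.1 (ek.cn (ek.qh ht)) _).1 (inv_mem hc'))
      simpa [mul_assoc] using this
    · rintro _ rfl
      have hcard : Nat.card V₀ = 2 ^ 10 := by
        have := H3.card_mul_relIndex h0V
        rw [hi, gs.st.card] at this
        omega
      have hgW : g ∈ NN W := hb G V ρ ψ O Q W gs w hw hwz ek V₀
        ((inf_le_inf_left V ek.ab).trans h0) h0V hcard ⟨hFH hg.1, hg.2⟩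
      refine h1 ⟨?_, (CM _ _).mul_mem (conj_CM hgW (hHU (hFH hg.1)) htM) ((CM _ _).inv_mem htM)⟩
      have := mul_mem hg.1 ((mem_normalizer_iff.1 (hHF (ek.qh ht)) _).1 (inv_mem hg.1))
      simpa [mul_assoc] using this
  have := inv_mem ((key hf).2 t rfl)
  simpa [mul_assoc] using this

end Cfsg.Agent.H47.RfK2d
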