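/-
Sakuma's theorem: the dihedral calculations.
-/
import Mathlib
import Cfsg.Agent.H47.Majorana

set_option autoImplicit false

namespace Cfsg.Agent.H47

open Cfsg.Axial

variable {V : Type*} [AddCommGroup V] [Module ℝ V]

/-- The invariant part of the product of two axes. -/
noncomputable def sg (mul : V →ₗ[ℝ] V →ₗ[ℝ] V) (x y : V) : V := mul x y - (1 / 32 : ℝ) • (x + y)

variable {mul : V →ₗ[ℝ] V →ₗ[ℝ] V} {B : LinearMap.BilinForm ℝ V}

theorem mul_eq_sg (x y : V) : mul x y = sg mul x y + (1 / 32 : ℝ) • (x + y) := by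
  unfold sg; abel

theorem sg_comm (hV : IsMajoranaAmbient mul B) (x y : V) : sg mul x y = sg mul y x := by
  unfold sg; rw [hV.1 x y, add_comm]

namespace Ax

variable {t : V ≃ₗ[ℝ] V} {a : V}

theorem sg_t (h : Ax mul B t a) (v : V) : sg mul a (t v) = sg mul a v := by
  unfold sg; rw [h.odd]; module

theorem B_t (h : Ax mul B t a) (v : V) : B a (t v) = B a v := by
  rw [← h.tB a v, h.ta]

theorem mul_sg (hV : IsMajoranaAmbient mul B) (h : Ax mul B t a) (v : V) :
    mul a (sg mul a v) = (7 / 32 : ℝ) • sg mul a v + (7 / 2048 : ℝ) • (v + t v) +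
      (3 / 4 * B a v - 25 / 1024) • a := by
  have h1 := h.even hV (v + t v) (by rw [map_add, h.t_t, add_comm])
  have h2 := h.odd v
  have h3 := h.odd (t v)
  rw [h.t_t] at h3
  unfold sg
  simp only [map_add, map_sub, map_smul, h2, h.B_t, h.idem] at h1 ⊢
  linear_combination (norm := module) (1 / 2 : ℝ) • h1

theorem B_sg (hV : IsMajoranaAmbient mul B) (h : Ax mul B t a) (v : V) :
    B a (sg mul a v) = B a v - 1 / 32 * (1 + B a v) := by
  unfold sg
  simp only [map_add, map_sub, map_smul, h.norm, smul_eq_mul]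
  rw [hV.2.2.2.1, h.idem]

theorem B_nonneg (hV : IsMajoranaAmbient mul B) (h : Ax mul B t a) (v : V) (hv : mul v v = v) :
    0 ≤ B a v := by
  have pos : ∀ u, 0 ≤ B u u := fun u => by
    by_cases hu : u = 0
    · simp [hu]
    · exact (hV.2.2.1 u hu).le
  have h1 : B a v = B (mul a v) v := by rw [← hV.2.2.2.1, hv]
  obtain ⟨l, x, y, z, rfl, hx, hy, hz, tx, ty, tz⟩ := h.decomp v
  have b1 := h.B_eigen hV (c := 0) (by norm_num) (x := x) (by simpa using hx)
  have b2 := h.B_eigen hV (c := 1 / 4) (by norm_num) hy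
  have b3 := h.B_eigen hV (c := 1 / 32) (by norm_num) hz
  have orth : ∀ (u w : V) (c d : ℝ), c ≠ d → mul a u = c • u → mul a w = d • w → B u w = 0 := by
    intro u w c d hcd hu hw
    have e := hV.2.2.2.1 u a w
    rw [hV.1 u a, hu, hw, map_smul, map_smul, LinearMap.smul_apply, smul_eq_mul, smul_eq_mul] at e
    have : (c - d) * B u w = 0 := by linear_combination -e
    exact (mul_eq_zero.mp this).resolve_left (sub_ne_zero.mpr hcd)
  have o1 := orth y x (1 / 4) 0 (by norm_num) hy (by simpa using hx)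
  have o2 := orth z x (1 / 32) 0 (by norm_num) hz (by simpa using hx)
  have o3 := orth y z (1 / 4) (1 / 32) (by norm_num) hy hz
  have o4 := orth z y (1 / 32) (1 / 4) (by norm_num) hz hy
  have b2' : B y a = 0 := by rw [hV.2.1, b2]
  have b3' : B z a = 0 := by rw [hV.2.1, b3]
  rw [h1]
  simp only [map_add, map_smul, LinearMap.add_apply, LinearMap.smul_apply, hx, hy, hz, h.idem,
    h.norm, b1, b2, b3, o1, o2, o3, o4, b2', b3', smul_eq_mul, map_zero, LinearMap.zero_apply]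
  have := pos y
  have := pos z
  nlinarith [sq_nonneg l]

end Ax

/-- The two products obtained from the fusion rules. -/
theorem sakuma_core (hV : IsMajoranaAmbient mul B) {t : V ≃ₗ[ℝ] V} {a : V} (h : Ax mul B t a)
    (p n p2 n2 s se so : V) (l me mo : ℝ)
    (hpp : mul p p = p) (hnn : mul n n = n)
    (h0p : mul a p = s + (1 / 32 : ℝ) • (a + p)) (h0n : mul a n = s + (1 / 32 : ℝ) • (a + n))
    (hpn : mul p n = so + (1 / 32 : ℝ) • (p + n))
    (h0p2 : mul a p2 = se + (1 / 32 : ℝ) • (a + p2))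
    (h0n2 : mul a n2 = se + (1 / 32 : ℝ) • (a + n2))
    (h0s : mul a s = (7 / 32 : ℝ) • s + (7 / 2048 : ℝ) • (p + n) + (3 / 4 * l - 25 / 1024) • a)
    (hps : mul p s = (7 / 32 : ℝ) • s + (7 / 2048 : ℝ) • (a + p2) + (3 / 4 * l - 25 / 1024) • p)
    (hns : mul n s = (7 / 32 : ℝ) • s + (7 / 2048 : ℝ) • (a + n2) + (3 / 4 * l - 25 / 1024) • n)
    (bp : B a p = l) (bn : B a n = l) (bp2 : B a p2 = me) (bpn : B p n = mo)
    (bpp : B p p = 1) (bnn : B n n = 1)
    (bas : B a s = l - 1 / 32 * (1 + l)) (bps : B p s = l - 1 / 32 * (1 + l))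
    (bns : B n s = l - 1 / 32 * (1 + l)) :
    mul a so = (1 / 6 * l - 19 / 3072) • (p + n) + (7 / 6144 : ℝ) • (p2 + n2) +
      (-32 / 3 * l ^ 2 + 5 / 3 * l - 7 / 192 * me - 1 / 192 * mo - 127 / 3072) • a +
      (32 / 3 * l - 19 / 48) • s + (7 / 96 : ℝ) • se ∧
    mul s s = (49 / 768 * l - 245 / 196608) • (p + n) + (49 / 196608 : ℝ) • (p2 + n2) +
      (7 / 6 * l ^ 2 - 7 / 384 * l + 49 / 12288 * me + 7 / 12288 * mo - 7 / 98304) • a +
      (-5 / 12 * l - 13 / 1536) • s - (7 / 1536 : ℝ) • se + (7 / 2048 : ℝ) • so := by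
  have c := hV.1
  have sy := hV.2.1
  have bss : B s s = 7 / 32 * (l - 1 / 32 * (1 + l)) + 7 / 2048 * (1 + me) +
      (3 / 4 * l - 25 / 1024) * l - 1 / 16 * (l - 1 / 32 * (1 + l)) := by
    have e := hV.2.2.2.1 a p s
    rw [h0p, hps] at e
    simp only [map_add, map_smul, LinearMap.add_apply, LinearMap.smul_apply, smul_eq_mul, bas, bps,
      h.norm, bp, bp2] at e
    linear_combination -e
  set α : V := (-4 : ℝ) • s + (7 / 16 : ℝ) • (p + n) + (3 * l - 1 / 8) • a with hα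
  set β : V := (4 : ℝ) • s + (1 / 16 : ℝ) • (p + n) - (4 * l - 1 / 8) • a with hβ
  have ea : mul a α = 0 := by
    simp only [hα, map_add, map_smul, h0s, h0p, h0n, h.idem]; module
  have eb : mul a β = (1 / 4 : ℝ) • β := by
    simp only [hβ, map_add, map_sub, map_smul, h0s, h0p, h0n, h.idem]; module
  have f1 := h.f00 _ _ ea ea
  have f2 := h.f44' hV _ _ eb eb
  have f3 := h.f04 _ _ ea eb
  simp only [hα, hβ, map_add, map_sub, map_smul, LinearMap.add_apply, LinearMap.sub_apply,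
    LinearMap.smul_apply, smul_eq_mul, c s a, c s p, c s n, c p a, c n a, c n p, h0s, hps, hns,
    h0p, h0n, hpn, hpp, hnn, h0p2, h0n2, h.idem, sy s a, sy s p, sy s n, sy p a, sy n a, sy n p,
    bss, bas, bps, bns, bp, bn, bpn, bpp, bnn, h.norm] at f1 f2 f3
  have r1 : mul a so = (1 / 6 * l - 19 / 3072) • (p + n) + (7 / 6144 : ℝ) • (p2 + n2) +
      (-32 / 3 * l ^ 2 + 5 / 3 * l - 7 / 192 * me - 1 / 192 * mo - 127 / 3072) • a +
      (32 / 3 * l - 19 / 48) • s + (7 / 96 : ℝ) • se := by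
    linear_combination (norm := module) (8 / 3 : ℝ) • f1 - (8 / 3 : ℝ) • f2
  refine ⟨r1, ?_⟩
  rw [r1] at f1 f3
  linear_combination (norm := module) (1 / 4 : ℝ) • f1 + (1 / 4 : ℝ) • f3

/-- A dihedral sequence of axes. -/
structure Dih (mul : V →ₗ[ℝ] V →ₗ[ℝ] V) (B : LinearMap.BilinForm ℝ V) (t : ℤ → V ≃ₗ[ℝ] V)
    (a : ℤ → V) : Prop where
  ax : ∀ i, Ax mul B (t i) (a i)
  act : ∀ i j, t i (a j) = a (2 * i - j)

namespace Dih

variable {t : ℤ → V ≃ₗ[ℝ] V} {a : ℤ → V}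

theorem shift (h : Dih mul B t a) (c : ℤ) :
    Dih mul B (fun i => t (i + c)) (fun i => a (i + c)) :=
  ⟨fun i => h.ax _, fun i j => by rw [h.act]; congr 1; ring⟩

theorem flip (h : Dih mul B t a) (c : ℤ) :
    Dih mul B (fun i => t (c - i)) (fun i => a (c - i)) :=
  ⟨fun i => h.ax _, fun i j => by rw [h.act]; congr 1; ring⟩

theorem sg_refl (h : Dih mul B t a) (i j k : ℤ) (hk : k = 2 * i - j) :
    sg mul (a i) (a k) = sg mul (a i) (a j) := by
  rw [hk, ← h.act, (h.ax i).sg_t]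

theorem B_refl (h : Dih mul B t a) (c i j i' j' : ℤ) (hi : i' = 2 * c - i) (hj : j' = 2 * c - j) :
    B (a i') (a j') = B (a i) (a j) := by
  rw [hi, hj, ← h.act, ← h.act, (h.ax c).tB]

theorem sg_step (hV : IsMajoranaAmbient mul B) (h : Dih mul B t a) (i k : ℤ) :
    sg mul (a (i + k)) (a (i + k + k)) = sg mul (a i) (a (i + k)) := by
  rw [h.sg_refl (i + k) i (i + k + k) (by ring), sg_comm hV]

theorem B_step (hV : IsMajoranaAmbient mul B) (h : Dih mul B t a) (i k : ℤ) :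
    B (a (i + k)) (a (i + k + k)) = B (a i) (a (i + k)) := by
  rw [h.B_refl (i + k) (i + k) i (i + k) (i + k + k) (by ring) (by ring), hV.2.1]

theorem sg_one (hV : IsMajoranaAmbient mul B) (h : Dih mul B t a) (i : ℤ) :
    sg mul (a i) (a (i + 1)) = sg mul (a 0) (a 1) := by
  induction i using Int.induction_on with
  | zero => simp
  | succ n ih => rw [h.sg_step hV, ih]
  | pred n ih =>
    rw [← h.sg_step hV, ← ih]
    congr 2 <;> ring_nf

theorem B_one (hV : IsMajoranaAmbient mul B) (h : Dih mul B t a) (i : ℤ) :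
    B (a i) (a (i + 1)) = B (a 0) (a 1) := by
  induction i using Int.induction_on with
  | zero => simp
  | succ n ih => rw [h.B_step hV, ih]
  | pred n ih =>
    rw [← h.B_step hV, ← ih]
    congr 2 <;> ring_nf

theorem mul_sg (hV : IsMajoranaAmbient mul B) (h : Dih mul B t a) (i j k : ℤ)
    (hk : k = 2 * i - j) :
    mul (a i) (sg mul (a i) (a j)) = (7 / 32 : ℝ) • sg mul (a i) (a j) +
      (7 / 2048 : ℝ) • (a j + a k) + (3 / 4 * B (a i) (a j) - 25 / 1024) • a i := by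
  rw [(h.ax i).mul_sg hV, h.act, hk]

theorem core (hV : IsMajoranaAmbient mul B) (h : Dih mul B t a) :
    mul (a 0) (sg mul (a 1) (a (-1))) =
      (1 / 6 * B (a 0) (a 1) - 19 / 3072) • (a 1 + a (-1)) + (7 / 6144 : ℝ) • (a 2 + a (-2)) +
      (-32 / 3 * B (a 0) (a 1) ^ 2 + 5 / 3 * B (a 0) (a 1) - 7 / 192 * B (a 0) (a 2) -
        1 / 192 * B (a 1) (a (-1)) - 127 / 3072) • a 0 +
      (32 / 3 * B (a 0) (a 1) - 19 / 48) • sg mul (a 0) (a 1) +
        (7 / 96 : ℝ) • sg mul (a 0) (a 2) ∧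
    mul (sg mul (a 0) (a 1)) (sg mul (a 0) (a 1)) =
      (49 / 768 * B (a 0) (a 1) - 245 / 196608) • (a 1 + a (-1)) +
      (49 / 196608 : ℝ) • (a 2 + a (-2)) +
      (7 / 6 * B (a 0) (a 1) ^ 2 - 7 / 384 * B (a 0) (a 1) + 49 / 12288 * B (a 0) (a 2) +
        7 / 12288 * B (a 1) (a (-1)) - 7 / 98304) • a 0 +
      (-5 / 12 * B (a 0) (a 1) - 13 / 1536) • sg mul (a 0) (a 1) -
        (7 / 1536 : ℝ) • sg mul (a 0) (a 2) + (7 / 2048 : ℝ) • sg mul (a 1) (a (-1)) := by
  have s1 : sg mul (a 0) (a (-1)) = sg mul (a 0) (a 1) := h.sg_refl 0 1 (-1) (by norm_num)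
  have s2 : sg mul (a 0) (a (-2)) = sg mul (a 0) (a 2) := h.sg_refl 0 2 (-2) (by norm_num)
  have b1 : B (a 0) (a (-1)) = B (a 0) (a 1) := h.B_refl 0 0 1 0 (-1) (by norm_num) (by norm_num)
  refine sakuma_core hV (h.ax 0) (a 1) (a (-1)) (a 2) (a (-2)) _ _ _ _ _ _ (h.ax 1).idem
    (h.ax (-1)).idem (mul_eq_sg _ _) (by rw [← s1]; exact mul_eq_sg _ _) (mul_eq_sg _ _)
    (mul_eq_sg _ _) (by rw [← s2]; exact mul_eq_sg _ _) (h.mul_sg hV 0 1 (-1) (by norm_num))
    ?_ ?_ rfl b1 rfl rfl (h.ax 1).norm (h.ax (-1)).norm ((h.ax 0).B_sg hV _) ?_ ?_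
  · rw [sg_comm hV, hV.2.1 (a 0)]; exact h.mul_sg hV 1 0 2 (by norm_num)
  · rw [← s1, ← b1, sg_comm hV, hV.2.1 (a 0)]; exact h.mul_sg hV (-1) 0 (-2) (by norm_num)
  · rw [sg_comm hV, hV.2.1 (a 0)]; exact (h.ax 1).B_sg hV _
  · rw [← s1, ← b1, sg_comm hV, hV.2.1 (a 0)]; exact (h.ax (-1)).B_sg hV _

/-- The linear relation between six consecutive axes. -/
theorem rel (hV : IsMajoranaAmbient mul B) (h : Dih mul B t a) :
    a 3 - a (-2) = (256 * B (a 0) (a 1) - 6) • (a (-1) - a 2) +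
      ((32768 * B (a 0) (a 1) ^ 2 - 2304 * B (a 0) (a 1) + 112 * B (a 0) (a 2) +
        16 * B (a 1) (a (-1)) + 33) / 7) • a 0 -
      ((32768 * B (a 0) (a 1) ^ 2 - 2304 * B (a 0) (a 1) + 16 * B (a 0) (a 2) +
        112 * B (a 1) (a (-1)) + 33) / 7) • a 1 -
      (32 : ℝ) • (sg mul (a 0) (a 2) - sg mul (a 1) (a (-1))) := by
  have e1 := (h.core hV).2
  have e2 := ((h.flip 1).core hV).2
  norm_num only at e2
  rw [sg_comm hV (a 1) (a 0), hV.2.1 (a 1) (a 0)] at e2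
  linear_combination (norm := module) (196608 / 49 : ℝ) • e2.symm - (196608 / 49 : ℝ) • e1.symm

theorem B1 (hV : IsMajoranaAmbient mul B) (h : Dih mul B t a) (i j : ℤ) (hij : j = i + 1) :
    B (a i) (a j) = B (a 0) (a 1) := by rw [hij, h.B_one hV]

theorem B1' (hV : IsMajoranaAmbient mul B) (h : Dih mul B t a) (i j : ℤ) (hij : i = j + 1) :
    B (a i) (a j) = B (a 0) (a 1) := by rw [hV.2.1, h.B1 hV j i hij]

theorem Bs1 (hV : IsMajoranaAmbient mul B) (h : Dih mul B t a) (i : ℤ) :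
    B (a i) (sg mul (a 0) (a 1)) = B (a 0) (a 1) - 1 / 32 * (1 + B (a 0) (a 1)) := by
  rw [← h.sg_one hV i, (h.ax i).B_sg hV, h.B_one hV]

theorem mul1 (hV : IsMajoranaAmbient mul B) (h : Dih mul B t a) (i j : ℤ) (hij : j = i + 1) :
    mul (a i) (a j) = sg mul (a 0) (a 1) + (1 / 32 : ℝ) • (a i + a j) := by
  rw [hij, ← h.sg_one hV i]; exact mul_eq_sg _ _

theorem Bso (hV : IsMajoranaAmbient mul B) (h : Dih mul B t a) :
    B (a 0) (sg mul (a 1) (a (-1))) = B (a 0) (a 1) - 1 / 32 * (1 + B (a 0) (a 1)) +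
      1 / 32 * (B (a 1) (a (-1)) - B (a 0) (a 1)) := by
  have e := hV.2.2.2.1 (a 0) (a 1) (a (-1))
  rw [h.mul1 hV 0 1 (by norm_num), mul_eq_sg (a 1)] at e
  simp only [map_add, map_smul, LinearMap.add_apply, LinearMap.smul_apply, smul_eq_mul,
    hV.2.1 (sg mul (a 0) (a 1)), h.Bs1 hV, h.B1' hV 0 (-1) (by norm_num)] at e
  linear_combination e

theorem two_eq (hV : IsMajoranaAmbient mul B) (h : Dih mul B t a) :
    B (a 1) (a (-1)) = B (a 0) (a 2) := by
  have r := h.rel hV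
  have e0 := congrArg (B (a 0)) r
  have e1 := congrArg (B (a 1)) r
  have x1 := (h.flip 1).Bso hV
  norm_num only at x1
  have x2 : B (a 0) (a (-2)) = B (a 0) (a 2) := h.B_refl 0 0 2 _ _ (by norm_num) (by norm_num)
  have x3 : B (a 1) (a 3) = B (a 1) (a (-1)) := h.B_refl 1 1 (-1) _ _ (by norm_num) (by norm_num)
  have x4 : B (a 1) (a (-2)) = B (a 0) (a 3) := by
    rw [h.B_refl 2 3 6 1 (-2) (by norm_num) (by norm_num), hV.2.1,
      h.B_refl 3 0 3 6 3 (by norm_num) (by norm_num)]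
  simp only [map_add, map_sub, map_smul, smul_eq_mul, h.Bso hV, x1, x2, x3, x4, (h.ax _).norm,
    (h.ax _).B_sg hV, h.B1' hV 0 (-1) (by norm_num), h.B1' hV 1 0 (by norm_num),
    h.B1 hV 1 2 (by norm_num)] at e0 e1
  have hl := (h.ax 0).B_nonneg hV (a 1) (h.ax 1).idem
  have : (1696 * B (a 0) (a 1) + 79) * (B (a 1) (a (-1)) - B (a 0) (a 2)) = 0 := by
    linear_combination (-7) * e0 - 7 * e1
  rcases mul_eq_zero.mp this with h1 | h1
  · linarith
  · linarith

theorem B_two (hV : IsMajoranaAmbient mul B) (h : Dih mul B t a) (i : ℤ) :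
    B (a i) (a (i + 2)) = B (a 0) (a 2) := by
  have key : ∀ i : ℤ, B (a i) (a (i + 2)) = B (a (i + 1)) (a (i + 1 + 2)) := fun i => by
    have := (h.shift (i + 1)).two_eq hV
    rw [hV.2.1] at this
    convert this using 3 <;> ring_nf
  induction i using Int.induction_on with
  | zero => simp
  | succ n ih => rw [← key, ih]
  | pred n ih =>
    rw [key, ← ih]
    congr 2 <;> ring_nf

theorem B2 (hV : IsMajoranaAmbient mul B) (h : Dih mul B t a) (i j : ℤ) (hij : j = i + 2) :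
    B (a i) (a j) = B (a 0) (a 2) := by rw [hij, h.B_two hV]

theorem B2' (hV : IsMajoranaAmbient mul B) (h : Dih mul B t a) (i j : ℤ) (hij : i = j + 2) :
    B (a i) (a j) = B (a 0) (a 2) := by rw [hV.2.1, h.B2 hV j i hij]

/-- `B` of an axis with the invariant of its own parity. -/
theorem Bs2 (hV : IsMajoranaAmbient mul B) (h : Dih mul B t a) (i j : ℤ) (hij : j = i + 2 ∨ i = j + 2) :
    B (a i) (sg mul (a i) (a j)) = B (a 0) (a 2) - 1 / 32 * (1 + B (a 0) (a 2)) := by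
  rw [(h.ax i).B_sg hV]
  rcases hij with hij | hij
  · rw [h.B2 hV i j hij]
  · rw [h.B2' hV i j hij]

/-- `B` of an axis with the invariant of the other parity. -/
theorem Bs2' (hV : IsMajoranaAmbient mul B) (h : Dih mul B t a) (i j k : ℤ) (hj : j = i + 1)
    (hk : k = i - 1) :
    B (a i) (sg mul (a j) (a k)) = B (a 0) (a 1) - 1 / 32 * (1 + B (a 0) (a 1)) +
      1 / 32 * (B (a 0) (a 2) - B (a 0) (a 1)) := by
  have := (h.shift i).Bso hV
  rw [h.B1 hV (0 + i) (1 + i) (by ring), h.B2' hV (1 + i) (-1 + i) (by ring)] at this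
  rw [← this, hj, hk]
  congr 2 <;> ring_nf

theorem rel' (hV : IsMajoranaAmbient mul B) (h : Dih mul B t a) (c : ℤ) :
    a (c + 3) - a (c - 2) = (256 * B (a 0) (a 1) - 6) • (a (c - 1) - a (c + 2)) +
      ((32768 * B (a 0) (a 1) ^ 2 - 2304 * B (a 0) (a 1) + 128 * B (a 0) (a 2) + 33) / 7) •
        (a c - a (c + 1)) -
      (32 : ℝ) • (sg mul (a c) (a (c + 2)) - sg mul (a (c + 1)) (a (c - 1))) := by
  have := (h.shift c).rel hV
  rw [h.B1 hV (0 + c) (1 + c) (by ring), h.B2' hV (1 + c) (-1 + c) (by ring),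
    h.B2 hV (0 + c) (2 + c) (by ring), zero_add, add_comm 3 c, add_comm 2 c, add_comm 1 c,
    show -1 + c = c - 1 by ring, show -2 + c = c - 2 by ring] at this
  linear_combination (norm := module) this

theorem L3 (hV : IsMajoranaAmbient mul B) (h : Dih mul B t a) :
    B (a 0) (a 3) = (-32768 * B (a 0) (a 1) ^ 3 - 1920 * B (a 0) (a 1) * B (a 0) (a 2) +
      36864 * B (a 0) (a 1) ^ 2 - 2169 * B (a 0) (a 1) - 33 * B (a 0) (a 2) + 33) / 7 := by
  have r := congrArg (B (a 0)) (h.rel' hV 0)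
  norm_num only at r
  simp only [map_add, map_sub, map_smul, smul_eq_mul, (h.ax _).norm,
    h.Bs2 hV 0 2 (by norm_num), h.Bs2' hV 0 1 (-1) (by norm_num) (by norm_num),
    h.B2' hV 0 (-2) (by norm_num), h.B1' hV 0 (-1) (by norm_num)] at r
  linear_combination r

theorem B3 (hV : IsMajoranaAmbient mul B) (h : Dih mul B t a) (i j : ℤ) (hij : j = i + 3) :
    B (a i) (a j) = B (a 0) (a 3) := by
  have := (h.shift i).L3 hV
  rw [h.B1 hV (0 + i) (1 + i) (by ring), h.B2 hV (0 + i) (2 + i) (by ring), ← h.L3 hV] at this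
  rw [← this, hij]
  congr 2 <;> ring_nf

theorem B3' (hV : IsMajoranaAmbient mul B) (h : Dih mul B t a) (i j : ℤ) (hij : i = j + 3) :
    B (a i) (a j) = B (a 0) (a 3) := by rw [hV.2.1, h.B3 hV j i hij]

theorem L4 (hV : IsMajoranaAmbient mul B) (h : Dih mul B t a) :
    B (a 0) (a 4) = (8388608 * B (a 0) (a 1) ^ 4 + 458752 * B (a 0) (a 1) ^ 2 * B (a 0) (a 2) -
      9601024 * B (a 0) (a 1) ^ 3 - 640 * B (a 0) (a 1) * B (a 0) (a 2) +
      774144 * B (a 0) (a 1) ^ 2 - 128 * B (a 0) (a 2) ^ 2 - 19840 * B (a 0) (a 1) -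
      21 * B (a 0) (a 2) + 156) / 7 := by
  have r := congrArg (B (a 0)) (h.rel' hV 1)
  norm_num only at r
  rw [← h.sg_refl 1 3 (-1) (by norm_num), sg_comm hV (a 2)] at r
  simp only [map_add, map_sub, map_smul, smul_eq_mul, (h.ax _).norm,
    h.Bs2 hV 0 2 (by norm_num), h.Bs2' hV 0 1 (-1) (by norm_num) (by norm_num),
    h.B1' hV 0 (-1) (by norm_num), h.L3 hV] at r
  linear_combination r

theorem B4 (hV : IsMajoranaAmbient mul B) (h : Dih mul B t a) (i j : ℤ) (hij : j = i + 4) :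
    B (a i) (a j) = B (a 0) (a 4) := by
  have := (h.shift i).L4 hV
  rw [h.B1 hV (0 + i) (1 + i) (by ring), h.B2 hV (0 + i) (2 + i) (by ring), ← h.L4 hV] at this
  rw [← this, hij]
  congr 2 <;> ring_nf

theorem B4' (hV : IsMajoranaAmbient mul B) (h : Dih mul B t a) (i j : ℤ) (hij : i = j + 4) :
    B (a i) (a j) = B (a 0) (a 4) := by rw [hV.2.1, h.B4 hV j i hij]

theorem L5 (hV : IsMajoranaAmbient mul B) (h : Dih mul B t a) :
    B (a 0) (a 5) = 1 + (256 * B (a 0) (a 1) - 6) * (B (a 0) (a 1) - B (a 0) (a 4)) +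
      ((32768 * B (a 0) (a 1) ^ 2 - 2304 * B (a 0) (a 1) + 128 * B (a 0) (a 2) + 33) / 7) *
        (B (a 0) (a 2) - B (a 0) (a 3)) - 32 * (B (a 0) (a 2) - B (a 0) (a 1)) +
        2 * (B (a 0) (a 2) - B (a 0) (a 1)) := by
  have r := congrArg (B (a 0)) (h.rel' hV 2)
  norm_num only at r
  rw [h.sg_refl 2 0 4 (by norm_num), sg_comm hV (a 2), sg_comm hV (a 3),
    ← h.sg_refl 1 3 (-1) (by norm_num)] at r
  simp only [map_add, map_sub, map_smul, smul_eq_mul, (h.ax _).norm,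
    h.Bs2 hV 0 2 (by norm_num), h.Bs2' hV 0 1 (-1) (by norm_num) (by norm_num)] at r
  linear_combination r

theorem L6 (hV : IsMajoranaAmbient mul B) (h : Dih mul B t a) :
    B (a 0) (a 6) = B (a 0) (a 1) + (256 * B (a 0) (a 1) - 6) * (B (a 0) (a 2) - B (a 0) (a 5)) +
      ((32768 * B (a 0) (a 1) ^ 2 - 2304 * B (a 0) (a 1) + 128 * B (a 0) (a 2) + 33) / 7) *
        (B (a 0) (a 3) - B (a 0) (a 4)) + 32 * (B (a 0) (a 2) - B (a 0) (a 1)) -
        2 * (B (a 0) (a 2) - B (a 0) (a 1)) := by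
  have r := congrArg (B (a 0)) (h.rel' hV 3)
  norm_num only at r
  rw [sg_comm hV (a 4), h.sg_refl 2 0 4 (by norm_num), sg_comm hV (a 2),
    h.sg_refl 3 1 5 (by norm_num), sg_comm hV (a 3), ← h.sg_refl 1 3 (-1) (by norm_num)] at r
  simp only [map_add, map_sub, map_smul, smul_eq_mul,
    h.Bs2 hV 0 2 (by norm_num), h.Bs2' hV 0 1 (-1) (by norm_num) (by norm_num)] at r
  linear_combination r

theorem P1 (hV : IsMajoranaAmbient mul B) (h : Dih mul B t a) :
    2097152 * B (a 0) (a 1) ^ 4 + 40960 * B (a 0) (a 1) ^ 2 * B (a 0) (a 2) -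
      2326528 * B (a 0) (a 1) ^ 3 + 8896 * B (a 0) (a 1) * B (a 0) (a 2) +
      184320 * B (a 0) (a 1) ^ 2 + 128 * B (a 0) (a 2) ^ 2 - 4800 * B (a 0) (a 1) -
      167 * B (a 0) (a 2) + 39 = 0 := by
  have r := congrArg (B (sg mul (a 1) (a (-1)))) (h.rel' hV 0)
  norm_num only at r
  have sy := hV.2.1
  have o1 := h.Bs2 hV 1 (-1) (by norm_num)
  have o2 := h.Bs2 hV (-1) 1 (by norm_num)
  rw [sg_comm hV] at o2
  have o3 := h.Bs2 hV 3 1 (by norm_num)
  rw [sg_comm hV, ← h.sg_refl 1 3 (-1) (by norm_num)] at o3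
  have e0 := h.Bs2' hV 0 1 (-1) (by norm_num) (by norm_num)
  have e1 := h.Bs2' hV 2 3 1 (by norm_num) (by norm_num)
  rw [sg_comm hV, ← h.sg_refl 1 3 (-1) (by norm_num)] at e1
  have e2 := h.Bs2' hV (-2) (-1) (-3) (by norm_num) (by norm_num)
  rw [← h.sg_refl (-1) (-3) 1 (by norm_num), sg_comm hV] at e2
  have e3 := h.Bs2 hV 2 0 (by norm_num)
  rw [sg_comm hV] at e3
  have q1 := hV.2.2.2.1 (a (-1)) (a 1) (sg mul (a 1) (a (-1)))
  rw [h.mul_sg hV 1 (-1) 3 (by norm_num), mul_eq_sg (a (-1)), sg_comm hV (a (-1))] at q1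
  have q2 := hV.2.2.2.1 (a 2) (a 0) (sg mul (a 1) (a (-1)))
  rw [(h.core hV).1, mul_eq_sg (a 2), sg_comm hV (a 2), sy _ (sg mul (a 1) (a (-1)))] at q2
  simp only [map_add, map_sub, map_smul, smul_eq_mul, (h.ax _).norm, LinearMap.add_apply,
    LinearMap.smul_apply, sy (sg mul (a 1) (a (-1))) (a _), o1, o2, o3, e0, e1, e2, e3, h.Bs1 hV,
    h.B2' hV 1 (-1) (by norm_num), h.B2 hV (-1) 1 (by norm_num), h.B4 hV (-1) 3 (by norm_num),
    h.B1' hV 2 1 (by norm_num), h.B3' hV 2 (-1) (by norm_num), h.B4' hV 2 (-2) (by norm_num),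
    h.B2' hV 2 0 (by norm_num), h.L3 hV, h.L4 hV] at r q1 q2
  linear_combination (-56 / 3) * r + (1792 / 3) * q1 - (1792 / 3) * q2

theorem P2 (hV : IsMajoranaAmbient mul B) (h : Dih mul B t a) :
    (1048576 * B (a 0) (a 1) ^ 3 + 2408448 * B (a 0) (a 1) ^ 2 - 25408 * B (a 0) (a 1) - 195) *
      B (a 0) (a 2) + (268435456 * B (a 0) (a 1) ^ 5 - 283115520 * B (a 0) (a 1) ^ 4 +
      10911744 * B (a 0) (a 1) ^ 3 + 356352 * B (a 0) (a 1) ^ 2 - 19648 * B (a 0) (a 1) + 195) =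
      0 := by
  have sy := hV.2.1
  have as := hV.2.2.2.1
  have c := hV.1
  have r : B (mul (a 0) (sg mul (a 1) (a (-1)))) (a 3) =
      B (mul (a 3) (sg mul (a 1) (a (-1)))) (a 0) := by
    rw [c (a 0), c (a 3), ← as, ← as, c (a 0)]
  have e := h.mul_sg hV 3 1 5 (by norm_num)
  rw [sg_comm hV, ← h.sg_refl 1 3 (-1) (by norm_num)] at e
  have e0 := h.Bs2' hV 0 1 (-1) (by norm_num) (by norm_num)
  have e3 := h.Bs2' hV 3 4 2 (by norm_num) (by norm_num)
  rw [sg_comm hV, h.sg_refl 2 0 4 (by norm_num), sg_comm hV] at e3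
  have x1 : B (a (-2)) (a 3) = B (a 0) (a 5) := by
    rw [h.B_refl 0 2 (-3) (-2) 3 (by norm_num) (by norm_num),
      h.B_refl 1 0 5 2 (-3) (by norm_num) (by norm_num)]
  rw [(h.core hV).1, e] at r
  simp only [map_add, map_smul, smul_eq_mul, LinearMap.add_apply,
    LinearMap.smul_apply, sy (sg mul (a _) (a _)) (a _), e0, e3, sy (a 5) (a 0), sy (a 3) (a 0),
    h.Bs1 hV, x1, h.B4 hV (-1) 3 (by norm_num), h.B2 hV 1 3 (by norm_num),
    h.B1 hV 2 3 (by norm_num), h.B2' hV 1 (-1) (by norm_num), h.B1' hV 1 0 (by norm_num),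
    h.B2' hV 3 1 (by norm_num), h.L5 hV, h.L3 hV, h.L4 hV] at r
  linear_combination (-1792 / 15) * r + (896 / 5 * B (a 0) (a 1) + 18 / 5) * h.P1 hV

/-- Sakuma's theorem in terms of inner products. -/
theorem four_five_six (hV : IsMajoranaAmbient mul B) (h : Dih mul B t a) :
    B (a 0) (a 4) = 1 ∨ B (a 0) (a 5) = 1 ∨ B (a 0) (a 6) = 1 := by
  have p1 := h.P1 hV
  have p2 := h.P2 hV
  have l3 := h.L3 hV
  have l4 := h.L4 hV
  have l5 := h.L5 hV
  have l6 := h.L6 hV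
  generalize B (a 0) (a 1) = l at *
  generalize B (a 0) (a 2) = m at *
  have f : l * (l - 1) * (8 * l - 1) * (64 * l - 1) ^ 2 * (256 * l - 13) * (32 * l - 1) *
      (128 * l - 3) * (256 * l - 5) = 0 := by
    linear_combination (-1 / 3211264) *
      ((1048576 * l ^ 3 + 2408448 * l ^ 2 - 25408 * l - 195) ^ 2 * p1 -
      (128 * ((1048576 * l ^ 3 + 2408448 * l ^ 2 - 25408 * l - 195) * m -
        (268435456 * l ^ 5 - 283115520 * l ^ 4 + 10911744 * l ^ 3 + 356352 * l ^ 2 -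
        19648 * l + 195)) + (40960 * l ^ 2 + 8896 * l - 167) *
        (1048576 * l ^ 3 + 2408448 * l ^ 2 - 25408 * l - 195)) * p2)
  simp only [mul_eq_zero, pow_eq_zero_iff (two_ne_zero)] at f
  rcases f with ((((((f | f) | f) | f) | f) | f) | f) | f
  · subst f
    obtain rfl : m = 1 := by linarith
    left; rw [l4]; norm_num
  · obtain rfl : l = 1 := by linarith
    obtain rfl : m = 1 := by linarith
    left; rw [l4]; norm_num
  · obtain rfl : l = 1 / 8 := by linarith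
    obtain rfl : m = 1 := by linarith
    left; rw [l4]; norm_num
  · obtain rfl : l = 1 / 64 := by linarith
    have : (64 * m - 1) * (8 * m - 1) = 0 := by linear_combination 4 * p1
    rcases mul_eq_zero.mp this with g | g
    · obtain rfl : m = 1 / 64 := by linarith
      right; right; rw [l6, l5, l4, l3]; norm_num
    · obtain rfl : m = 1 / 8 := by linarith
      left; rw [l4]; norm_num
  · obtain rfl : l = 13 / 256 := by linarith
    obtain rfl : m = 13 / 256 := by linarith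
    right; right; rw [l6, l5, l4, l3]; norm_num
  · obtain rfl : l = 1 / 32 := by linarith
    obtain rfl : m = 0 := by linarith
    left; rw [l4]; norm_num
  · obtain rfl : l = 3 / 128 := by linarith
    obtain rfl : m = 3 / 128 := by linarith
    right; left; rw [l5, l4, l3]; norm_num
  · obtain rfl : l = 5 / 256 := by linarith
    obtain rfl : m = 13 / 256 := by linarith
    right; right; rw [l6, l5, l4, l3]; norm_num

theorem eq_of_B (hV : IsMajoranaAmbient mul B) (h : Dih mul B t a) (i j : ℤ)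
    (hB : B (a i) (a j) = 1) : a i = a j := by
  by_contra hne
  have := hV.2.2.1 _ (sub_ne_zero.mpr hne)
  simp only [map_sub, LinearMap.sub_apply, (h.ax _).norm, hB, hV.2.1 (a j) (a i)] at this
  norm_num at this

end Dih

end Cfsg.Agent.H47
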