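import Mathlib
import Cfsg.Agent.H47.Poisson

/-! The theta series of an even unimodular lattice of rank 24 as a modular form of weight 12. -/

set_option autoImplicit false

open Complex Matrix
open UpperHalfPlane hiding I
open scoped Real MatrixGroups ModularForm

namespace Cfsg.Agent.H47

/-- hypotheses: even unimodular positive definite of rank 24 -/
structure EvUni (B : Matrix (Fin 24) (Fin 24) ℤ) : Prop where
  symm : B.IsSymm
  pos : ∀ x : Fin 24 → ℤ, x ≠ 0 → 0 < x ⬝ᵥ (B *ᵥ x)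
  even : ∀ x : Fin 24 → ℤ, (2 : ℤ) ∣ x ⬝ᵥ (B *ᵥ x)
  det : B.det = 1

/-- theta function on the upper half plane -/
noncomputable def thetaH (B : Matrix (Fin 24) (Fin 24) ℤ) (τ : ℍ) : ℂ := thetaT B (-I * τ)

/-- half of the norm -/
def halfN (B : Matrix (Fin 24) (Fin 24) ℤ) (x : Fin 24 → ℤ) : ℕ := (x ⬝ᵥ (B *ᵥ x) / 2).toNat

namespace EvUni

variable {B : Matrix (Fin 24) (Fin 24) ℤ}

theorem nonneg (h : EvUni B) (x : Fin 24 → ℤ) : 0 ≤ x ⬝ᵥ (B *ᵥ x) := by
  by_cases h0 : x = 0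
  · simp [h0]
  · exact (h.pos x h0).le

theorem two_halfN (h : EvUni B) (x : Fin 24 → ℤ) : x ⬝ᵥ (B *ᵥ x) = 2 * (halfN B x : ℤ) := by
  have h1 := h.nonneg x
  have h2 := h.even x
  unfold halfN
  omega

theorem det_ne (h : EvUni B) : B.det ≠ 0 := by rw [h.det]; exact one_ne_zero

theorem norm_term (z : ℂ) (N : ℤ) :
    ‖cexp (-π * (-I * z) * (N : ℂ))‖ = Real.exp (-(π * z.im) * N) := by
  rw [Complex.norm_exp]
  congr 1
  simp

theorem summable_term (h : EvUni B) {z : ℂ} (hz : 0 < z.im) :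
    Summable (fun x : Fin 24 → ℤ => cexp (-π * (-I * z) * ((x ⬝ᵥ (B *ᵥ x) : ℤ) : ℂ))) := by
  refine Summable.of_norm ?_
  simp only [norm_term]
  exact summable_theta_real B h.symm h.pos h.det_ne (mul_pos Real.pi_pos hz)

theorem hasSum_q (h : EvUni B) (τ : ℍ) :
    HasSum (fun m : ℕ => ((Nat.card (halfN B ⁻¹' {m}) : ℕ) : ℂ) • Function.Periodic.qParam 1 τ ^ m)
      (thetaH B τ) := by
  have h1 := (h.summable_term τ.im_pos).hasSum.tsum_fiberwise (halfN B)
  have h2 : ∀ m : ℕ, ∑' b : halfN B ⁻¹' {m},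
      cexp (-π * (-I * τ) * (((b : Fin 24 → ℤ) ⬝ᵥ (B *ᵥ b) : ℤ) : ℂ)) =
      ((Nat.card (halfN B ⁻¹' {m}) : ℕ) : ℂ) • Function.Periodic.qParam 1 τ ^ m := by
    intro m
    have : ∀ b : halfN B ⁻¹' {m}, cexp (-π * (-I * τ) * (((b : Fin 24 → ℤ) ⬝ᵥ (B *ᵥ b) : ℤ) : ℂ)) =
        Function.Periodic.qParam 1 τ ^ m := by
      rintro ⟨b, hb⟩
      have hb' : halfN B b = m := hb
      simp only [h.two_halfN, hb', Function.Periodic.qParam, ← Complex.exp_nat_mul]
      congr 1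
      push_cast
      ring
    simp only [this, tsum_const, nsmul_eq_mul, smul_eq_mul]
  simp only [h2] at h1
  exact h1

theorem T_inv (h : EvUni B) : (thetaH B ∣[(12 : ℤ)] ModularGroup.T) = thetaH B := by
  ext z
  rw [ModularForm.SL_slash_apply, modular_T_smul]
  have hd : denom ModularGroup.T z = 1 := by
    rw [ModularGroup.denom_apply]; simp [ModularGroup.T]
  have : thetaH B ((1 : ℝ) +ᵥ z) = thetaH B z := by
    refine (h.hasSum_q _).unique ?_
    convert h.hasSum_q z using 4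
    simp only [Function.Periodic.qParam, coe_vadd, ofReal_one, div_one, mul_add, mul_one]
    rw [add_comm, Complex.exp_periodic]
  rw [hd, this]; simp

theorem S_inv (h : EvUni B) : (thetaH B ∣[(12 : ℤ)] ModularGroup.S) = thetaH B := by
  ext z
  have hz := z.ne_zero
  have ht : 0 < (-I * (z : ℂ)).re := by simpa using z.im_pos
  have ht0 : -I * (z : ℂ) ≠ 0 := by rintro h0; rw [h0] at ht; simp at ht
  have h1 := thetaT_inv B h.symm h.pos h.det ht
  have h2 : (1 / (-I * (z : ℂ)) ^ (1 / 2 : ℂ)) ^ 24 = ((z : ℂ) ^ 12)⁻¹ := by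
    rw [one_div, inv_pow, ← Complex.cpow_nat_mul]
    have : ((24 : ℕ) : ℂ) * (1 / 2) = ((12 : ℕ) : ℂ) := by norm_num
    rw [this, Complex.cpow_natCast, mul_pow, neg_pow, show 12 = 4 * 3 by norm_num, pow_mul I,
      I_pow_four]
    norm_num
  have h3 : (-I * (z : ℂ))⁻¹ = -I * (-(z : ℂ))⁻¹ := by
    field_simp
    simp
  suffices thetaT B (-I * (-(z : ℂ))⁻¹) * ((z : ℂ) ^ 12)⁻¹ = thetaT B (-I * z) by
    rw [ModularForm.SL_slash_apply, UpperHalfPlane.modular_S_smul, ModularGroup.denom_S]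
    simpa [thetaH]
  rw [h1, h2, h3, mul_comm]

theorem diffOn (h : EvUni B) :
    DifferentiableOn ℂ (fun z : ℂ => thetaT B (-I * z)) {z : ℂ | 0 < z.im} := by
  intro z hz
  have hz' : 0 < z.im / 2 := half_pos hz
  have hU : IsOpen {w : ℂ | z.im / 2 < w.im} := isOpen_lt continuous_const Complex.continuous_im
  have hd : DifferentiableOn ℂ (fun w : ℂ => thetaT B (-I * w)) {w : ℂ | z.im / 2 < w.im} := by
    refine differentiableOn_tsum_of_summable_norm
      (summable_theta_real B h.symm h.pos h.det_ne (mul_pos Real.pi_pos hz')) ?_ hU ?_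
    · intro x
      fun_prop
    · intro x w hw
      rw [norm_term]
      apply Real.exp_le_exp.mpr
      have h1 : (0 : ℝ) ≤ ((x ⬝ᵥ (B *ᵥ x) : ℤ) : ℝ) := by exact_mod_cast h.nonneg x
      have h2 : z.im / 2 < w.im := hw
      have h3 : π * (z.im / 2) ≤ π * w.im := mul_le_mul_of_nonneg_left h2.le Real.pi_pos.le
      nlinarith
  exact (hd.differentiableAt (hU.mem_nhds (show z.im / 2 < z.im from half_lt_self hz))).differentiableWithinAt

/-- the theta series as a modular form -/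
noncomputable def theta (h : EvUni B) : ModularForm 𝒮ℒ ((12 : ℕ) : ℤ) where
  toFun := thetaH B
  slash_action_eq' A hA := by
    obtain ⟨A, rfl⟩ := hA
    exact SlashInvariantForm.slash_action_generators_SL2Z h.S_inv h.T_inv A
  holo' := by
    rw [UpperHalfPlane.mdifferentiable_iff]
    refine .congr h.diffOn fun z hz ↦ ?_
    simp [thetaH, ofComplex_apply_of_im_pos hz]
  bdd_at_cusps' {c} hc := by
    rw [Subgroup.IsArithmetic.isCusp_iff_isCusp_SL2Z] at hc
    rw [OnePoint.isBoundedAt_iff_forall_SL2Z hc]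
    intro γ _
    have := SlashInvariantForm.slash_action_generators_SL2Z h.S_inv h.T_inv γ
    change IsBoundedAtImInfty (thetaH B ∣[(12 : ℤ)] γ)
    rw [this]
    exact isBoundedAtImInfty_of_hasSum_qExpansion one_pos h.hasSum_q

theorem theta_coeff (h : EvUni B) (m : ℕ) :
    (qExpansion 1 h.theta).coeff m = ({x : Fin 24 → ℤ | x ⬝ᵥ (B *ᵥ x) = 2 * m}.ncard : ℂ) := by
  rw [← ModularFormClass.qExpansion_coeff_unique (f := h.theta) one_pos one_mem_strictPeriods_SL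
    h.hasSum_q m, Nat.card_coe_set_eq]
  congr 2
  ext x
  simp only [Set.mem_preimage, Set.mem_singleton_iff, Set.mem_ofPred_eq, h.two_halfN]
  omega

end EvUni

theorem E4_coeffs : (qExpansion 1 ModularForm.E₄).coeff 0 = 1 ∧
    (qExpansion 1 ModularForm.E₄).coeff 1 = 240 ∧ (qExpansion 1 ModularForm.E₄).coeff 2 = 2160 ∧
    (qExpansion 1 ModularForm.E₄).coeff 3 = 6720 ∧
    (qExpansion 1 ModularForm.E₄).coeff 4 = 17520 := by
  have hb : bernoulli 4 = -1 / 30 := by decide +kernel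
  have s1 : ArithmeticFunction.sigma 3 1 = 1 := by decide +kernel
  have s2 : ArithmeticFunction.sigma 3 2 = 9 := by decide +kernel
  have s3 : ArithmeticFunction.sigma 3 3 = 28 := by decide +kernel
  have s4 : ArithmeticFunction.sigma 3 4 = 73 := by decide +kernel
  refine ⟨?_, ?_, ?_, ?_, ?_⟩ <;>
    rw [EisensteinSeries.E_qExpansion_coeff _ ⟨2, rfl⟩] <;> norm_num [hb, s1, s2, s3, s4]

theorem E6_coeffs : (qExpansion 1 ModularForm.E₆).coeff 0 = 1 ∧
    (qExpansion 1 ModularForm.E₆).coeff 1 = -504 ∧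
    (qExpansion 1 ModularForm.E₆).coeff 2 = -16632 ∧
    (qExpansion 1 ModularForm.E₆).coeff 3 = -122976 ∧
    (qExpansion 1 ModularForm.E₆).coeff 4 = -532728 := by
  have hb : bernoulli 6 = 1 / 42 := by decide +kernel
  have s1 : ArithmeticFunction.sigma 5 1 = 1 := by decide +kernel
  have s2 : ArithmeticFunction.sigma 5 2 = 33 := by decide +kernel
  have s3 : ArithmeticFunction.sigma 5 3 = 244 := by decide +kernel
  have s4 : ArithmeticFunction.sigma 5 4 = 1057 := by decide +kernel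
  refine ⟨?_, ?_, ?_, ?_, ?_⟩ <;>
    rw [EisensteinSeries.E_qExpansion_coeff _ ⟨3, rfl⟩] <;> norm_num [hb, s1, s2, s3, s4]

theorem comb_coeffs {p r : PowerSeries ℂ} (p0 : p.coeff 0 = 1) (p1 : p.coeff 1 = 240)
    (p2 : p.coeff 2 = 2160) (p3 : p.coeff 3 = 6720) (p4 : p.coeff 4 = 17520)
    (r0 : r.coeff 0 = 1) (r1 : r.coeff 1 = -504) (r2 : r.coeff 2 = -16632)
    (r3 : r.coeff 3 = -122976) (r4 : r.coeff 4 = -532728) :
    ((7 / 12 : ℂ) • p ^ 3 + (5 / 12 : ℂ) • r ^ 2).coeff 0 = 1 ∧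
    ((7 / 12 : ℂ) • p ^ 3 + (5 / 12 : ℂ) • r ^ 2).coeff 1 = 0 ∧
    ((7 / 12 : ℂ) • p ^ 3 + (5 / 12 : ℂ) • r ^ 2).coeff 2 = 196560 ∧
    ((7 / 12 : ℂ) • p ^ 3 + (5 / 12 : ℂ) • r ^ 2).coeff 3 = 16773120 ∧
    ((7 / 12 : ℂ) • p ^ 3 + (5 / 12 : ℂ) • r ^ 2).coeff 4 = 398034000 := by
  simp only [map_add, PowerSeries.coeff_smul, smul_eq_mul, pow_succ, pow_zero, one_mul,
    PowerSeries.coeff_mul, Finset.Nat.sum_antidiagonal_eq_sum_range_succ_mk,
    Finset.sum_range_succ, Finset.range_zero, Finset.sum_empty]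
  norm_num [p0, p1, p2, p3, p4, r0, r1, r2, r3, r4]

theorem EvUni.counts {B : Matrix (Fin 24) (Fin 24) ℤ} (h : EvUni B)
    (h2 : ∀ x : Fin 24 → ℤ, x ⬝ᵥ (B *ᵥ x) ≠ 2) :
    {x : Fin 24 → ℤ | x ⬝ᵥ (B *ᵥ x) = 4}.ncard = 196560 ∧
    {x : Fin 24 → ℤ | x ⬝ᵥ (B *ᵥ x) = 6}.ncard = 16773120 ∧
    {x : Fin 24 → ℤ | x ⬝ᵥ (B *ᵥ x) = 8}.ncard = 398034000 := by
  obtain ⟨p0, p1, p2, p3, p4⟩ := E4_coeffs
  obtain ⟨r0, r1, r2, r3, r4⟩ := E6_coeffs
  obtain ⟨c0, c1, c2, c3, c4⟩ := comb_coeffs p0 p1 p2 p3 p4 r0 r1 r2 r3 r4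
  let f4 : ModularForm 𝒮ℒ ((12 : ℕ) : ℤ) := ModularForm.mcast (by norm_num) (ModularForm.E₄.pow 3)
  let f6 : ModularForm 𝒮ℒ ((12 : ℕ) : ℤ) := ModularForm.mcast (by norm_num) (ModularForm.E₆.pow 2)
  have q4 : qExpansion 1 f4 = qExpansion 1 ModularForm.E₄ ^ 3 :=
    ModularForm.qExpansion_pow one_pos one_mem_strictPeriods_SL _ _
  have q6 : qExpansion 1 f6 = qExpansion 1 ModularForm.E₆ ^ 2 :=
    ModularForm.qExpansion_pow one_pos one_mem_strictPeriods_SL _ _
  let g : ModularForm 𝒮ℒ ((12 : ℕ) : ℤ) := (7 / 12 : ℂ) • f4 + (5 / 12 : ℂ) • f6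
  have qg : qExpansion 1 g = (7 / 12 : ℂ) • qExpansion 1 ModularForm.E₄ ^ 3 +
      (5 / 12 : ℂ) • qExpansion 1 ModularForm.E₆ ^ 2 := by
    rw [← q4, ← q6, ← ModularForm.qExpansion_smul one_pos one_mem_strictPeriods_SL,
      ← ModularForm.qExpansion_smul one_pos one_mem_strictPeriods_SL]
    exact ModularForm.qExpansion_add one_pos one_mem_strictPeriods_SL ((7 / 12 : ℂ) • f4)
      ((5 / 12 : ℂ) • f6)
  rw [← qg] at c0 c1 c2 c3 c4
  have qd : qExpansion 1 ⇑(h.theta - g) = qExpansion 1 h.theta - qExpansion 1 g :=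
    ModularForm.qExpansion_sub one_pos one_mem_strictPeriods_SL h.theta g
  have t0 : (qExpansion 1 h.theta).coeff 0 = 1 := by
    rw [h.theta_coeff]
    have : {x : Fin 24 → ℤ | x ⬝ᵥ (B *ᵥ x) = 2 * ((0 : ℕ) : ℤ)} = {0} := by
      ext x
      simp only [Set.mem_ofPred_eq, Set.mem_singleton_iff]
      constructor
      · intro hx
        by_contra h0
        have := h.pos x h0
        omega
      · rintro rfl; simp
    rw [this]; simp
  have t1 : (qExpansion 1 h.theta).coeff 1 = 0 := by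
    rw [h.theta_coeff]
    have : {x : Fin 24 → ℤ | x ⬝ᵥ (B *ᵥ x) = 2 * ((1 : ℕ) : ℤ)} = ∅ := by
      ext x
      simpa using h2 x
    rw [this]; simp
  have hz : h.theta - g = 0 := by
    apply ModularForm.sturm_bound_levelOne_nat
    have : ((2 : ℕ) : ℕ∞) ≤ (qExpansion 1 ⇑(h.theta - g)).order := by
      apply PowerSeries.nat_le_order
      intro i hi
      rw [qd, map_sub]
      interval_cases i
      · rw [t0, c0, sub_self]
      · rw [t1, c1, sub_self]
    refine lt_of_lt_of_le ?_ this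
    norm_num
  have he : h.theta = g := sub_eq_zero.mp hz
  rw [← he, h.theta_coeff] at c2 c3 c4
  refine ⟨?_, ?_, ?_⟩
  · exact_mod_cast c2
  · exact_mod_cast c3
  · exact_mod_cast c4

end Cfsg.Agent.H47
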