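import Mathlib
import Cfsg.Agent.H50.Polar
import Cfsg.Agent.H50.Planes

/-! Two blocks of a class of 3-transpositions with disconnected commuting graph. -/

set_option autoImplicit false

namespace Cfsg.Agent.H47

open Cfsg H50 Module
open H28 (K4 card_K4)
open scoped H28

variable {G : Type*} [Group G]

/-- `B` and `B'` are two connected components of the commuting graph of `D` -/
structure TC (D B B' : Set G) : Prop where
  fs : FS D
  sub : B ⊆ D
  sub' : B' ⊆ D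
  rp : RP B
  conj : ∃ t : G, B' = (MulAut.conj t).toMonoidHom '' B
  nc : ∀ x ∈ B, ∀ y ∈ B', ¬ Commute x y
  mem : ∀ y ∈ B', ∀ y' ∈ B', y * y' ∈ Subgroup.closure B

/-- an element of the generated group acts on the parameters by a product of the basic maps -/
theorem param_lift {E : Set G} (hE : FS E) {V : Type*} {X : Set V} {op : V → V → V} {r : V → V → Prop}
    {p : V → G} (h : Param E X op r p) {P : (V → V) → Prop} (h1 : P id)
    (h2 : ∀ u ∈ X, ∀ φ, P φ → P (op u ∘ φ)) {g : G} (hg : g ∈ Subgroup.closure E) :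
    ∃ φ, P φ ∧ ∀ v ∈ X, φ v ∈ X ∧ g * p v * g⁻¹ = p (φ v) := by
  have step : ∀ x ∈ E, ∀ y : G, (∃ φ, P φ ∧ ∀ v ∈ X, φ v ∈ X ∧ y * p v * y⁻¹ = p (φ v)) →
      ∃ φ, P φ ∧ ∀ v ∈ X, φ v ∈ X ∧ (x * y) * p v * (x * y)⁻¹ = p (φ v) := by
    rintro x hx y ⟨φ, a, b⟩
    obtain ⟨u, hu, rfl⟩ := h.surj x hx
    refine ⟨_, h2 u hu φ a, fun v hv => ⟨h.op_mem u hu _ (b v hv).1, ?_⟩⟩
    rw [Function.comp_apply, ← h.conj u hu _ (b v hv).1, ← (b v hv).2, mul_inv_rev,
      inv_eq_of_mul_self (hE.sq _ hx)]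
    simp only [mul_assoc]
  induction hg using Subgroup.closure_induction_left with
  | one => exact ⟨id, h1, fun v hv => ⟨hv, by simp⟩⟩
  | mul_left x hx y _ ih => exact step x hx y ih
  | inv_mul_cancel x hx y _ ih => rw [inv_eq_of_mul_self (hE.sq _ hx)]; exact step x hx y ih

namespace TC

variable {D B B' : Set G}

theorem rp' (h : TC D B B') : RP B' := by
  obtain ⟨t, rfl⟩ := h.conj
  exact h.rp.map _ (MulAut.conj t).injective

theorem ncard' (h : TC D B B') : B'.ncard = B.ncard := by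
  obtain ⟨t, rfl⟩ := h.conj
  exact Set.ncard_image_of_injective _ (MulAut.conj t).injective

theorem act_mem (h : TC D B B') {y y' x : G} (hy : y ∈ B') (hy' : y' ∈ B') (hx : x ∈ B) :
    (y * y') * x * (y * y')⁻¹ ∈ B := h.rp.fs.conj_closure (h.mem y hy y' hy') x hx

theorem act_eq (h : TC D B B') {y y' : G} (hy : y ∈ B') (hy' : y' ∈ B') (x : G) :
    (y * y') * x * (y * y')⁻¹ = y * (y' * x * y') * y := by
  rw [mul_inv_rev, inv_eq_of_mul_self (h.fs.sq _ (h.sub' hy)), inv_eq_of_mul_self (h.fs.sq _ (h.sub' hy'))]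
  simp only [mul_assoc]

theorem sigma (h : TC D B B') {y y' x : G} (hy : y ∈ B') (hy' : y' ∈ B') (c : Commute y y') (hne : y ≠ y')
    (hx : x ∈ B) : Commute x ((y * y') * x * (y * y')⁻¹) ∧ (y * y') * x * (y * y')⁻¹ ≠ x := by
  rw [h.act_eq hy hy']
  exact h.fs.yy (h.sub hx) (h.sub' hy') (h.sub' hy) c.symm hne.symm (h.nc x hx y' hy') (h.nc x hx y hy)

theorem tau (h : TC D B B') {y y' x : G} (hy : y ∈ B') (hy' : y' ∈ B') (c : ¬ Commute y y') (hx : x ∈ B) :
    ¬ Commute x ((y * y') * x * (y * y')⁻¹) ∧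
      x * ((y * y') * x * (y * y')⁻¹) * x = (y * y') * ((y * y') * x * (y * y')⁻¹) * (y * y')⁻¹ := by
  obtain ⟨Q, -, inj, op, q0, q1, q2, -⟩ := exists_ag h.fs (h.sub' hy) (h.sub hx) (h.sub' hy')
    (fun c => h.nc x hx y hy c.symm) c (h.nc x hx y' hy') (h.nc x hx _ (h.rp'.fs.conj y hy y' hy'))
  rw [h.act_eq hy hy', h.act_eq hy hy', commute_iff_conj_eq (h.fs.sq _ (h.sub hx)), ← q0, ← q1, ← q2]
  simp only [op, inj.eq_iff]
  decide

theorem act_inj (h : TC D B B') {y₀ x : G} (hy₀ : y₀ ∈ B') (hx : x ∈ B) :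
    Set.InjOn (fun y => (y₀ * y) * x * (y₀ * y)⁻¹) B' := fun y hy y' hy' e => by
  dsimp only at e
  rw [h.act_eq hy₀ hy, h.act_eq hy₀ hy', iconj_inj] at e
  exact h.fs.eq_of_conj_eq (h.sub hx) (h.sub' hy) (h.sub' hy') (h.nc x hx y hy) e

theorem act_surj [Finite G] (h : TC D B B') {y₀ x x' : G} (hy₀ : y₀ ∈ B') (hx : x ∈ B) (hx' : x' ∈ B) :
    ∃ y ∈ B', (y₀ * y) * x * (y₀ * y)⁻¹ = x' := by
  have : (fun y => (y₀ * y) * x * (y₀ * y)⁻¹) '' B' = B := by
    refine Set.eq_of_subset_of_ncard_le ?_ ?_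
    · rintro _ ⟨y, hy, rfl⟩; exact h.act_mem hy₀ hy hx
    · rw [(h.act_inj hy₀ hx).ncard_image, h.ncard']
  rw [← this] at hx'
  exact hx'

theorem exists_sigma [Finite G] (h : TC D B B') : ∃ g ∈ Subgroup.closure B, g * g = 1 ∧
    ∀ x ∈ B, Commute x (g * x * g⁻¹) ∧ g * x * g⁻¹ ≠ x := by
  obtain ⟨y, hy, -⟩ := h.rp'.two
  obtain ⟨y', hy', hne, c⟩ := h.rp'.exists_commute hy
  refine ⟨_, h.mem y hy y' hy', ?_, fun x hx => h.sigma hy hy' c hne.symm hx⟩
  rw [← pow_two]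
  exact (commute_iff_sq (h.fs.sq _ (h.sub' hy)) (h.fs.sq _ (h.sub' hy'))).1 c

theorem not_isSym [Finite G] (h : TC D B B') {n : ℕ} : ¬ IsSym B n := by
  rintro ⟨p, hp⟩
  obtain ⟨g, hg, -, hσ⟩ := h.exists_sigma
  obtain ⟨φ, ⟨π, hπ⟩, hφ⟩ := param_lift h.rp.fs hp
    (P := fun φ => ∃ π : Equiv.Perm (Fin n), ∀ v, φ v = (π v.1, π v.2)) ⟨1, fun _ => rfl⟩
    (by rintro u - φ ⟨π, hπ⟩
        exact ⟨Equiv.swap u.1 u.2 * π, fun v => by rw [Function.comp_apply, hπ]; rfl⟩) hg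
  obtain ⟨i, hi⟩ : ∃ i, π i ≠ i := by
    by_contra hn
    push Not at hn
    obtain ⟨x, hx, -⟩ := h.rp.two
    obtain ⟨v, hv, rfl⟩ := hp.surj x hx
    exact (hσ _ hx).2 (by rw [(hφ v hv).2, hπ, hn, hn])
  have hv : (i, π i) ∈ symX (Fin n) := hi.symm
  obtain ⟨c, hne⟩ := hσ _ (hp.mem _ hv)
  obtain ⟨m, e⟩ := hφ _ hv
  rw [e] at c hne
  rw [hp.commute_iff h.rp.fs hv m, hπ] at c
  rw [Ne, hp.eq_iff _ m _ hv, hπ] at hne
  rw [hπ] at m
  simp only [symR, symOp, symX, Set.mem_ofPred_eq, Equiv.swap_apply_right, Prod.ext_iff, Prod.swap,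
    true_and, not_or] at c hne m
  rcases c with c | c
  · exact hi c.1.symm
  · exact hne.2 c.1.symm

theorem not_pol [Finite G] (h : TC D B B') : ¬ Pol B := fun hP => by
  obtain ⟨g, hg, hg2, hσ⟩ := h.exists_sigma
  obtain ⟨x, hx, -⟩ := h.rp.two
  have gg : ∀ z : G, g * (g * z * g⁻¹) * g⁻¹ = z := fun z => by
    rw [inv_eq_of_mul_self hg2]; exact iconj_iconj hg2
  have hL := h.rp.pl hx (h.rp.fs.conj_closure hg x hx) (hσ x hx).1 (hσ x hx).2.symm
  have h1 := hP.odd hL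
  have h2 := ncard_modEq_fixed (Set.toFinite (line B x (g * x * g⁻¹))) (fun z => g * z * g⁻¹)
    (fun z hz => by
      have := line_conj h.rp.fs hg hz
      rw [gg] at this
      exact ⟨this.1, this.2.symm⟩) (fun z _ => gg z)
  have h3 : {z | z ∈ line B x (g * x * g⁻¹) ∧ g * z * g⁻¹ = z} = ∅ :=
    Set.eq_empty_of_forall_notMem fun z hz => (hσ z hz.1.1).2 hz.2
  rw [h3, Set.ncard_empty] at h2
  unfold Nat.ModEq at h2
  omega

end TC

theorem exists_conj_pgroup [Finite G] {p : ℕ} [Fact p.Prime] {H A A₀ : Subgroup G} (hA : A ≤ H)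
    (hA₀ : A₀ ≤ H) (h : IsPGroup p A) (h₀ : IsPGroup p A₀) :
    ∃ g ∈ H, ∃ P : Subgroup G, IsPGroup p P ∧ A ≤ P ∧ ∀ a ∈ A₀, g * a * g⁻¹ ∈ P := by
  obtain ⟨P, hP⟩ := (h.comap_subtype (K := H)).exists_le_sylow
  obtain ⟨P₀, hP₀⟩ := (h₀.comap_subtype (K := H)).exists_le_sylow
  obtain ⟨g, rfl⟩ := MulAction.exists_smul_eq H P₀ P
  refine ⟨g, g.2, Subgroup.map H.subtype (g • P₀ : Sylow p H), (g • P₀).2.map _, fun a ha => ?_,
    fun a ha => ?_⟩
  · exact ⟨⟨a, hA ha⟩, hP ha, rfl⟩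
  · refine ⟨g * ⟨a, hA₀ ha⟩ * g⁻¹, ?_, rfl⟩
    rw [Sylow.coe_subgroup_smul]
    exact ⟨⟨a, hA₀ ha⟩, hP₀ ha, rfl⟩

/-- the width of a block is a power of two -/
theorem TC.width_pow [Finite G] {D B B' : Set G} (h : TC D B B') : ∃ k, commutingWidth B = 2 ^ k := by
  obtain ⟨Ω, h1, h2, h3⟩ := exists_ncard_eq_width B
  obtain ⟨t, ht⟩ := h.conj
  have hB := h.rp.fs
  have hne : Ω.Nonempty := by
    obtain ⟨x, hx, -⟩ := h.rp.two
    have := ncard_le_width (D := B) (E := {x}) (by simpa) (by simp)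
    rw [Set.ncard_singleton, ← h3] at this
    exact Set.nonempty_of_ncard_ne_zero (by omega)
  let Ω' : Set G := (MulAut.conj t).toMonoidHom '' Ω
  have h1' : Ω' ⊆ B' := ht ▸ Set.image_mono h1
  have h2' : ∀ a ∈ Ω', ∀ b ∈ Ω', Commute a b := by
    rintro _ ⟨a, ha, rfl⟩ _ ⟨b, hb, rfl⟩; exact (h2 a ha b hb).map _
  have h3' : Ω'.ncard = Ω.ncard := Set.ncard_image_of_injective _ (MulAut.conj t).injective
  let A : Subgroup G := Subgroup.closure Ω' ⊓ Subgroup.closure B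
  have hA : IsPGroup 2 A :=
    (isPGroup_closure_of_commute (fun a ha => h.fs.sq _ (h.sub' (h1' ha))) h2').to_inf_left
  obtain ⟨g, hg, P, hP, hAP, hΩP⟩ := exists_conj_pgroup (A := A) inf_le_right (Subgroup.closure_mono h1) hA
    (isPGroup_closure_of_commute (fun a ha => hB.sq _ (h1 ha)) h2)
  obtain ⟨x₀, hx₀⟩ := hne
  have hx : g * x₀ * g⁻¹ ∈ B := hB.conj_closure hg _ (h1 hx₀)
  have hxP : g * x₀ * g⁻¹ ∈ P := hΩP _ (Subgroup.subset_closure hx₀)
  generalize g * x₀ * g⁻¹ = x at hx hxP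
  obtain ⟨k, hk⟩ := (hA.map (MulAut.conj : G →* MulAut G)).card_orbit x
  refine ⟨k, ?_⟩
  rw [← hk, Nat.card_coe_set_eq]
  apply le_antisymm
  · have y0 : (MulAut.conj t).toMonoidHom x₀ ∈ Ω' := ⟨x₀, hx₀, rfl⟩
    generalize (MulAut.conj t).toMonoidHom x₀ = y₀ at y0
    rw [← h3, ← h3', ← ((h.act_inj (h1' y0) hx).mono h1').ncard_image]
    refine Set.ncard_le_ncard ?_
    rintro _ ⟨y, hy, rfl⟩
    exact ⟨⟨_, y₀ * y, ⟨mul_mem (Subgroup.subset_closure y0) (Subgroup.subset_closure hy),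
      h.mem _ (h1' y0) _ (h1' hy)⟩, rfl⟩, rfl⟩
  · have key : ∀ z ∈ MulAction.orbit (A.map (MulAut.conj : G →* MulAut G)) x, z ∈ B ∧ z ∈ P := by
      rintro _ ⟨⟨_, a, ha, rfl⟩, rfl⟩
      exact ⟨hB.conj_closure ha.2 x hx, mul_mem (mul_mem (hAP ha) hxP) (inv_mem (hAP ha))⟩
    exact ncard_le_width (fun z hz => (key z hz).1) fun a ha b hb =>
      tt_commute_of_mul_mem hB.tt (by norm_num) hP (key a ha).1 (key b hb).1
        (mul_mem (key a ha).2 (key b hb).2)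

theorem mem_of_max_width [Finite G] {E M : Set G} (h1 : M ⊆ E) (h2 : ∀ a ∈ M, ∀ b ∈ M, Commute a b)
    (h3 : M.ncard = commutingWidth E) {x : G} (hx : x ∈ E) (hc : ∀ a ∈ M, Commute x a) : x ∈ M := by
  by_contra hn
  have := ncard_le_width (D := E) (E := insert x M) (Set.insert_subset hx h1) (by
    rintro a (rfl | ha) b (rfl | hb)
    exacts [Commute.refl _, hc b hb, (hc a ha).symm, h2 a ha b hb])
  rw [Set.ncard_insert_of_notMem hn] at this
  omega

theorem k4_iso : ∀ α β γ : K4, α ^ 2 = α → β ^ 2 = β → α ≠ 0 →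
    ∃ c : K4, β + c * γ + (c ^ 2 * γ ^ 2 + c ^ 2 * (c * α)) = 0 := by decide +kernel

theorem width_isU [Finite G] {E : Set G} (hE : FS E) (h : IsU E 6) :
    ∃ j, 3 ≤ j ∧ 3 * commutingWidth E + 1 = 4 ^ j := by
  obtain ⟨V, _, _, _, B, hn, hB, p, hp⟩ := h
  obtain ⟨M, h1, h2, h3⟩ := exists_ncard_eq_width E
  have cm : ∀ v, v ≠ 0 ∧ B v v = 0 → ∀ w, w ≠ 0 ∧ B w w = 0 → (Commute (p v) (p w) ↔ B v w = 0) := by
    intro v hv w hw
    rw [hp.commute_iff hE hv hw]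
    refine ⟨fun ⟨c, _, e⟩ => ?_, fun e => ⟨1, one_ne_zero, by simp [e]⟩⟩
    have := congrArg (B w) e
    rw [map_add, H31.smul_right, H31.smul_right, hw.2, ← hB.symm v w, zero_add, mul_zero,
      mul_eq_zero, map_eq_zero s4, or_self] at this
    exact this
  let W : Submodule K4 V := Submodule.span K4 {v | (v ≠ 0 ∧ B v v = 0) ∧ p v ∈ M}
  have perpW : ∀ u, (∀ v, (v ≠ 0 ∧ B v v = 0) ∧ p v ∈ M → B v u = 0) → u ∈ H31.perp B W :=
    fun u hu x hx => by
      induction hx using Submodule.span_induction with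
      | mem x hx => exact hu x hx
      | zero => exact H31.zero_left B u
      | add x y _ _ a b => rw [H31.add_left, a, b, add_zero]
      | smul c x _ a => rw [H31.smul_left, a, mul_zero]
  have hW : W ≤ H31.perp B W := Submodule.span_le.2 fun u hu =>
    perpW u fun v hv => (cm v hv.1 u hu.1).1 (h2 _ hv.2 _ hu.2)
  have memM : ∀ u ∈ H31.perp B W, u ≠ 0 → B u u = 0 → p u ∈ M := fun u hu a b =>
    mem_of_max_width h1 h2 h3 (hp.mem u ⟨a, b⟩) fun x hx => by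
      obtain ⟨v, hv, rfl⟩ := hp.surj x (h1 hx)
      exact ((cm v hv u ⟨a, b⟩).2 (hu v (Submodule.subset_span ⟨hv, hx⟩))).symm
  have memW : ∀ u ∈ H31.perp B W, B u u = 0 → u ∈ W := fun u hu b => by
    by_cases a : u = 0
    · rw [a]; exact zero_mem _
    · exact Submodule.subset_span ⟨⟨a, b⟩, memM u hu a b⟩
  refine ⟨finrank K4 W, ?_, ?_⟩
  · by_contra hlt
    have hd := hB.finrank_add_finrank_perp W
    obtain ⟨a, ha, ha'⟩ := SetLike.exists_of_lt
      (Submodule.lt_of_le_of_finrank_lt_finrank hW (by omega))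
    have hle : W ⊔ Submodule.span K4 {a} ≤ H31.perp B W :=
      sup_le hW ((Submodule.span_singleton_le_iff_mem _ _).2 ha)
    have h4 := Submodule.finrank_add_le_finrank_add_finrank W (Submodule.span K4 {a})
    have h5 := finrank_span_le_card (R := K4) ({a} : Set V)
    rw [Set.toFinset_singleton, Finset.card_singleton] at h5
    obtain ⟨b, hb, hb'⟩ := SetLike.exists_of_lt
      (Submodule.lt_of_le_of_finrank_lt_finrank hle (by omega))
    obtain ⟨c, hc⟩ := k4_iso (B a a) (B b b) (B b a) (hB.symm a a) (hB.symm b b) fun e => ha' (memW a ha e)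
    have h6 : b + c • a ∈ W := memW _ (add_mem hb (Submodule.smul_mem _ c ha)) (by
      rw [H31.add_left, map_add, map_add, H31.smul_left, H31.smul_left, H31.smul_right, H31.smul_right,
        ← hB.symm b a]
      exact hc)
    apply hb'
    have := sub_mem (Submodule.mem_sup_left h6) (Submodule.mem_sup_right
      (S := W) (Submodule.smul_mem _ c (Submodule.mem_span_singleton_self a)))
    rwa [add_sub_cancel_right] at this
  · choose s hs using fun m : M => hp.surj m (h1 m.2)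
    have sW : ∀ m, s m ∈ W := fun m => Submodule.subset_span ⟨(hs m).1, (hs m).2 ▸ m.2⟩
    have sX : ∀ m (c : K4ˣ), (c : K4) • s m ≠ 0 ∧ B ((c : K4) • s m) ((c : K4) • s m) = 0 := fun m c =>
      ⟨smul_ne_zero c.ne_zero (hs m).1.1, by rw [H31.smul_left, H31.smul_right, (hs m).1.2]; simp⟩
    have sp : ∀ m (c : K4ˣ), p ((c : K4) • s m) = m := fun m c =>
      ((hp.eq_iff _ (sX m c) _ (hs m).1).2 ⟨c, c.ne_zero, rfl⟩).trans (hs m).2
    let φ : Option (K4ˣ × M) → W := fun o => o.elim 0 fun x => ⟨(x.1 : K4) • s x.2, W.smul_mem _ (sW _)⟩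
    have hφ : Function.Bijective φ := by
      constructor
      · rintro (_ | ⟨c, m⟩) (_ | ⟨c', m'⟩) e
        · rfl
        · exact absurd (congrArg Subtype.val e).symm (sX m' c').1
        · exact absurd (congrArg Subtype.val e) (sX m c).1
        · have e1 : (c : K4) • s m = (c' : K4) • s m' := congrArg Subtype.val e
          obtain rfl : m = m' := Subtype.ext (by rw [← sp m c, e1, sp])
          rw [Units.ext (smul_left_injective K4 (hs m).1.1 e1)]
      · rintro ⟨u, hu⟩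
        by_cases a : u = 0
        · exact ⟨none, Subtype.ext a.symm⟩
        have b := hW hu u hu
        obtain ⟨c, hc, e⟩ := (hp.eq_iff u ⟨a, b⟩ _ (hs ⟨_, memM u (hW hu) a b⟩).1).1
          (hs ⟨_, memM u (hW hu) a b⟩).2.symm
        exact ⟨some (Units.mk0 c hc, _), Subtype.ext e.symm⟩
    have h4 : Nat.card K4 = 4 := by rw [Nat.card_eq_fintype_card, card_K4]
    have := Nat.card_eq_of_bijective φ hφ
    rwa [Finite.card_option, Nat.card_prod, Nat.card_units,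
      Module.natCard_eq_pow_finrank (K := K4) (V := W), h4, Nat.card_coe_set_eq, h3] at this

theorem width_Dx [Finite G] {E : Set G} (hne : E.Nonempty) :
    ∃ d ∈ E, commutingWidth E = commutingWidth (Dx E d) + 1 := by
  obtain ⟨M, h1, h2, h3⟩ := exists_ncard_eq_width E
  obtain ⟨d, hd⟩ : M.Nonempty := by
    obtain ⟨x, hx⟩ := hne
    have := ncard_le_width (D := E) (E := {x}) (by simpa) (by simp)
    rw [Set.ncard_singleton, ← h3] at this
    exact Set.nonempty_of_ncard_ne_zero (by omega)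
  refine ⟨d, h1 hd, le_antisymm ?_ ?_⟩
  · have := ncard_le_width (D := Dx E d) (E := M \ {d}) (fun x hx => ⟨h1 hx.1, hx.2, h2 _ hd _ hx.1⟩)
      fun a ha b hb => h2 a ha.1 b hb.1
    have h4 := Set.ncard_sdiff_singleton_add_one hd
    omega
  · obtain ⟨N, a, b, c⟩ := exists_ncard_eq_width (Dx E d)
    rw [← c, ← Set.ncard_insert_of_notMem (a := d) fun e => (a e).2.1 rfl]
    refine ncard_le_width (Set.insert_subset (h1 hd) fun x hx => (a hx).1) ?_
    rintro x (rfl | hx) y (rfl | hy)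
    exacts [Commute.refl _, (a hy).2.2, (a hx).2.2.symm, b x hx y hy]

theorem width_tw [Finite G] : ∀ (k : ℕ) {E : Set G}, Tw k E →
    ∃ j, 3 ≤ j ∧ 3 * commutingWidth E + 1 = 4 ^ j + 3 * k
  | 0, _, h => width_isU h.1.fs h.2
  | k + 1, _, h => by
    obtain ⟨x, hx, -⟩ := h.1.two
    obtain ⟨d, hd, e⟩ := width_Dx ⟨x, hx⟩
    obtain ⟨j, a, b⟩ := width_tw k (h.2 d hd)
    exact ⟨j, a, by omega⟩

theorem TC.not_tw [Finite G] {D B B' : Set G} (h : TC D B B') {k : ℕ} (h1 : k ≤ 3) : ¬ Tw k B := fun t => by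
  obtain ⟨j, a, b⟩ := width_tw k t
  obtain ⟨i, c⟩ := h.width_pow
  obtain ⟨j, rfl⟩ : ∃ l, j = l + 3 := ⟨j - 3, by omega⟩
  rw [c, pow_add] at b
  rcases Nat.lt_or_ge i 6 with e | e
  · interval_cases i <;> omega
  · obtain ⟨i, rfl⟩ : ∃ l, i = l + 6 := ⟨i - 6, by omega⟩
    rw [pow_add] at b
    omega

end Cfsg.Agent.H47
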