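import Mathlib
import Cfsg.Agent.H47.TriCfg
import Cfsg.Agent.H47.Hurwitz

/-! An orthogonal block of a disconnected class of 3-transpositions carries a composition. -/

set_option autoImplicit false

namespace Cfsg.Agent.H47

open Cfsg H50 Module QuadraticMap

variable {G : Type*} [Group G]

/-- the non-commuting graph of a class has diameter at most two -/
theorem cl_diam {E : Set G} (h : CL E) {x x' y : G} (hx' : x' ∈ E) (c : ¬ Commute x x')
    (hy : y ∈ E) : ¬ Commute x y ∨ ∃ z ∈ E, ¬ Commute x z ∧ ¬ Commute y z := by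
  refine NConn.induct (S := {y | ¬ Commute x y ∨ ∃ z ∈ E, ¬ Commute x z ∧ ¬ Commute y z}) ?_
    (Or.inl c) (h.nconn x' hx' y hy)
  rintro a (ha | ⟨z, hz, h1, h2⟩) b hb haE hab
  · exact Or.inr ⟨a, haE, ha, fun c => hab c.symm⟩
  by_cases e1 : Commute x a
  · by_cases e2 : Commute b z
    · refine Or.inr ⟨z * a * z, h.fs.conj _ hz _ haE, fun c => h1 ?_, fun c => hab ?_⟩
      · exact h.fs.commute_of_conj' hz haE (fun c => h2 c.symm) e1 c
      · exact (h.fs.commute_of_conj hz e2 c).symm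
    · exact Or.inr ⟨z, hz, h1, e2⟩
  · exact Or.inr ⟨a, haE, e1, fun c => hab c.symm⟩

variable {F V : Type*} [Field F] [AddCommGroup V] [Module F V]

theorem nd_dual [FiniteDimensional F V] {Q : QuadraticForm F V} (hQ : H79.ND Q) {S : Submodule F V} {z : V}
    (hz : z ∉ S) : ∃ w, (∀ s ∈ S, polar Q s w = 0) ∧ polar Q z w ≠ 0 := by
  by_contra hn
  push Not at hn
  apply hz
  rw [← LinearMap.BilinForm.orthogonal_orthogonal ((H79.nd_iff Q).2 hQ)
    (fun x y e => by simpa [polar_comm] using e) S]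
  intro w hw
  have := hn w fun s hs => by simpa using hw s hs
  simpa [polar_comm] using this

/-- an orthogonal model over the field with two or three elements -/
structure QM (E : Set G) (Q : QuadraticForm F V) (p : V → G) : Prop where
  pm : ∀ a : F, a ≠ 0 → a = 1 ∨ a = -1
  rp : RP E
  nd : H79.ND Q
  par : Param E {v | Q v = 1} (fun v w => w - polar Q v w • v) (fun v w => v = w ∨ v = -w) p

theorem map_refl_one (Q : QuadraticForm F V) {v : V} (hv : Q v = 1) (w : V) : Q (w - polar Q v w • v) = Q w := by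
  rw [sub_eq_add_neg, ← neg_smul, H79.map_add', H79.map_smul', polar_smul_right, hv, polar_comm Q w v,
    smul_eq_mul]
  ring

namespace QM

variable {E : Set G} {Q : QuadraticForm F V} {p : V → G}

theorem sq (h : QM E Q p) {a : F} (ha : a ≠ 0) : a * a = 1 := by
  rcases h.pm a ha with rfl | rfl <;> simp

theorem ne_zero {v : V} (hv : Q v = 1) : v ≠ 0 := by rintro rfl; simp at hv

theorem smul_eq (h : QM E Q p) {v : V} (hv : Q v = 1) {a : F} (ha : a ≠ 0) :
    Q (a • v) = 1 ∧ p (a • v) = p v := by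
  have : Q (a • v) = 1 := by rw [H79.map_smul', hv, pow_two, h.sq ha, one_mul]
  refine ⟨this, (h.par.eq_iff _ this _ hv).2 ?_⟩
  rcases h.pm a ha with rfl | rfl <;> simp

theorem eq_smul (h : QM E Q p) {v w : V} (hv : Q v = 1) (hw : Q w = 1) (e : p v = p w) :
    ∃ a : F, a * a = 1 ∧ v = a • w := by
  rcases (h.par.eq_iff _ hv _ hw).1 e with e | e
  exacts [⟨1, by simp, by simpa⟩, ⟨-1, by simp, by simpa⟩]

theorem comm_of (h : QM E Q p) {v w : V} (hv : Q v = 1) (hw : Q w = 1) (e : polar Q v w = 0) :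
    Commute (p v) (p w) := (h.par.commute_iff h.rp.fs hv hw).2 (Or.inl (by simp [e]))

theorem not_smul (h : QM E Q p) {v w : V} (hv : Q v = 1) (hw : Q w = 1) (hne : p w ≠ p v) (a : F) :
    w ≠ a • v := by
  rintro rfl
  exact hne (h.smul_eq hv (by rintro rfl; simp at hw)).2

theorem orth (h : QM E Q p) {v w : V} (hv : Q v = 1) (hw : Q w = 1) (c : Commute (p v) (p w))
    (hne : p w ≠ p v) : polar Q v w = 0 := by
  by_contra h0
  rcases (h.par.commute_iff h.rp.fs hv hw).1 c with e | e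
  · exact smul_ne_zero h0 (ne_zero hv) (by simpa using e)
  · have e2 : polar Q v w • v = (2 : F) • w := by
      rw [two_smul, ← sub_eq_zero, ← neg_eq_zero, ← sub_eq_zero.2 e]; abel
    apply h.not_smul hw hv hne.symm (polar Q v w * 2)
    rw [mul_smul, ← e2, smul_smul, h.sq h0, one_smul]

theorem lift (h : QM E Q p) {g : G} (hg : g ∈ Subgroup.closure E) : ∃ T : V →ₗ[F] V,
    (∀ v, Q (T v) = Q v) ∧ ∀ v, Q v = 1 → g * p v * g⁻¹ = p (T v) := by
  obtain ⟨φ, ⟨T, rfl, hT⟩, h2⟩ := param_lift h.rp.fs h.par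
    (P := fun φ => ∃ T : V →ₗ[F] V, ⇑T = φ ∧ ∀ v, Q (T v) = Q v) ⟨LinearMap.id, rfl, fun _ => rfl⟩
    (by rintro u hu _ ⟨T, rfl, hT⟩
        exact ⟨(LinearMap.id - (polarBilin Q u).smulRight u) ∘ₗ T, rfl,
          fun v => (map_refl_one Q hu _).trans (hT v)⟩) hg
  exact ⟨T, hT, fun v hv => (h2 v hv).2⟩

theorem sign (h : QM E Q p) {T T' : V →ₗ[F] V} (hT : ∀ v, Q (T v) = Q v) (hT' : ∀ v, Q (T' v) = Q v)
    (e : ∀ v, Q v = 1 → p (T v) = p (T' v)) : ∃ a : F, a * a = 1 ∧ ∀ v, Q v = 1 → T v = a • T' v := by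
  obtain ⟨x, hx, -⟩ := h.rp.two
  obtain ⟨v₀, hv₀, rfl⟩ := h.par.surj x hx
  have e' : ∀ v, Q v = 1 → ∃ a : F, a * a = 1 ∧ T v = a • T' v := fun v hv =>
    h.eq_smul ((hT v).trans hv) ((hT' v).trans hv) (e v hv)
  obtain ⟨a, ha, h0⟩ := e' v₀ hv₀
  refine ⟨a, ha, fun v hv => ?_⟩
  refine NConn.induct (S := {x | ∀ v, Q v = 1 → p v = x → T v = a • T' v}) ?_ ?_
    (h.rp.nconn _ hx _ (h.par.mem v hv)) v hv rfl
  · rintro x hx _ - hxE c w hw rfl
    obtain ⟨u, hu, rfl⟩ := h.par.surj x hxE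
    obtain ⟨b, hb, h1⟩ := e' w hw
    have h2 := H79.polar_of_isometry T hT u w
    rw [hx u hu rfl, h1, polar_smul_left, polar_smul_right, H79.polar_of_isometry T' hT', smul_smul,
      smul_eq_mul, mul_eq_right₀ fun e => c (h.comm_of hu hw e)] at h2
    rw [h1, show b = a by linear_combination a * h2 - b * ha]
  · intro w hw e
    obtain ⟨b, -, rfl⟩ := h.eq_smul hw hv₀ e
    rw [map_smul, map_smul, h0, smul_comm]

variable [Finite G] [FiniteDimensional F V]

theorem eq_zero (h : QM E Q p) {t : V} (ht : ∀ v, Q v = 1 → polar Q t v = 0) : t = 0 := by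
  by_contra h0
  have key : ∀ w, polar Q t w ≠ 0 → ∀ v, Q v = 1 → (polar Q v w = 0 ↔ Q w ≠ 0) := by
    intro w hw v hv
    have h1 : ∀ a : F, Q w + a ^ 2 + a * polar Q v w ≠ 1 := fun a e => hw (by
      have := ht (w + a • v) (by
        rw [H79.map_add', H79.map_smul', polar_smul_right, hv, polar_comm Q w, mul_one]; exact e)
      rwa [polar_add_right, polar_smul_right, ht v hv, smul_zero, add_zero] at this)
    refine ⟨fun e e' => h1 1 (by rw [e, e']; ring), fun e => ?_⟩
    by_contra e'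
    have h2 := h.sq e
    have h3 := h.sq e'
    exact h1 (-Q w * polar Q v w) (by
      linear_combination (polar Q v w * polar Q v w) * h2 + (1 - Q w) * h3)
  obtain ⟨x, hx, -⟩ := h.rp.two
  obtain ⟨y, hy, c⟩ := h.rp.exists_not_commute' hx
  obtain ⟨v₁, h1, rfl⟩ := h.par.surj x hx
  obtain ⟨v₂, h2, rfl⟩ := h.par.surj y hy
  have h3 : polar Q v₁ v₂ ≠ 0 := fun e => c (h.comm_of h1 h2 e)
  obtain ⟨w₁, a1, b1⟩ := nd_dual h.nd (S := Submodule.span F {v₁}) (z := t) (fun e => by
    obtain ⟨a, rfl⟩ := Submodule.mem_span_singleton.1 e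
    have := ht v₂ h2
    rw [polar_smul_left, smul_eq_mul, mul_eq_zero, or_iff_left h3] at this
    exact h0 (by rw [this, zero_smul]))
  obtain ⟨w₂, a2, b2⟩ := nd_dual h.nd (S := Submodule.span F {v₁}) (z := v₂) (fun e => by
    obtain ⟨a, e⟩ := Submodule.mem_span_singleton.1 e
    exact h.not_smul h1 h2 (fun e => c (e ▸ Commute.refl _)) a e.symm)
  replace a1 := a1 _ (Submodule.mem_span_singleton_self _)
  replace a2 := a2 _ (Submodule.mem_span_singleton_self _)
  have fin : ∀ w, polar Q v₁ w = 0 → polar Q t w ≠ 0 → polar Q v₂ w = 0 := fun w a b =>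
    (key w b v₂ h2).2 ((key w b v₁ h1).1 a)
  by_cases e : polar Q t w₂ = 0
  · have := fin (w₁ + w₂) (by rw [polar_add_right, a1, a2, add_zero]) (by rwa [polar_add_right, e, add_zero])
    rw [polar_add_right, fin w₁ a1 b1, zero_add] at this
    exact b2 this
  · exact b2 (fin w₂ a2 e)

theorem span_top (h : QM E Q p) : Submodule.span F {v | Q v = 1} = ⊤ := by
  refine eq_top_iff.2 fun z _ => ?_
  by_contra hz
  obtain ⟨w, a, b⟩ := nd_dual h.nd hz
  rw [h.eq_zero (t := w) fun v hv => (polar_comm Q w v).trans (a v (Submodule.subset_span hv))] at b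
  simp at b

theorem induct (h : QM E Q p) {P : V → Prop} (h1 : ∀ v, Q v = 1 → P v) (h0 : P 0)
    (h2 : ∀ v w, P v → P w → P (v + w)) (h3 : ∀ (a : F) v, P v → P (a • v)) (v : V) : P v := by
  have hv : v ∈ Submodule.span F {v | Q v = 1} := h.span_top ▸ trivial
  induction hv using Submodule.span_induction with
  | mem x hx => exact h1 x hx
  | zero => exact h0
  | add x y _ _ a b => exact h2 x y a b
  | smul c x _ a => exact h3 c x a

/-- a quadratic form that vanishes on the points vanishes -/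
theorem quad_eq_zero (h : QM E Q p) {q : QuadraticForm F V} (hq : ∀ v, Q v = 1 → q v = 0) (v : V) :
    q v = 0 := by
  have h1 : ∀ v w, Q v = 1 → Q w = 1 → polar q w (polar Q v w • v) = 0 := fun v w hv hw => by
    have := hq _ ((map_refl_one Q hv w).trans hw)
    rwa [sub_eq_add_neg, H79.map_add', QuadraticMap.map_neg, H79.map_smul', hq v hv, hq w hw, mul_zero,
      zero_add, zero_add, polar_neg_right, neg_eq_zero] at this
  have h2 : ∀ v w, Q v = 1 → Q w = 1 → polar Q v w ≠ 0 → polar q w v = 0 := fun v w hv hw e => by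
    simpa [e] using h1 v w hv hw
  have h3 : ∀ v w, Q v = 1 → Q w = 1 → polar q w v = 0 := fun v w hv hw => by
    by_cases e : polar Q v w = 0
    swap
    · exact h2 v w hv hw e
    obtain ⟨x, hx, c⟩ := h.rp.exists_not_commute' (h.par.mem w hw)
    rcases cl_diam h.rp.toCL hx c (h.par.mem v hv) with c' | ⟨z, hz, c1, c2⟩
    · exact absurd (h.comm_of hv hw e).symm c'
    obtain ⟨u, hu, rfl⟩ := h.par.surj z hz
    have a1 : polar Q u w ≠ 0 := fun e => c1 (h.comm_of hu hw e).symm
    have a2 : polar Q v u ≠ 0 := fun e => c2 (h.comm_of hv hu e)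
    have := h2 (u - polar Q v u • v) w ((map_refl_one Q hv u).trans hu) hw (by
      rwa [polar_sub_left, polar_smul_left, e, smul_zero, sub_zero])
    rw [polar_sub_right, h2 u w hu hw a1, polar_smul_right] at this
    simpa [a2] using this
  have h4 : ∀ v w, polar q w v = 0 := fun v w => by
    induction v using h.induct with
    | h1 v hv =>
      induction w using h.induct with
      | h1 w hw => exact h3 v w hv hw
      | h0 => simp
      | h2 _ _ a b => simp [a, b]
      | h3 _ _ a => simp [a]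
    | h0 => simp
    | h2 _ _ a b => simp [a, b]
    | h3 _ _ a => simp [a]
  induction v using h.induct with
  | h1 v hv => exact hq v hv
  | h0 => simp
  | h2 _ _ a b => rw [H79.map_add', a, b, h4]; simp
  | h3 _ _ a => rw [H79.map_smul', a, mul_zero]

theorem polar_const (h : QM E Q p) {T T' : V →ₗ[F] V} {c : F} (e : ∀ v, Q v = 1 → polar Q (T v) (T' v) = c)
    (v : V) : polar Q (T v) (T' v) = c * Q v := by
  have := h.quad_eq_zero (q := LinearMap.BilinMap.toQuadraticMap ((polarBilin Q).compl₁₂ T T') - c • Q)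
    (fun v hv => by simp [e v hv, hv]) v
  simpa [sub_eq_zero] using this

end QM

namespace TC

variable {D B B' : Set G} {Q : QuadraticForm F V} {p : V → G}

theorem lift_const (h : TC D B B') (m : QM B Q p) {y y' : G} (hy : y ∈ B') (hy' : y' ∈ B') {S : V →ₗ[F] V}
    (hS : ∀ v, Q (S v) = Q v) (e : ∀ v, Q v = 1 → (y * y') * p v * (y * y')⁻¹ = p (S v)) :
    ∃ c, ∀ v, Q v = 1 → polar Q v (S v) = c := by
  have hS1 : ∀ {v}, Q v = 1 → Q (S v) = 1 := fun hv => (hS _).trans hv
  by_cases c : Commute y y'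
  · by_cases hne : y = y'
    · subst hne
      obtain ⟨a, -, ha⟩ := m.sign (T' := LinearMap.id) hS (fun _ => rfl) fun v hv => by
        rw [← e v hv, h.fs.sq _ (h.sub' hy)]; simp
      exact ⟨a * 2, fun v hv => by simp [ha v hv, hv]⟩
    · refine ⟨0, fun v hv => ?_⟩
      have := h.sigma hy hy' c hne (m.par.mem v hv)
      rw [e v hv] at this
      exact m.orth hv (hS1 hv) this.1 this.2
  · obtain ⟨a, -, ha⟩ := m.sign (T := S ∘ₗ S ∘ₗ S) (T' := LinearMap.id) (fun v => by simp [hS])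
      (fun _ => rfl) fun v hv => by
        have h3 := tt_cube h.fs.tt (h.sub' hy) (h.sub' hy') c
        simp only [LinearMap.comp_apply, LinearMap.id_apply]
        rw [← e _ (hS1 (hS1 hv)), ← e _ (hS1 hv), ← e _ hv]
        generalize y * y' = g at h3
        calc _ = g ^ 3 * p v * (g ^ 3)⁻¹ := by rw [pow_three]; group
          _ = _ := by rw [h3]; simp
    refine ⟨-a, fun v hv => ?_⟩
    obtain ⟨h1, h2⟩ := h.tau hy hy' c (m.par.mem v hv)
    rw [e v hv] at h1 h2
    rw [e _ (hS1 hv), m.par.conj v hv _ (hS1 hv)] at h2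
    obtain ⟨d, hd, h3⟩ := m.eq_smul (hS1 (hS1 hv)) ((map_refl_one Q hv _).trans (hS1 hv)) h2.symm
    have h4 := ha v hv
    simp only [LinearMap.comp_apply, LinearMap.id_apply] at h4
    rw [h3, map_smul, map_sub, map_smul, h3] at h4
    generalize polar Q v (S v) = β at *
    have h5 : (1 - d * β) • S v = (β + a) • v := by
      linear_combination (norm := module) h4 - hd • S v + hd • β • v
    by_cases e0 : 1 - d * β = 0
    · rw [e0, zero_smul, eq_comm, smul_eq_zero, or_iff_left (QM.ne_zero hv)] at h5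
      linear_combination h5
    · exact absurd (by rw [mul_smul, ← h5, smul_smul, inv_mul_cancel₀ e0, one_smul])
        (m.not_smul hv (hS1 hv) (fun e => h1 (e ▸ Commute.refl _)) ((1 - d * β)⁻¹ * (β + a)))

theorem exists_comp [Finite G] [FiniteDimensional F V] (h : TC D B B') (m : QM B Q p) :
    ∃ T : V →ₗ[F] V →ₗ[F] V, ∀ u v, Q (T u v) = Q u * Q v := by
  obtain ⟨y₀, hy₀, -⟩ := h.rp'.two
  obtain ⟨x, hx, -⟩ := h.rp.two
  obtain ⟨v₀, hv₀, rfl⟩ := m.par.surj x hx
  let N : Set (V →ₗ[F] V) := {T | (∀ v, Q (T v) = Q v) ∧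
    ∃ y ∈ B', ∀ v, Q v = 1 → (y₀ * y) * p v * (y₀ * y)⁻¹ = p (T v)}
  have k1 : ∀ T ∈ N, ∀ T' ∈ N, ∀ v, polar Q (T v) (T' v) = polar Q (T v₀) (T' v₀) * Q v := by
    rintro T ⟨hT, y, hy, e⟩ T' ⟨hT', y', hy', e'⟩
    obtain ⟨S, hS, eS⟩ := m.lift (h.mem y hy y' hy')
    obtain ⟨c, hc⟩ := h.lift_const m hy hy' hS eS
    obtain ⟨a, -, ha⟩ := m.sign (T := T') (T' := T ∘ₗ S) hT' (fun v => by simp [hS, hT]) fun v hv => by
      rw [LinearMap.comp_apply, ← e _ ((hS v).trans hv), ← eS v hv, ← e' v hv]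
      calc _ = y₀ * (y * y) * y' * p v * (y₀ * (y * y) * y')⁻¹ := by rw [h.fs.sq _ (h.sub' hy), mul_one]
        _ = _ := by group
    have : ∀ v, Q v = 1 → polar Q (T v) (T' v) = a * c := fun v hv => by
      rw [ha v hv, polar_smul_right, LinearMap.comp_apply, H79.polar_of_isometry T hT, hc v hv, smul_eq_mul]
    rw [this v₀ hv₀]
    exact m.polar_const this
  have k2 : ∀ T ∈ Submodule.span F N, ∀ T' ∈ Submodule.span F N, ∀ v,
      polar Q (T v) (T' v) = polar Q (T v₀) (T' v₀) * Q v := fun T hT T' hT' v => by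
    induction hT, hT' using Submodule.span_induction₂ with
    | mem_mem T T' a b => exact k1 T a T' b v
    | zero_left => simp
    | zero_right => simp
    | add_left _ _ _ _ _ _ a b => simp [a, b, add_mul]
    | add_right _ _ _ _ _ _ a b => simp [a, b, add_mul]
    | smul_left _ _ _ _ _ a => simp [a, mul_assoc]
    | smul_right _ _ _ _ _ a => simp [a, mul_assoc]
  have k3 : ∀ T ∈ Submodule.span F N, ∀ v, Q (T v) = Q (T v₀) * Q v := fun T hT v => by
    induction hT using Submodule.span_induction with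
    | mem T a => rw [a.1, a.1, hv₀, one_mul]
    | zero => simp
    | add _ _ a b c d => simp only [LinearMap.add_apply, H79.map_add', c, d, k2 _ a _ b v]; ring
    | smul _ _ _ a => simp only [LinearMap.smul_apply, H79.map_smul', a, mul_assoc]
  have k4 : ∀ v, Q v = 1 → ∀ u, Q u = 1 → ∃ T ∈ Submodule.span F N, T v = u := fun v hv u hu => by
    obtain ⟨y, hy, e⟩ := h.act_surj hy₀ (m.par.mem v hv) (m.par.mem u hu)
    obtain ⟨T, hT, eT⟩ := m.lift (h.mem y₀ hy₀ y hy)
    obtain ⟨a, -, ha⟩ := m.eq_smul hu ((hT v).trans hv) (e.symm.trans (eT v hv))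
    exact ⟨a • T, Submodule.smul_mem _ _ (Submodule.subset_span ⟨hT, y, hy, eT⟩), ha.symm⟩
  let ev : Submodule.span F N →ₗ[F] V := (LinearMap.applyₗ v₀) ∘ₗ (Submodule.span F N).subtype
  have hev : Function.Bijective ev := by
    refine ⟨(injective_iff_map_eq_zero _).2 fun T hT => Subtype.ext (LinearMap.ext fun v => ?_), fun u => ?_⟩
    · change T.1 v₀ = 0 at hT
      induction v using m.induct with
      | h1 v hv =>
        refine m.eq_zero fun u hu => ?_
        obtain ⟨T', a, rfl⟩ := k4 v hv u hu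
        rw [k2 _ T.2 _ a, hT]; simp
      | h0 => simp
      | h2 _ _ a b => simp [a, b]
      | h3 _ _ a => simp [a]
    · induction u using m.induct with
      | h1 u hu => obtain ⟨T, a, b⟩ := k4 v₀ hv₀ u hu; exact ⟨⟨T, a⟩, b⟩
      | h0 => exact ⟨0, map_zero _⟩
      | h2 _ _ a b => obtain ⟨T, rfl⟩ := a; obtain ⟨T', rfl⟩ := b; exact ⟨T + T', map_add _ _ _⟩
      | h3 c _ a => obtain ⟨T, rfl⟩ := a; exact ⟨c • T, map_smul _ _ _⟩
  let A := LinearEquiv.ofBijective ev hev
  refine ⟨(Submodule.span F N).subtype ∘ₗ A.symm.toLinearMap, fun u v => ?_⟩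
  exact (k3 _ (A.symm u).2 v).trans (congrArg (fun z => Q z * Q v) (A.apply_symm_apply u))

theorem iso_plus [Finite G] [Finite F] [FiniteDimensional F V] (h : TC D B B') (m : QM B Q p)
    (hn : 5 ≤ finrank F V) : H79.Iso (F := F) Q (quadFormPlus 4 F) :=
  let ⟨_, hT⟩ := h.exists_comp m; hurwitz m.nd hn hT

end TC

end Cfsg.Agent.H47
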