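import Mathlib
import Cfsg.Agent.H47.TriQ
import Cfsg.Agent.H84.FiConv
import Cfsg.Agent.H99.FiRefl
import Cfsg.Agent.H28.OutEight
import Cfsg.Agent.H42.Auts

/-! Classes of 3-transpositions with disconnected commuting graph. -/

set_option autoImplicit false

namespace Cfsg.Agent.H47

open Cfsg H50 Module QuadraticMap
open scoped commutatorElement

universe u

variable {G : Type*} [Group G]

/-- a connected component of the commuting graph -/
def blk (D : Set G) (x : G) : Set G := {y | y ∈ D ∧ CConn D x y}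

/-- a centre free group generated by a class of 3-transpositions with a component -/
structure TS (D : Set G) (L : Subgroup G) : Prop where
  cls : IsThreeTranspositionClass D
  two : ∃ a ∈ D, ∃ b ∈ D, a ≠ b
  hZ : Subgroup.center G = ⊥
  comp : IsComponent L

namespace TS

variable [Finite G] {D : Set G} {L : Subgroup G}

omit [Finite G] in
theorem fs (h : TS D L) : FS D := FS.of_class h.cls

theorem normal (h : TS D L) : L.Normal := component_normal (class_group h.cls) h.comp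

omit [Finite G] in
theorem ne_bot (h : TS D L) : L ≠ ⊥ := by
  rintro rfl
  have := h.comp.2.2.toNontrivial
  exact not_subsingleton _ (QuotientGroup.mk_surjective (s := Subgroup.center (⊥ : Subgroup G))).subsingleton

theorem cent (h : TS D L) {g : G} (hg : ∀ l ∈ L, Commute g l) : g = 1 := by
  have := h.normal
  by_cases e : Subgroup.centralizer (L : Set G) ≤ Subgroup.center G
  · have : g ∈ Subgroup.center G := e fun l hl => (hg l hl).symm
    rwa [h.hZ] at this
  · have h1 := component_le_of_not_le_center h.cls h.two h.comp e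
    exact absurd ((H52.IsComponent.commutator_self h.comp).symm.trans
      (Subgroup.commutator_eq_bot_iff_le_centralizer.2 h1)) h.ne_bot

theorem center_eq (h : TS D L) {H : Subgroup G} (hH : L ≤ H) : Subgroup.center H = ⊥ :=
  eq_bot_iff.2 fun _ hz => Subtype.ext (h.cent fun l hl =>
    congrArg Subtype.val (Subgroup.mem_center_iff.1 hz ⟨l, hH hl⟩).symm)

theorem simple (h : TS D L) : IsSimpleGroup L :=
  have := h.comp.2.2
  ((QuotientGroup.quotientMulEquivOfEq (h.center_eq le_rfl)).trans QuotientGroup.quotientBot).symm.isSimpleGroup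

theorem fix (h : TS D L) {l x : G} (hl : l ∈ L) (hx : x ∈ D) : CConn D (l * x * l⁻¹) x := by
  have hr := invEq_cconn (class_conj h.cls)
  have := relKer_normal D _ (class_conj h.cls) hr.refl hr.symm hr.trans hr.conj
  obtain ⟨k, -, h1, h2⟩ := (component_orbit h.cls h.comp hx).2
  have hk := class_conj h.cls k x hx
  exact component_le_of_not_le_center h.cls h.two h.comp
    (N := relKer D _ (class_conj h.cls) hr.refl hr.symm hr.trans) (fun e => h2 (eq_of_mul_mem_center
      h.cls h.two hx hk (e (hr.mul_mem_relKer h.fs (class_conj h.cls) hx hk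
        (Relation.ReflTransGen.single ⟨hx, hk, h1⟩))))) hl x hx

theorem mul_mem (h : TS D L) {x a b : G} (ha : a ∈ blk D x) (hb : b ∈ blk D x) : a * b ∈ L := by
  refine CConn.induct (S := {b | a * b ∈ L}) (fun y hy z hz hy' c => ?_) ?_
    (Relation.ReflTransGen.trans ha.2.symm hb.2)
  · exact mul_mem_trans (h.fs.sq _ hy') hy (mul_mem_component_of_commute h.cls h.comp hy' hz c)
  · change a * a ∈ L
    rw [h.fs.sq _ ha.1]; exact one_mem _

theorem conj_blk (h : TS D L) {x a l : G} (hl : l ∈ L) (ha : a ∈ blk D x) : l * a * l⁻¹ ∈ blk D x :=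
  ⟨class_conj h.cls l a ha.1, Relation.ReflTransGen.trans ha.2 (h.fix hl ha.1).symm⟩

theorem fs_blk (h : TS D L) (x : G) : FS (blk D x) :=
  h.fs.mono (fun _ e => e.1) fun a ha b hb => by
    have := h.conj_blk (h.mul_mem ha hb) hb
    rwa [mul_inv_rev, ← mul_assoc, mul_inv_cancel_right, inv_eq_of_mul_self (h.fs.sq _ ha.1)] at this

theorem le_closure (h : TS D L) {x : G} {S : Set G} (hS : S ⊆ blk D x)
    (h1 : ∀ l ∈ L, ∀ a ∈ S, l * a * l⁻¹ ∈ S) {a b : G} (ha : a ∈ S) (hb : b ∈ S) (hab : a ≠ b) :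
    L ≤ Subgroup.closure S := by
  have := h.simple
  have hn : ((Subgroup.closure S).subgroupOf L).Normal := ⟨fun n hn l => by
    rw [Subgroup.mem_subgroupOf] at hn ⊢
    change (MulAut.conj (l : G)).toMonoidHom n ∈ _
    refine (Subgroup.closure_le (K := (Subgroup.closure S).comap (MulAut.conj (l : G)).toMonoidHom)).2
      (fun s hs => ?_) hn
    exact Subgroup.subset_closure (h1 l l.2 s hs)⟩
  rcases hn.eq_bot_or_eq_top with e | e
  · have : (⟨a * b, h.mul_mem (hS ha) (hS hb)⟩ : L) ∈ (Subgroup.closure S).subgroupOf L :=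
      Subgroup.mul_mem _ (Subgroup.subset_closure ha) (Subgroup.subset_closure hb)
    rw [e] at this
    exact absurd (congrArg Subtype.val this) (tt_mul_ne_one h.fs.tt (hS hb).1 hab)
  · exact Subgroup.subgroupOf_eq_top.1 e

theorem two_blk (h : TS D L) {x : G} (hx : x ∈ D) : ∃ a ∈ blk D x, ∃ b ∈ blk D x, a ≠ b := by
  obtain ⟨k, hk, -, h2⟩ := (component_orbit h.cls h.comp hx).2
  have : x ∈ blk D x := ⟨hx, Relation.ReflTransGen.refl⟩
  exact ⟨x, this, _, h.conj_blk hk this, h2⟩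

theorem le_blk (h : TS D L) {x : G} (hx : x ∈ D) : L ≤ Subgroup.closure (blk D x) :=
  let ⟨_, ha, _, hb, hab⟩ := h.two_blk hx
  h.le_closure subset_rfl (fun _ hl _ => h.conj_blk hl) ha hb hab

theorem cl_blk (h : TS D L) {x : G} (hx : x ∈ D) : CL (blk D x) := by
  refine ⟨h.fs_blk x, fun a ha b hb => ?_⟩
  have key : ∀ {S : Set G}, L ≤ Subgroup.closure S → ∀ c ∈ blk D x, ∃ s ∈ S, ¬ Commute c s := by
    intro S hS c hc
    by_contra hn
    push Not at hn
    exact h.fs.ne_one c hc.1 (h.cent fun l hl => commute_closure hn (hS hl))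
  obtain ⟨a', ha', c⟩ := key (h.le_blk hx) a ha
  obtain ⟨s, hs, c'⟩ := key (h.le_closure (S := {b | NConn (blk D x) a b}) (fun _ e => NConn.mem ha e)
    (fun l hl s hs => NConn.trans hs (NConn.of_conj (h.fs_blk x) (h.le_blk hx hl) (NConn.mem ha hs)))
    (NConn.refl a) (NConn.single ha ha' c) (fun e => c (e ▸ Commute.refl _))) b hb
  exact NConn.trans hs (NConn.single (NConn.mem ha hs) hb fun e => c' e.symm)

theorem prim_blk (h : TS D L) {x : G} (hx : x ∈ D) : Prim (sub (blk D x)) ∧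
    L.subgroupOf (Subgroup.closure (blk D x)) = commutator (Subgroup.closure (blk D x)) := by
  have := h.normal
  have m : x ∈ blk D x := ⟨hx, Relation.ReflTransGen.refl⟩
  have hc := (h.cl_blk hx).cls ⟨x, m⟩
  have hL : IsComponent (L.subgroupOf (Subgroup.closure (blk D x))) :=
    ⟨Subgroup.Normal.isSubnormal inferInstance, H52.IsQuasisimple.of_mulEquiv h.comp.2
      (Subgroup.subgroupOfEquivOfLe (h.le_blk hx)).symm⟩
  obtain ⟨a, ha, b, hb, hab⟩ := h.two_blk hx
  have hP := Prim.of_component hc ⟨⟨a, Subgroup.subset_closure ha⟩, ha, ⟨b, Subgroup.subset_closure hb⟩, hb,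
    fun e => hab (congrArg Subtype.val e)⟩ hL (index_le_two_of_sup
      (d := ⟨x, Subgroup.subset_closure m⟩) ((h.fs_blk x).sub.sq _ m)
      (zpowers_sup_eq_top (h.fs_blk x).sub (closure_sub _) m fun a ha => h.mul_mem m ha))
  obtain ⟨K, hK, -, -, -, e, -⟩ := hP.exists_component
  exact ⟨hP, (component_unique hc hL hK).trans e⟩

theorem rp_blk (h : TS D L) {x : G} (hx : x ∈ D) : RP (blk D x) := by
  have := (h.prim_blk hx).1.rp.map (Subgroup.closure (blk D x)).subtype Subtype.val_injective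
  convert this
  ext y
  exact ⟨fun hy => ⟨⟨y, Subgroup.subset_closure hy⟩, hy, rfl⟩, by rintro ⟨z, hz, rfl⟩; exact hz⟩

theorem tc (h : TS D L) {x y : G} (hx : x ∈ D) (hy : y ∈ D) (hn : ¬ CConn D x y) :
    TC D (blk D x) (blk D y) := by
  have hr := invEq_cconn (class_conj h.cls)
  refine ⟨h.fs, fun _ e => e.1, fun _ e => e.1, h.rp_blk hx, ?_, fun a ha b hb c => hn ?_,
    fun a ha b hb => h.le_blk hx (h.mul_mem ha hb)⟩
  · obtain ⟨t, rfl⟩ := class_trans h.cls hx hy
    refine ⟨t, Set.ext fun z => ⟨fun hz => ⟨t⁻¹ * z * t⁻¹⁻¹, ⟨class_conj h.cls _ z hz.1, ?_⟩, ?_⟩, ?_⟩⟩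
    · simpa [mul_assoc] using hr.conj t⁻¹ _ _ hz.2
    · simp [mul_assoc]
    · rintro ⟨w, hw, rfl⟩
      exact ⟨class_conj h.cls t w hw.1, hr.conj t _ _ hw.2⟩
  · exact hr.trans _ _ _ (ha.2.tail ⟨ha.1, hb.1, c⟩) hb.2.symm

theorem equiv_commutator (h : TS D L) {x : G} (hx : x ∈ D) {H : Type*} [Group H]
    (e : Subgroup.closure (blk D x) ≃* H) : Nonempty (L ≃* commutator H) :=
  ⟨((Subgroup.subgroupOfEquivOfLe (h.le_blk hx)).symm.trans (MulEquiv.subgroupCongr (h.prim_blk hx).2)).trans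
    (H28.commutatorEquiv e)⟩

theorem card_dvd (h : TS D L) [L.Normal] : Nat.card (G ⧸ L) ∣ Nat.card (Out L) := by
  let ψ : G →* Out L := (QuotientGroup.mk' (Inn L)).comp MulAut.conjNormal
  have hk : ψ.ker = L := by
    ext g
    rw [MonoidHom.mem_ker, MonoidHom.comp_apply, QuotientGroup.mk'_apply, QuotientGroup.eq_one_iff]
    constructor
    · rintro ⟨k, hk⟩
      have : (k : G)⁻¹ * g = 1 := h.cent fun l hl => by
        have h2 : (k : G) * l * (k : G)⁻¹ = g * l * g⁻¹ :=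
          congrArg Subtype.val (MulEquiv.congr_fun hk ⟨l, hl⟩)
        have h3 : g * l = k * l * (k : G)⁻¹ * g := by rw [h2]; group
        rw [Commute, SemiconjBy, mul_assoc, h3]; group
      rw [← inv_mul_eq_one.1 this]; exact k.2
    · exact fun hg => ⟨⟨g, hg⟩, MulEquiv.ext fun l => rfl⟩
  rw [← Subgroup.index_eq_card, ← hk, Subgroup.index_ker, hk]
  exact Subgroup.card_subgroup_dvd_card _

theorem quot_equiv (h : TS D L) [L.Normal] {x y : G} (hx : x ∈ D) (hy : y ∈ D) (hn : ¬ CConn D x y)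
    (hc : Nat.card (Out L) ∣ 24) : Nonempty (G ⧸ L ≃* Equiv.Perm (Fin 3)) := by
  have : Fact (Nat.Prime 3) := ⟨Nat.prime_three⟩
  have fx : ∀ l ∈ L, l * x * l⁻¹ ∈ blk D x := fun l hl => h.conj_blk hl ⟨hx, Relation.ReflTransGen.refl⟩
  have hN : L ≠ ⊤ := by
    rintro rfl
    obtain ⟨t, rfl⟩ := class_trans h.cls hx hy
    exact hn (fx t trivial).2
  have c : ¬ Commute x y := fun c => hn (Relation.ReflTransGen.single ⟨hx, hy, c⟩)
  have c' : ¬ Commute (x : G ⧸ L) (y : G ⧸ L) := fun c' => hn (by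
    have := (fx _ (mul_mem_component_of_quot h.cls h.comp hx hy c')).2
    rwa [conj_mul_of_braid (h.fs.sq _ hx) (h.fs.sq _ hy) (h.fs.br _ hx _ hy c)] at this)
  have hQ := class_image h.cls (QuotientGroup.mk' L) (QuotientGroup.mk'_surjective L)
    fun d hd h1 => hN (eq_top_of_mem_normal h.cls hd ((QuotientGroup.eq_one_iff _).1 h1))
  have hQF := FS.of_class hQ
  obtain ⟨φ, a, b, -⟩ := exists_perm_three_hom (hQF.sq _ ⟨x, hx, rfl⟩) (hQF.sq _ ⟨y, hy, rfl⟩)
    (hQF.br _ ⟨x, hx, rfl⟩ _ ⟨y, hy, rfl⟩ c')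
  have inj := perm_three_hom_injective φ (by rw [a, b]; exact c')
  obtain ⟨k, hk⟩ := ((H3.pCore_isPGroup 3 _).to_le (map_commutator_le_pCore_three h.cls hN
    fun a ha b hb => mul_mem_component_of_commute h.cls h.comp ha hb).2).exists_card_eq
  have h1 := index_commutator_le_two hQ
  have h2 := (commutator (G ⧸ L)).card_mul_index
  have h3 : 3 ^ k ∣ 24 := ((hk ▸ Subgroup.card_subgroup_dvd_card _).trans h.card_dvd).trans hc
  have h4 : 3 ^ k ≤ 3 := by
    rcases Nat.lt_or_ge k 2 with e | e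
    · interval_cases k <;> norm_num
    · exact absurd ((pow_dvd_pow 3 e).trans h3) (by norm_num)
  have h5 : Nat.card (G ⧸ L) ≤ Nat.card (Equiv.Perm (Fin 3)) := by
    rw [← h2, hk, Nat.card_perm, Nat.card_fin]
    exact Nat.mul_le_mul h4 h1
  exact ⟨(MulEquiv.ofBijective φ (inj.bijective_of_nat_card_le h5)).symm⟩

end TS

theorem TC.param_eight [Finite G] {D B B' : Set G} (h : TC D B B') {F : Type} [Field F] [Finite F]
    (pm : ∀ a : F, a ≠ 0 → a = 1 ∨ a = -1) {n : ℕ} (hn : 5 ≤ n) (hQ : IsQ F B n) :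
    ∃ q : H28.V8 F → Subgroup.closure B, Param (H50.sub B) {v | H28.Q8 F v = 1}
      (fun v w => w - polar (H28.Q8 F) v w • v) (fun v w => v = w ∨ v = -w) q := by
  obtain ⟨V, _, _, _, Q, e, hQ, p, hp⟩ := hQ
  obtain ⟨φ, hφ⟩ := (h.iso_plus ⟨pm, h.rp, (H79.nd_iff Q).1 hQ, hp⟩ (by omega)).symm
  obtain ⟨q, -, hq⟩ := (H84.param_Q_comp (Q' := H28.Q8 F) hp φ hφ).sub
  exact ⟨q, hq⟩

theorem TC.isQ {G : Type u} [Group G] [Finite G] (hM : MainStmt.{u}) {D B B' : Set G} (h : TC D B B') :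
    (∃ n, 6 ≤ n ∧ IsQ (ZMod 2) B n) ∨ ∃ n, 6 ≤ n ∧ IsQ (ZMod 3) B n := by
  have := (hM G B h.rp).2 fun d hd => ⟨by_contra fun e => h.not_pol (h.rp.pol ⟨d, hd, e⟩),
    fun a ha b hb e => by_contra fun hne => h.not_isSym (h.rp.isSym_five_of_ta hd ha hb hne e)⟩
  rcases this with ⟨n, -, e⟩ | e | e | e | e | e
  exacts [(h.not_isSym e).elim, Or.inl e, Or.inr e, (h.not_tw (by norm_num) e).elim,
    (h.not_tw (by norm_num) e).elim, (h.not_tw (by norm_num) e).elim]

theorem card_ringAut_zmod (p : ℕ) : Nat.card (RingAut (ZMod p)) = 1 :=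
  Nat.card_eq_one_iff_unique.2 ⟨⟨fun _ _ => RingEquiv.toRingHom_injective (Subsingleton.elim _ _)⟩, ⟨1⟩⟩

/-- Fischer's theorem on disconnected commuting graphs -/
theorem fischer_disc (hM : MainStmt.{u}) {G : Type u} [Group G] [Finite G] {D : Set G}
    (hD : IsThreeTranspositionClass D) (hZ : Subgroup.center G = ⊥) (h2 : pCore 2 G = ⊥)
    (h3 : pCore 3 G = ⊥) (hdisc : ¬ (commutingGraph D).Connected) (F : Subgroup G) [F.Normal]
    (hF : F = generalizedFittingSubgroup G) : Nonempty (G ⧸ F ≃* Equiv.Perm (Fin 3)) ∧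
      (Nonempty (F ≃* Omega (ZMod 2) (quadFormPlus 4 (ZMod 2))) ∨
        Nonempty (F ≃* POmega (ZMod 3) (quadFormPlus 4 (ZMod 3)))) := by
  obtain ⟨x, hx, y, hy, hn⟩ : ∃ x ∈ D, ∃ y ∈ D, ¬ CConn D x y := by
    by_contra hn
    push Not at hn
    obtain ⟨d, hd, -⟩ := hD.2.1
    exact hdisc (connected_iff_cconn.2 ⟨⟨d, hd⟩, hn⟩)
  have hD2 : ∃ a ∈ D, ∃ b ∈ D, a ≠ b := ⟨x, hx, y, hy, fun e => hn (e ▸ Relation.ReflTransGen.refl)⟩
  obtain ⟨L, hL⟩ := exists_component hD hD2 (h2 ▸ bot_le) (h3 ▸ bot_le)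
  obtain rfl : F = L := by
    rw [hF, fstar_eq_component_sup hD (h2 ▸ bot_le) (h3 ▸ bot_le) hL, hZ, sup_bot_eq]
  have h : TS D F := ⟨hD, hD2, hZ, hL⟩
  have t := h.tc hx hy hn
  have hz := h.center_eq (h.le_blk hx)
  rcases t.isQ hM with ⟨n, hn', hQ⟩ | ⟨n, hn', hQ⟩
  · obtain ⟨q, hq⟩ := t.param_eight (by decide) (by omega) hQ
    obtain ⟨e, -⟩ := H84.orth_two_equiv _ H28.hQ8 H28.five_le_I8 hq t.rp.fs.sub (closure_sub _) hz
    obtain ⟨e₁⟩ := h.equiv_commutator hx e
    obtain ⟨o⟩ := H28.out_eight_two (F := ZMod 2) (by decide)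
    have e₂ := (H28.centerQuotEquiv e₁).symm.trans
      ((QuotientGroup.quotientMulEquivOfEq (h.center_eq le_rfl)).trans QuotientGroup.quotientBot)
    refine ⟨h.quot_equiv hx hy hn ?_, Or.inl ⟨e₁⟩⟩
    rw [← H42.card_Out_congr e₂, Nat.card_congr o.toEquiv, card_ringAut_zmod]
    simp [Fintype.card_perm, Nat.factorial]
  · obtain ⟨q, hq⟩ := t.param_eight (by decide) (by omega) hQ
    obtain ⟨e, -⟩ := H84.orth_three_equiv _ hq t.rp.fs.sub (closure_sub _) hz
    obtain ⟨e₁⟩ := h.equiv_commutator hx e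
    have := reflectionSubgroup_normal (H28.Q8 (ZMod 3)) 1
    obtain ⟨e₂⟩ := H99.commutator_equiv_POmega H28.hQ8 (H28.not_isExc_of_five H28.five_le_I8)
      H28.five_le_I8 (reflectionSubgroup (H28.Q8 (ZMod 3)) 1) fun e0 => h.ne_bot (by
        have := Nat.card_congr e₁.toEquiv
        rwa [e0, Subgroup.card_bot, Subgroup.card_eq_one] at this)
    obtain ⟨o⟩ := H28.out_eight_odd (F := ZMod 3) (by decide)
    refine ⟨h.quot_equiv hx hy hn ?_, Or.inr ⟨e₁.trans e₂⟩⟩
    rw [H42.card_Out_congr (e₁.trans e₂), Nat.card_congr o.toEquiv, card_ringAut_zmod]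
    simp [Fintype.card_perm, Nat.factorial]

end Cfsg.Agent.H47
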