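import Cfsg.Agent.H74.UVDefs

/-! The invariant functions are spanned by the averages of the Weil coefficients. -/

set_option autoImplicit false

namespace Cfsg.Agent.H47.UvSpan

open Cfsg Module Cfsg.Agent.H31 Cfsg.Agent.H77.Sg Cfsg.Agent.H74.UV Finset

universe u

variable {E K : Type u} [Field E] [Field K] [Algebra E K] {σ : E →+* E}

/-- the pairing with a fixed function -/
def lam [Fintype K] (l : K → ℂ) : (K → ℂ) →ₗ[ℂ] ℂ where
  toFun f := ∑ u, f u * l u
  map_add' f g := by simp only [Pi.add_apply, add_mul, sum_add_distrib]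
  map_smul' c f := by simp only [Pi.smul_apply, smul_eq_mul, mul_sum, mul_assoc, RingHom.id_apply]

/-- the average over the scalars -/
noncomputable def fz {q : ℕ} [Fintype (Rt K (q + 1))] (a : (K ≃ₗ[E] K) → K → ℂ) (ν : Ch K q) :
    K → ℂ := ((q : ℂ) + 1)⁻¹ • ∑ z : Rt K (q + 1), (((ν z)⁻¹ : ℂˣ) : ℂ) • a (mulH E K z)

/-- the average over the group -/
noncomputable def fg {G : Subgroup (K ≃ₗ[E] K)} [Fintype G] (a : (K ≃ₗ[E] K) → K → ℂ)
    (μ : G →* ℂˣ) : K → ℂ := (Nat.card G : ℂ)⁻¹ • ∑ g : G, (((μ g)⁻¹ : ℂˣ) : ℂ) • a g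

theorem mem_span [Finite K] {G : Subgroup (K ≃ₗ[E] K)} {ι : Type*} [Fintype ι] {v : ι → K → ℂ}
    (h : LinearIndependent ℂ v) (hv : ∀ i, Inv G (v i)) (hn : nO G ≤ Fintype.card ι) {f : K → ℂ}
    (hf : Inv G f) : ∃ c : ι → ℂ, ∑ i, c i • v i = f := by
  let π : (MulAction.orbitRel.Quotient G K → ℂ) →ₗ[ℂ] K → ℂ :=
    LinearMap.funLeft ℂ ℂ (Quotient.mk _)
  have k : ∀ f, Inv G f → f ∈ LinearMap.range π := fun f hf =>
    ⟨Quotient.lift f (by rintro _ y ⟨g, rfl⟩; exact hf g g.2 y), rfl⟩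
  have := Fintype.ofFinite (MulAction.orbitRel.Quotient G K)
  have e : Submodule.span ℂ (Set.range v) = LinearMap.range π := by
    refine Submodule.eq_of_le_of_finrank_le
      (Submodule.span_le.2 (by rintro _ ⟨i, rfl⟩; exact k _ (hv i))) ?_
    rw [finrank_span_eq_card h]
    refine (LinearMap.finrank_range_le π).trans (le_trans (le_of_eq ?_) hn)
    rw [finrank_fintype_fun_eq_card, nO, Nat.card_eq_fintype_card]
  exact (Submodule.mem_span_range_iff_exists_fun ℂ).1 (e ▸ k f hf)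

variable {B : K →ₛₗ[σ] K →ₗ[E] E} {q R t : ℕ} {G : Subgroup (K ≃ₗ[E] K)}
  {ψ : AddChar E ℂ} {a L : (K ≃ₗ[E] K) → K → ℂ} (w : Wr B q ψ a L)

include w

theorem inv_fg [Fintype G] (hG : G ≤ isom B) (μ : G →* ℂˣ) : Inv G (fg a μ) := fun g hg u => by
  simp only [fg, Pi.smul_apply, Finset.sum_apply]
  congr 1
  refine (Fintype.sum_equiv (MulAut.conj (⟨g, hg⟩ : G)).toEquiv _ _ fun x => ?_).symm
  have e : μ (⟨g, hg⟩ * x * (⟨g, hg⟩ : G)⁻¹) = μ x := by
    rw [map_mul, map_mul, map_inv, mul_inv_cancel_comm]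
  change _ = (((μ (⟨g, hg⟩ * x * (⟨g, hg⟩ : G)⁻¹))⁻¹ : ℂˣ) : ℂ) • a (g * x * g⁻¹) (g u)
  rw [e, w.inv _ (hG x.2) g (hG hg)]

theorem inv_fz [Fintype E] [Fintype (Rt K (q + 1))] (k : Kt B q R t) (z : Zt B q R t) (hG : G ≤ isom B)
    (ν : Ch K q) : Inv G (fz a ν) := fun g hg u => by
  simp only [fz, Pi.smul_apply, Finset.sum_apply]
  congr 1
  refine sum_congr rfl fun x _ => ?_
  rw [← w.inv _ ((k.iso _).2 (k.ZT x.2)) g (hG hg) u, ← z.com, mul_inv_cancel_right]

variable [Fintype K]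

theorem lam_a {g g' : K ≃ₗ[E] K} (hg : g ∈ isom B) (hg' : g' ∈ isom B) :
    lam (L g') (a g) = wo q (g' * g) := by
  rw [w.tr g hg g' hg', finsum_eq_sum_of_fintype]
  rfl

theorem th_eq (f : K → ℂ) {s : Kˣ} (hs : s ∈ Rt K (q ^ 11 + 1)) (h1 : s ≠ 1) :
    Th q ψ f (kap s) = -lam (L (mulH E K s)) f := by
  rw [Th, finsum_eq_sum_of_fintype]
  change _ = -∑ u, _
  simp only [w.val s hs h1, mul_neg, sum_neg_distrib, neg_neg]

theorem lam_fz [Fintype E] [Fintype (Rt K (q + 1))] (k : Kt B q R t) (z : Zt B q R t) (ν : Ch K q)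
    {g : K ≃ₗ[E] K} (hg : g ∈ isom B) : lam (L g) (fz a ν) = ze q ν g := by
  rw [fz, map_smul, map_sum, ze, finsum_eq_sum_of_fintype, smul_eq_mul]
  congr 1
  refine sum_congr rfl fun x _ => ?_
  rw [map_smul, lam_a w ((k.iso _).2 (k.ZT x.2)) hg, z.com, smul_eq_mul]

theorem lam_fg [Fintype G] (hG : G ≤ isom B) (μ : G →* ℂˣ) {g : K ≃ₗ[E] K} (hg : g ∈ isom B) :
    lam (L g) (fg a μ) =
      (Nat.card G : ℂ)⁻¹ * ∑ x : G, (((μ x)⁻¹ : ℂˣ) : ℂ) * wo q (g * x.1) := by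
  rw [fg, map_smul, map_sum, smul_eq_mul]
  congr 1
  refine sum_congr rfl fun x _ => ?_
  rw [map_smul, lam_a w (hG x.2) hg, smul_eq_mul]

theorem lam_hm [Fintype E] [Fintype G] (k : Kt B q R t) (hG : G ≤ isom B) (μ : G →* ℂˣ) {s : Kˣ}
    (hs : s ∈ Rt K (q ^ 11 + 1)) : lam (L (mulH E K s)) (fg a μ) = hm q μ s := by
  rw [lam_fg w hG μ ((k.iso s).2 hs), hm, finsum_eq_sum_of_fintype]

theorem lam_mu [Fintype G] (hG : G ≤ isom B) {μ : G →* ℂˣ} (h : hm q μ 1 = 1) (g : G) :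
    lam (L g) (fg a μ) = μ g := by
  rw [hm, finsum_eq_sum_of_fintype, map_one] at h
  rw [lam_fg w hG μ (hG g.2), ← mul_one (μ g : ℂ), ← h, mul_left_comm]
  congr 1
  rw [mul_sum]
  refine Fintype.sum_equiv (Equiv.mulLeft g) _ _ fun x => ?_
  simp [← mul_assoc, mul_right_comm (μ g : ℂ)]

omit w [Fintype K] in
theorem span : SpanStmt.{u} := by
  intro E K _ _ _ _ _ σ B q R t G ψ a L I μ k z w hG hZ hP _ hμZ hμP h1 hn
  classical
  have : Finite (K ≃ₗ[E] K) := Finite.of_injective _ DFunLike.coe_injective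
  have : Finite (Ch K q) := Nat.finite_of_card_ne_zero (k.cardCh ▸ q.succ_ne_zero)
  have := Fintype.ofFinite K
  have := Fintype.ofFinite G
  have := Fintype.ofFinite (Ch K q)
  have := Fintype.ofFinite (Rt K (q + 1))
  refine ⟨fun ν _ => ⟨-fg a (μ ν), fun g hg u => congrArg Neg.neg (inv_fg w hG _ g hg u),
    fun s hs s1 => by rw [th_eq w _ hs s1, map_neg, neg_neg, lam_hm w k hG _ hs]⟩, fun f hf => ?_⟩
  let v : Ch K q ⊕ I → K → ℂ := Sum.elim (fz a) fun ν => fg a (μ ν)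
  have ev : ∀ (c : Ch K q ⊕ I → ℂ) g, lam (L g) (∑ i, c i • v i) =
      ∑ ν, c (.inl ν) * lam (L g) (fz a ν) + ∑ ν : I, c (.inr ν) * lam (L g) (fg a (μ ν)) :=
    fun c g => by
      rw [map_sum, Fintype.sum_sum_type]
      simp only [map_smul, smul_eq_mul, v, Sum.elim_inl, Sum.elim_inr]
  have li : LinearIndependent ℂ v := Fintype.linearIndependent_iff.2 fun c hc => by
    have key : ∀ (g : G) ν, c (.inl ν) * ze q ν g.1 +
        (if h : ν ∈ I then c (.inr ⟨ν, h⟩) * μ ν g else 0) = 0 := fun g => by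
      have li := (linearIndependent_monoidHom (Rt K (q + 1)) ℂ).comp
        (fun ν : Ch K q => (Units.coeHom ℂ).comp ν) fun ν ν' e =>
          MonoidHom.ext fun x => Units.ext (DFunLike.congr_fun e x)
      refine Fintype.linearIndependent_iff.1 li _ (funext fun x => ?_)
      let y : G := ⟨_, hZ x x.2⟩
      have e := ev c (y * g).1
      rw [hc, map_zero] at e
      refine Eq.trans ?_ e.symm
      rw [Finset.sum_apply]
      simp only [Pi.smul_apply, smul_eq_mul, add_mul, sum_add_distrib]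
      congr 1
      · refine sum_congr rfl fun ν _ => ?_
        rw [lam_fz w k z ν (hG (y * g).2)]
        exact (mul_assoc _ _ _).trans (congrArg _ ((mul_comm _ _).trans (z.cen ν x g).symm))
      · rw [← sum_subset (subset_univ I) fun ν _ h => by rw [dif_neg h, zero_mul], ← sum_coe_sort I]
        refine sum_congr rfl fun ν _ => ?_
        rw [dif_pos ν.2, lam_mu w hG (h1 ν ν.2), map_mul, hμZ ν ν.2 x y rfl, Units.val_mul,
          mul_assoc, mul_comm (μ ν g : ℂ)]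
        rfl
    have t1 : 1 < Nat.card (Rt K t) := by have := k.t43; rw [k.cardP]; omega
    obtain ⟨⟨p, hp⟩, p1⟩ := Subgroup.ne_bot_iff_exists_ne_one.1
      ((Subgroup.one_lt_card_iff_ne_bot _).1 t1)
    have hp' : mulH E K p ∈ Pt E K t := ⟨p, hp, rfl⟩
    have c0 : ∀ ν, c (.inl ν) = 0 := fun ν => by
      have e1 := key 1 ν
      have e2 := key ⟨_, hP hp'⟩ ν
      rw [map_one, OneMemClass.coe_one, z.deg] at e1
      rw [z.val ν p (k.PT hp) fun h => p1 (Subtype.ext (k.ZP p h hp))] at e2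
      refine (mul_eq_zero_iff_right (show ((R * t : ℕ) : ℂ) ≠ 0 from
        Nat.cast_ne_zero.2 fun e => ?_)).1 ?_
      · have := k.card
        rw [mul_right_comm, e, zero_mul] at this
        omega
      · by_cases h : ν ∈ I
        · rw [dif_pos h] at e1 e2
          rw [hμP ν h _ hp'] at e2
          linear_combination e1 - e2
        · rw [dif_neg h] at e1 e2
          linear_combination e1 - e2
    rintro (ν | ν)
    · exact c0 ν
    · simpa [c0] using key 1 ν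
  obtain ⟨c, rfl⟩ := mem_span li (by
    rintro (ν | ν)
    exacts [inv_fz w k z hG ν, inv_fg w hG _]) (by
    rwa [Fintype.card_sum, Fintype.card_coe, ← Nat.card_eq_fintype_card, k.cardCh]) hf
  refine ⟨∑ ν, c (.inl ν) * dl ν, fun ν => if h : ν ∈ I then -c (.inr ⟨ν, h⟩) else 0,
    fun s hs hs' => ?_⟩
  rw [th_eq w _ hs fun e => hs' (e ▸ one_mem _), ev, neg_add, ← sum_neg_distrib,
    ← sum_neg_distrib, ← sum_coe_sort I]
  congr 1 <;> refine sum_congr rfl fun ν _ => ?_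
  · rw [lam_fz w k z ν ((k.iso s).2 hs), z.val ν s hs hs', mul_neg, neg_neg]
  · rw [lam_hm w k hG _ hs, ← neg_mul]
    simp only [dif_pos ν.2]

end Cfsg.Agent.H47.UvSpan
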